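import Mathlib
import Cfsg.Prelude.Def_PLocal
import Cfsg.Agent.Helper19.ThompsonJ

/-!
Helper19: the Thompson subgroup `J(X)` in its abelian version (`Cfsg.thompsonSubgroupAOf`:
generated by the abelian subgroups of largest order) of a subgroup `X ≤ G`, described internally
by subgroups of `G` (`Ab`, `MaxAb`, `JA`), with its transport along homomorphisms injective on
`X`, its invariance under `N_G(X)`, and nontriviality.
-/

set_option autoImplicit false

namespace Cfsg.Agent.Helper19

variable {G : Type*} [Group G]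

/-- abelian, stated elementwise -/
def Ab (A : Subgroup G) : Prop := ∀ a ∈ A, ∀ b ∈ A, a * b = b * a

/-- `A` is an abelian subgroup of `X` of largest order -/
def MaxAb (X A : Subgroup G) : Prop :=
  A ≤ X ∧ Ab A ∧ ∀ B : Subgroup G, B ≤ X → Ab B → Nat.card B ≤ Nat.card A

/-- the abelian-version Thompson subgroup of `X`, inside `G` -/
def JA (X : Subgroup G) : Subgroup G := sSup {A | MaxAb X A}

theorem ab_iff_isMulCommutative (A : Subgroup G) : Ab A ↔ IsMulCommutative A := by
  constructor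
  · intro h
    exact ⟨⟨fun a b => Subtype.ext (h a a.2 b b.2)⟩⟩
  · intro h a ha b hb
    have := h.is_comm.comm (⟨a, ha⟩ : A) ⟨b, hb⟩
    exact congrArg Subtype.val this

theorem Ab.mono {A B : Subgroup G} (h : Ab A) (hle : B ≤ A) : Ab B :=
  fun a ha b hb => h a (hle ha) b (hle hb)

theorem Ab_bot : Ab (⊥ : Subgroup G) := by
  intro a ha b hb
  rw [Subgroup.mem_bot] at ha hb
  rw [ha, hb]

theorem Ab.map {G' : Type*} [Group G'] {A : Subgroup G} (h : Ab A) (f : G →* G') :
    Ab (A.map f) := by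
  rintro _ ⟨a, ha, rfl⟩ _ ⟨b, hb, rfl⟩
  rw [← map_mul, ← map_mul, h a ha b hb]

theorem Ab.of_map {G' : Type*} [Group G'] {A X : Subgroup G} (f : G →* G')
    (hf : Set.InjOn f X) (hAX : A ≤ X) (h : Ab (A.map f)) : Ab A := by
  intro a ha b hb
  apply hf (X.mul_mem (hAX ha) (hAX hb)) (X.mul_mem (hAX hb) (hAX ha))
  rw [map_mul, map_mul]
  exact h _ (Subgroup.mem_map_of_mem f ha) _ (Subgroup.mem_map_of_mem f hb)

/-- the join of two abelian subgroups centralising each other is abelian -/
theorem Ab.sup {A B : Subgroup G} (hA : Ab A) (hB : Ab B)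
    (hAB : ∀ a ∈ A, ∀ b ∈ B, a * b = b * a) : Ab (A ⊔ B) := by
  have h1 : A ⊔ B ≤ Subgroup.centralizer (A : Set G) := by
    apply sup_le
    · intro a ha
      rw [Subgroup.mem_centralizer_iff]
      intro x hx
      exact hA x hx a ha
    · intro b hb
      rw [Subgroup.mem_centralizer_iff]
      intro x hx
      exact hAB x hx b hb
  have h2 : A ⊔ B ≤ Subgroup.centralizer (B : Set G) := by
    apply sup_le
    · intro a ha
      rw [Subgroup.mem_centralizer_iff]
      intro x hx
      exact (hAB a ha x hx).symm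
    · intro b hb
      rw [Subgroup.mem_centralizer_iff]
      intro x hx
      exact hB x hx b hb
  have h3 : A ⊔ B ≤ Subgroup.centralizer ((A ⊔ B : Subgroup G) : Set G) := by
    intro x hx
    rw [Subgroup.mem_centralizer_iff]
    intro y hy
    have h4 : A ⊔ B ≤ Subgroup.centralizer ({x} : Set G) := by
      apply sup_le
      · intro a ha
        rw [Subgroup.mem_centralizer_iff]
        intro z hz
        rw [Set.mem_singleton_iff] at hz
        rw [hz]
        exact (Subgroup.mem_centralizer_iff.mp (h1 hx) a ha).symm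
      · intro b hb
        rw [Subgroup.mem_centralizer_iff]
        intro z hz
        rw [Set.mem_singleton_iff] at hz
        rw [hz]
        exact (Subgroup.mem_centralizer_iff.mp (h2 hx) b hb).symm
    exact (Subgroup.mem_centralizer_iff.mp (h4 hy) x rfl).symm
  intro x hx y hy
  exact (Subgroup.mem_centralizer_iff.mp (h3 hy) x hx)

theorem Ab_zpowers (x : G) : Ab (Subgroup.zpowers x) := by
  rintro _ ⟨i, rfl⟩ _ ⟨j, rfl⟩
  exact (Commute.zpow_zpow_self x i j).eq

theorem maxAb_map_iff {G' : Type*} [Group G'] {X : Subgroup G} (f : G →* G')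
    (hf : Set.InjOn f X) (A' : Subgroup G') :
    MaxAb (X.map f) A' ↔ ∃ A, MaxAb X A ∧ A.map f = A' := by
  constructor
  · rintro ⟨hle, hEA, hmax⟩
    refine ⟨A'.comap f ⊓ X, ⟨inf_le_right, ?_, ?_⟩, map_comap_inf_eq f hle⟩
    · apply Ab.of_map f hf inf_le_right
      rw [map_comap_inf_eq f hle]; exact hEA
    · intro B hB hBEA
      have h1 := hmax (B.map f) (Subgroup.map_mono hB) (hBEA.map f)
      rw [card_map_of_injOn f hf hB] at h1
      have h2 := card_map_of_injOn f hf (inf_le_right : A'.comap f ⊓ X ≤ X)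
      rw [map_comap_inf_eq f hle] at h2
      rw [← h2]; exact h1
  · rintro ⟨A, ⟨hle, hEA, hmax⟩, rfl⟩
    refine ⟨Subgroup.map_mono hle, hEA.map f, ?_⟩
    intro B' hB' hBEA
    have h1 : Ab (B'.comap f ⊓ X) := by
      apply Ab.of_map f hf inf_le_right
      rw [map_comap_inf_eq f hB']; exact hBEA
    have h2 := hmax _ inf_le_right h1
    have h3 := card_map_of_injOn f hf (inf_le_right : B'.comap f ⊓ X ≤ X)
    rw [map_comap_inf_eq f hB'] at h3
    rw [card_map_of_injOn f hf hle, h3]; exact h2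

/-- transport of `J` along a homomorphism injective on `X` -/
theorem JA_map {G' : Type*} [Group G'] {X : Subgroup G} (f : G →* G')
    (hf : Set.InjOn f X) : JA (X.map f) = (JA X).map f := by
  unfold JA
  apply le_antisymm
  · apply sSup_le
    intro A' hA'
    obtain ⟨A, hA, rfl⟩ := (maxAb_map_iff f hf A').mp hA'
    exact Subgroup.map_mono (le_sSup hA)
  · rw [(Subgroup.gc_map_comap f).l_sSup]
    apply iSup₂_le
    intro A hA
    exact le_sSup ((maxAb_map_iff f hf _).mpr ⟨A, hA, rfl⟩)

theorem JA_le (X : Subgroup G) : JA X ≤ X :=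
  sSup_le fun _ hA => hA.1

theorem exists_maxAb [Finite G] (X : Subgroup G) : ∃ A, MaxAb X A := by
  have : Nonempty {A : Subgroup G // A ≤ X ∧ Ab A} := ⟨⟨⊥, bot_le, Ab_bot⟩⟩
  obtain ⟨A, hA⟩ := Finite.exists_max
    (fun A : {A : Subgroup G // A ≤ X ∧ Ab A} => Nat.card (A : Subgroup G))
  exact ⟨A.1, A.2.1, A.2.2, fun B hB hBEA => hA ⟨B, hB, hBEA⟩⟩

theorem ab_map_subtype {X : Subgroup G} {A' : Subgroup X} (h : IsMulCommutative A') :
    Ab (A'.map X.subtype) :=
  ((ab_iff_isMulCommutative A').mpr h).map _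

theorem isMulCommutative_subgroupOf {A : Subgroup G} (h : Ab A) (X : Subgroup G) :
    IsMulCommutative (A.subgroupOf X) := by
  rw [← ab_iff_isMulCommutative]
  intro a ha b hb
  exact Subtype.ext (h a (Subgroup.mem_subgroupOf.mp ha) b (Subgroup.mem_subgroupOf.mp hb))

/-- `Cfsg.thompsonSubgroupAOf` is the internal `JA` -/
theorem thompsonSubgroupAOf_eq_JA (X : Subgroup G) :
    Cfsg.thompsonSubgroupAOf X = JA X := by
  unfold Cfsg.thompsonSubgroupAOf Cfsg.thompsonSubgroupA JA
  rw [(Subgroup.gc_map_comap X.subtype).l_sSup]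
  apply le_antisymm
  · apply iSup₂_le
    intro A' hA'
    apply le_sSup
    refine ⟨Subgroup.map_subtype_le _, ab_map_subtype hA'.1, ?_⟩
    intro B hB hBEA
    have h1 := hA'.2 (B.subgroupOf X) (isMulCommutative_subgroupOf hBEA X)
    rw [Nat.card_congr (Subgroup.subgroupOfEquivOfLe hB).toEquiv] at h1
    rw [Subgroup.card_map_of_injective X.subtype_injective]
    exact h1
  · apply sSup_le
    intro A hA
    have h1 : A.subgroupOf X ∈ Cfsg.maxAbelianSubgroups ↥X := by
      refine ⟨isMulCommutative_subgroupOf hA.2.1 X, ?_⟩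
      intro B' hB'
      have h2 := hA.2.2 (B'.map X.subtype) (Subgroup.map_subtype_le _) (ab_map_subtype hB')
      rw [Subgroup.card_map_of_injective X.subtype_injective] at h2
      rw [Nat.card_congr (Subgroup.subgroupOfEquivOfLe hA.1).toEquiv]
      exact h2
    have h3 : A = (A.subgroupOf X).map X.subtype := (Subgroup.map_subgroupOf_eq_of_le hA.1).symm
    rw [h3]
    exact le_iSup₂ (f := fun (B : Subgroup ↥X) (_ : B ∈ Cfsg.maxAbelianSubgroups ↥X) =>
      B.map X.subtype) (A.subgroupOf X) h1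

/-- `J(X)` is invariant under `N_G(X)` -/
theorem normalizer_le_normalizer_JA (X : Subgroup G) :
    Subgroup.normalizer (X : Set G) ≤ Subgroup.normalizer (JA X : Set G) := by
  intro g hg
  have h1 : X.map (MulAut.conj g).toMonoidHom = X := Subgroup.mem_normalizer_iff_map_conj_eq.mp hg
  have h2 := JA_map (X := X) (MulAut.conj g).toMonoidHom
    ((MulAut.conj g).injective.injOn)
  rw [h1] at h2
  exact Subgroup.mem_normalizer_iff_map_conj_eq.mpr h2.symm

theorem JA_ne_bot [Finite G] {X : Subgroup G} (hne : X ≠ ⊥) : JA X ≠ ⊥ := by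
  obtain ⟨x, hxX, hx1⟩ : ∃ x ∈ X, x ≠ 1 := by
    by_contra hcon
    apply hne
    rw [eq_bot_iff]
    intro x hx
    rw [Subgroup.mem_bot]
    by_contra hx1
    exact hcon ⟨x, hx, hx1⟩
  obtain ⟨A, hA⟩ := exists_maxAb X
  have h2 := hA.2.2 _ (Subgroup.zpowers_le.mpr hxX) (Ab_zpowers x)
  intro hbot
  have h3 : A ≤ JA X := le_sSup hA
  rw [hbot, le_bot_iff] at h3
  rw [h3, Subgroup.card_bot, Nat.card_zpowers] at h2
  have h4 : orderOf x = 1 := le_antisymm h2 (orderOf_pos x)
  exact hx1 (orderOf_eq_one_iff.mp h4)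

/-- if every largest abelian subgroup of `P` lies in `H ≤ P` then `J(P) = J(H)` -/
theorem JA_eq_of_forall_le [Finite G] {P H : Subgroup G} (hHP : H ≤ P)
    (h : ∀ A, MaxAb P A → A ≤ H) : JA P = JA H := by
  obtain ⟨A₀, hA₀⟩ := exists_maxAb P
  have key : ∀ A, MaxAb P A ↔ MaxAb H A := by
    intro A
    constructor
    · intro hA
      exact ⟨h A hA, hA.2.1, fun B hB hBEA => hA.2.2 B (hB.trans hHP) hBEA⟩
    · intro hA
      refine ⟨hA.1.trans hHP, hA.2.1, fun B hB hBEA => ?_⟩
      exact (hA₀.2.2 B hB hBEA).trans (hA.2.2 A₀ (h A₀ hA₀) hA₀.2.1)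
  unfold JA
  congr 1
  ext A
  exact key A

end Cfsg.Agent.Helper19
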