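import Mathlib
import Cfsg.Agent.Helper13.TIDefs2

set_option autoImplicit false

/-!
# S5961 piece CAUCHY (helper19, for helper13): Cauchy's theorem in `Sp`, in `toEnd` form.
-/

namespace Cfsg.Agent.Helper19.TI5961

open Module Polynomial
open Cfsg.Agent.Helper42.SpForm Cfsg.Agent.Helper42.SpGroup Cfsg.Agent.Helper42.SpModels
open Cfsg.Agent.Helper13.TIsp Cfsg.Agent.Helper90.BG
open Cfsg.Agent.Helper11.TI5955 Cfsg.Agent.Helper58.TI5955 Cfsg.Agent.Helper59.TI5955
open Cfsg.Agent.Helper51.TI5955 Cfsg.Agent.Helper70.TI5955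

section sp

variable {F : Type*} [Field F]

/-- CAUCHY -/
theorem sp_cauchy [Fintype F] (d : ℕ) (r : ℕ) [Fact r.Prime]
    (h : r ∣ Nat.card (Matrix.symplecticGroup (Fin d) F)) :
    ∃ g : Matrix.symplecticGroup (Fin d) F, toEnd g ^ r = 1 ∧ toEnd g ≠ 1 := by
  classical
  haveI : Finite (Matrix.symplecticGroup (Fin d) F) := Subtype.finite
  obtain ⟨g, hg⟩ := exists_prime_orderOf_dvd_card' r h
  refine ⟨g, ?_, ?_⟩
  · rw [← toEnd_pow, ← hg, pow_orderOf_eq_one, toEnd_one]
  · intro h1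
    have hg1 : g = 1 := toEnd_injective (by rw [h1, toEnd_one])
    rw [hg1, orderOf_one] at hg
    exact (Fact.out : r.Prime).ne_one hg.symm

end sp

end Cfsg.Agent.Helper19.TI5961
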