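import Mathlib
import Cfsg.Agent.Helper13.TLDefs

/-!
# CALL S5954 pieces UMODELSUM / UMODELALL: cores (helper19, for helper13)

`umodel_sum_of`: UMODELSUM from the data of UDSUM.
`umodel_blk_one`: the block of size one.
`umodel_all_of`: UMODELALL from a block provider and UMODELSUM.
-/

set_option autoImplicit false

namespace Cfsg.Agent.Helper19.TI5954

open Module Polynomial
open Cfsg.Agent.Helper13.TIu Cfsg.Agent.Helper13.TIsp

section std2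

variable {F : Type*} [Field F] {σ : F →+* F}

/-- UMODELSUM from the data provided by UDSUM. -/
theorem umodel_sum_of (p : ℕ) (n₁ n₂ : ℕ) (T₁ : Module.End F (Fin n₁ → F))
    (T₂ : Module.End F (Fin n₂ → F)) (T : Module.End F (Fin (n₁ + n₂) → F))
    (Φ : ((Fin n₁ → F) × (Fin n₂ → F)) ≃ₗ[F] (Fin (n₁ + n₂) → F))
    (hΦ : ∀ x, T (Φ x) = Φ (T₁ x.1, T₂ x.2))
    (hp₁ : T₁ ^ p = 1) (hp₂ : T₂ ^ p = 1) (l₁ l₂ : Multiset ℕ) (hl₁ : JT (T₁ - 1) ⊤ l₁)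
    (hl₂ : JT (T₂ - 1) ⊤ l₂) : T ^ p = 1 ∧ JT (T - 1) ⊤ (l₁ + l₂) := by
  have hk : ∀ (k : ℕ) x, (T ^ k) (Φ x) = Φ ((T₁ ^ k) x.1, (T₂ ^ k) x.2) := by
    intro k
    induction k with
    | zero => intro x; simp
    | succ k ih =>
      intro x
      rw [pow_succ, Module.End.mul_apply, hΦ, ih]
      simp only [pow_succ, Module.End.mul_apply]
  constructor
  · apply LinearMap.ext
    intro y
    obtain ⟨x, rfl⟩ := Φ.surjective y
    rw [hk, hp₁, hp₂]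
    simp
  · apply Cfsg.Agent.Helper37.TI5956.jt_xfer Φ ((T₁ - 1).prodMap (T₂ - 1)) (T - 1) ?_ (l₁ + l₂)
      (Cfsg.Agent.Helper37.TI5956.h37_jt_prod _ _ l₁ l₂ hl₁ hl₂)
    intro v
    rw [LinearMap.sub_apply, hΦ, Module.End.one_apply, ← map_sub]
    rfl

/-- the block of size one: the identity on `Fin 1 → F`. -/
theorem umodel_blk_one (p : ℕ) :
    ∃ T : Module.End F (Fin 1 → F), UPres (stdH σ 1) T ∧ T ^ p = 1 ∧
      JT (T - 1) ⊤ (Multiset.replicate 1 1) := by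
  refine ⟨1, fun u v => rfl, one_pow _, ?_⟩
  intro k
  rw [sub_self]
  rcases Nat.eq_zero_or_pos k with hk | hk
  · subst hk
    rw [pow_zero, Module.End.one_eq_id, LinearMap.ker_id, inf_bot_eq, finrank_bot]
    simp
  · rw [zero_pow (by omega), LinearMap.ker_zero, inf_top_eq, finrank_top,
      Module.finrank_fintype_fun_eq_card, Fintype.card_fin]
    simp
    omega

/-- UMODELALL from a block provider and UMODELSUM. -/
theorem umodel_all_of (p : ℕ)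
    (hblk : ∀ a : ℕ, 1 ≤ a → a ≤ p → ∃ T : Module.End F (Fin a → F), UPres (stdH σ a) T ∧
      T ^ p = 1 ∧ JT (T - 1) ⊤ (Multiset.replicate 1 a))
    (hs : ∀ (n₁ n₂ : ℕ) (T₁ : Module.End F (Fin n₁ → F)) (T₂ : Module.End F (Fin n₂ → F)),
      UPres (stdH σ n₁) T₁ → UPres (stdH σ n₂) T₂ → T₁ ^ p = 1 → T₂ ^ p = 1 →
      ∀ l₁ l₂ : Multiset ℕ, JT (T₁ - 1) ⊤ l₁ → JT (T₂ - 1) ⊤ l₂ →
        ∃ T : Module.End F (Fin (n₁ + n₂) → F), UPres (stdH σ (n₁ + n₂)) T ∧ T ^ p = 1 ∧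
          JT (T - 1) ⊤ (l₁ + l₂))
    (μ : Multiset ℕ) (hμ : ∀ a ∈ μ, 0 < a ∧ a ≤ p) (n : ℕ) (hsum : μ.sum = n) :
    ∃ T : Module.End F (Fin n → F), UPres (stdH σ n) T ∧ T ^ p = 1 ∧ JT (T - 1) ⊤ μ := by
  induction μ using Multiset.induction_on generalizing n with
  | empty =>
    rw [Multiset.sum_zero] at hsum
    subst hsum
    refine ⟨1, fun u v => rfl, one_pow _, ?_⟩
    intro k
    simp [Module.finrank_zero_of_subsingleton]
  | cons a μ ih =>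
    obtain ⟨ha0, hap⟩ := hμ a (Multiset.mem_cons_self a μ)
    obtain ⟨T₁, h₁, hp₁, hJ₁⟩ := hblk a ha0 hap
    obtain ⟨T₂, h₂, hp₂, hJ₂⟩ := ih (fun b hb => hμ b (Multiset.mem_cons_of_mem hb)) μ.sum rfl
    obtain ⟨T, hT, hp, hJ⟩ := hs a μ.sum T₁ T₂ h₁ h₂ hp₁ hp₂ _ _ hJ₁ hJ₂
    rw [Multiset.sum_cons] at hsum
    subst hsum
    refine ⟨T, hT, hp, ?_⟩
    rw [Multiset.replicate_one, Multiset.singleton_add] at hJ
    exact hJ

end std2

end Cfsg.Agent.Helper19.TI5954
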