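import Mathlib
import Cfsg.Agent.Helper13.TLDefs
import Cfsg.Agent.Helper31.TLUDSUM
import Cfsg.Agent.Helper19.TLUMODELALL0

/-!
# CALL S5954 piece UMODELSUM (helper19, for helper13)
-/

set_option autoImplicit false

namespace Cfsg.Agent.Helper19.TI5954

open Module Polynomial
open Cfsg.Agent.Helper13.TIu Cfsg.Agent.Helper13.TIsp

section std2

variable {F : Type*} [Field F] {σ : F →+* F}

/-- UMODELSUM (case A; uses UDSUM, `jt_xfer`-style kernel computation; mirror `model_sum`). -/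
theorem umodel_sum (p : ℕ) (n₁ n₂ : ℕ) (T₁ : Module.End F (Fin n₁ → F))
    (T₂ : Module.End F (Fin n₂ → F)) (h₁ : UPres (stdH σ n₁) T₁) (h₂ : UPres (stdH σ n₂) T₂)
    (hp₁ : T₁ ^ p = 1) (hp₂ : T₂ ^ p = 1) (l₁ l₂ : Multiset ℕ) (hl₁ : JT (T₁ - 1) ⊤ l₁)
    (hl₂ : JT (T₂ - 1) ⊤ l₂) :
    ∃ T : Module.End F (Fin (n₁ + n₂) → F), UPres (stdH σ (n₁ + n₂)) T ∧ T ^ p = 1 ∧
      JT (T - 1) ⊤ (l₁ + l₂) := by
  obtain ⟨T, Φ, hT, hΦ, -⟩ := Cfsg.Agent.Helper31.TI5954.u_dsum n₁ n₂ T₁ T₂ h₁ h₂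
  obtain ⟨hp, hJ⟩ := umodel_sum_of p n₁ n₂ T₁ T₂ T Φ hΦ hp₁ hp₂ l₁ l₂ hl₁ hl₂
  exact ⟨T, hT, hp, hJ⟩

end std2

end Cfsg.Agent.Helper19.TI5954
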