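/-
CALL S1382 (helper1), piece POW (pure), by helper19.
-/
import Mathlib

set_option autoImplicit false

namespace Cfsg.Agent.Helper19

open Subgroup

universe u

/-- Elements of `A ⊔ B` are products `a * b` when `A` and `B` commute elementwise. -/
theorem bg16c_aux_mem_sup {Γ : Type u} [Group Γ] {A B : Subgroup Γ}
    (hcomm : ∀ a ∈ A, ∀ b ∈ B, a * b = b * a) {z : Γ} (hz : z ∈ A ⊔ B) :
    ∃ a ∈ A, ∃ b ∈ B, z = a * b := by
  rw [Subgroup.sup_eq_closure] at hz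
  induction hz using Subgroup.closure_induction with
  | mem x hx =>
    rcases hx with hx | hx
    · exact ⟨x, hx, 1, B.one_mem, (mul_one x).symm⟩
    · exact ⟨1, A.one_mem, x, hx, (one_mul x).symm⟩
  | one => exact ⟨1, A.one_mem, 1, B.one_mem, (mul_one 1).symm⟩
  | mul x y _ _ hx hy =>
    obtain ⟨a, ha, b, hb, rfl⟩ := hx
    obtain ⟨a', ha', b', hb', rfl⟩ := hy
    refine ⟨a * a', A.mul_mem ha ha', b * b', B.mul_mem hb hb', ?_⟩
    have h := hcomm a' ha' b hb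
    calc a * b * (a' * b') = a * (b * a') * b' := by group
      _ = a * (a' * b) * b' := by rw [← h]
      _ = a * a' * (b * b') := by group
  | inv x _ hx =>
    obtain ⟨a, ha, b, hb, rfl⟩ := hx
    refine ⟨a⁻¹, A.inv_mem ha, b⁻¹, B.inv_mem hb, ?_⟩
    have h := hcomm a⁻¹ (A.inv_mem ha) b⁻¹ (B.inv_mem hb)
    rw [mul_inv_rev, h]

/-- POW (pure). `z = a b` (`a ∈ A`, `b ∈ B` commuting, `b ≠ 1` as `z ∉ A`):
`z ^ |A| = b ^ |A| ∈ B`, and `b ^ |A| ≠ 1` because `orderOf b` divides `|B|`, prime to `|A|`. -/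
theorem bg16c_pow_mem {Γ : Type u} [Group Γ] [Finite Γ] {A B : Subgroup Γ}
    (hcomm : ∀ a ∈ A, ∀ b ∈ B, a * b = b * a) (hcop : (Nat.card A).Coprime (Nat.card B)) {z : Γ}
    (hz : z ∈ A ⊔ B) (hzA : z ∉ A) : z ^ Nat.card A ∈ B ∧ z ^ Nat.card A ≠ 1 := by
  obtain ⟨a, ha, b, hb, rfl⟩ := bg16c_aux_mem_sup hcomm hz
  have hb1 : b ≠ 1 := by
    rintro rfl
    exact hzA (by simpa using ha)
  have hab : Commute a b := hcomm a ha b hb
  have hapow : a ^ Nat.card A = 1 :=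
    orderOf_dvd_iff_pow_eq_one.mp (Subgroup.orderOf_dvd_natCard A ha)
  have heq : (a * b) ^ Nat.card A = b ^ Nat.card A := by
    rw [hab.mul_pow, hapow, one_mul]
  rw [heq]
  refine ⟨B.pow_mem hb _, fun h => hb1 ?_⟩
  have h1 : orderOf b ∣ Nat.card A := orderOf_dvd_of_pow_eq_one h
  have h2 : orderOf b ∣ Nat.card B := Subgroup.orderOf_dvd_natCard B hb
  have h3 : orderOf b = 1 := Nat.eq_one_of_dvd_coprimes hcop h1 h2
  exact orderOf_eq_one_iff.mp h3

end Cfsg.Agent.Helper19
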