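/-
CALL S1382 (helper1), piece SNA (pure), by helper19.
-/
import Mathlib
import Cfsg.Agent.Helper19.BG16cPOW

set_option autoImplicit false

namespace Cfsg.Agent.Helper19

open Subgroup

universe u

/-- SNA (pure). The normalizer of a nonempty `X ⊆ (A ⊔ B) \ (A ∪ B)` is `A ⊔ B`.
(≥): `A ⊔ B` is commutative (`hAc hBc hcomm`, closure induction), so it centralizes `X`.
(≤): `g ∈ N(X)`, `z ∈ X`, `z' := g z g⁻¹ ∈ X`; `y := z ^ |A| ∈ B ≤ M`, `y ≠ 1`,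
`g y g⁻¹ = z' ^ |A| ∈ B` (`hpA` twice), so `g ∈ M` (`h2`); `x := z ^ |B| ∈ A`, `x ≠ 1`,
`g x g⁻¹ = z' ^ |B| ∈ A` (`hpB` twice), so `g ∈ A ⊔ B` (`h3`). -/
theorem bg16c_normalizer_pure {Γ : Type u} [Group Γ] [Finite Γ] {A B M : Subgroup Γ}
    (hAc : ∀ a ∈ A, ∀ a' ∈ A, a * a' = a' * a) (hBc : ∀ b ∈ B, ∀ b' ∈ B, b * b' = b' * b)
    (hcomm : ∀ a ∈ A, ∀ b ∈ B, a * b = b * a) (hBM : B ≤ M)
    (hpA : ∀ z ∈ A ⊔ B, z ∉ A → z ^ Nat.card A ∈ B ∧ z ^ Nat.card A ≠ 1)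
    (hpB : ∀ z ∈ A ⊔ B, z ∉ B → z ^ Nat.card B ∈ A ∧ z ^ Nat.card B ≠ 1)
    (h2 : ∀ g y : Γ, y ∈ M → y ≠ 1 → g * y * g⁻¹ ∈ B → g ∈ M)
    (h3 : ∀ g x : Γ, g ∈ M → x ∈ A → x ≠ 1 → g * x * g⁻¹ ∈ A → g ∈ A ⊔ B)
    (X : Set Γ) (hX : X ⊆ (↑(A ⊔ B) : Set Γ) \ (↑A ∪ ↑B)) (hne : X.Nonempty) :
    Subgroup.normalizer X = A ⊔ B := by
  have hcommAB : ∀ z ∈ A ⊔ B, ∀ w ∈ A ⊔ B, z * w = w * z := by
    intro z hz w hw
    obtain ⟨a, ha, b, hb, rfl⟩ := bg16c_aux_mem_sup hcomm hz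
    obtain ⟨a', ha', b', hb', rfl⟩ := bg16c_aux_mem_sup hcomm hw
    have e1 := hAc a ha a' ha'
    have e2 := hBc b hb b' hb'
    have e3 := hcomm a ha b' hb'
    have e4 := hcomm a' ha' b hb
    calc a * b * (a' * b') = a * (b * a') * b' := by group
      _ = a * (a' * b) * b' := by rw [e4]
      _ = (a * a') * (b * b') := by group
      _ = (a' * a) * (b' * b) := by rw [e1, e2]
      _ = a' * (a * b') * b := by group
      _ = a' * (b' * a) * b := by rw [e3]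
      _ = a' * b' * (a * b) := by group
  apply le_antisymm
  · intro g hg
    obtain ⟨z, hzX⟩ := hne
    have hz := hX hzX
    have hzS : z ∈ A ⊔ B := hz.1
    have hzA : z ∉ A := fun h => hz.2 (Or.inl h)
    have hzB : z ∉ B := fun h => hz.2 (Or.inr h)
    have hz'X : g * z * g⁻¹ ∈ X := (Subgroup.mem_set_normalizer_iff.mp hg z).mp hzX
    have hz' := hX hz'X
    have hz'S : g * z * g⁻¹ ∈ A ⊔ B := hz'.1
    have hz'A : g * z * g⁻¹ ∉ A := fun h => hz'.2 (Or.inl h)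
    have hz'B : g * z * g⁻¹ ∉ B := fun h => hz'.2 (Or.inr h)
    have hconj : ∀ n : ℕ, g * z ^ n * g⁻¹ = (g * z * g⁻¹) ^ n := fun n => (conj_pow).symm
    have hgM : g ∈ M := by
      obtain ⟨hy, hy1⟩ := hpA z hzS hzA
      obtain ⟨hy', _⟩ := hpA _ hz'S hz'A
      exact h2 g (z ^ Nat.card A) (hBM hy) hy1 (by rw [hconj]; exact hy')
    obtain ⟨hx, hx1⟩ := hpB z hzS hzB
    obtain ⟨hx', _⟩ := hpB _ hz'S hz'B
    exact h3 g (z ^ Nat.card B) hgM hx hx1 (by rw [hconj]; exact hx')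
  · intro g hg
    rw [Subgroup.mem_set_normalizer_iff]
    intro h
    constructor
    · intro hh
      have hhS : h ∈ A ⊔ B := (hX hh).1
      have e : g * h * g⁻¹ = h := by
        rw [hcommAB g hg h hhS]; group
      rw [e]; exact hh
    · intro hh
      have hhS : g * h * g⁻¹ ∈ A ⊔ B := (hX hh).1
      have hhS' : h ∈ A ⊔ B := by
        have := (A ⊔ B).mul_mem ((A ⊔ B).mul_mem ((A ⊔ B).inv_mem hg) hhS) hg
        have e : g⁻¹ * (g * h * g⁻¹) * g = h := by group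
        rwa [e] at this
      have e : g * h * g⁻¹ = h := by
        rw [hcommAB g hg h hhS']; group
      rwa [e] at hh

end Cfsg.Agent.Helper19
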