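/-
CALL S1382 (helper1), piece ZCYC (pure), by helper19.
-/
import Mathlib
import Cfsg.Agent.Helper19.BG16cPOW

set_option autoImplicit false

namespace Cfsg.Agent.Helper19

open Subgroup

universe u

/-- ZCYC (pure). The join of two cyclic subgroups of coprime orders that commute elementwise is
cyclic: generators `a`, `b`; `orderOf (a * b) = |A| |B|`, `|A ⊔ B| ≤ |A| |B|` (every element is
`a' b'`), so `zpowers (a * b) = A ⊔ B`. -/
theorem bg16c_sup_cyclic {Γ : Type u} [Group Γ] [Finite Γ] {A B : Subgroup Γ} (hA : IsCyclic ↥A)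
    (hB : IsCyclic ↥B) (hcomm : ∀ a ∈ A, ∀ b ∈ B, a * b = b * a)
    (hcop : (Nat.card A).Coprime (Nat.card B)) : IsCyclic ↥(A ⊔ B) := by
  obtain ⟨⟨a, ha⟩, hagen⟩ := hA.exists_generator
  obtain ⟨⟨b, hb⟩, hbgen⟩ := hB.exists_generator
  have hoa : orderOf a = Nat.card A := by
    have h := orderOf_eq_card_of_forall_mem_zpowers hagen
    rw [← h, Subgroup.orderOf_mk]
  have hob : orderOf b = Nat.card B := by
    have h := orderOf_eq_card_of_forall_mem_zpowers hbgen
    rw [← h, Subgroup.orderOf_mk]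
  have hab : Commute a b := hcomm a ha b hb
  have hoab : orderOf (a * b) = Nat.card A * Nat.card B := by
    rw [hab.orderOf_mul_eq_mul_orderOf_of_coprime (by rw [hoa, hob]; exact hcop), hoa, hob]
  have hle : Subgroup.zpowers (a * b) ≤ A ⊔ B := by
    rw [Subgroup.zpowers_le]
    exact Subgroup.mul_mem _ (Subgroup.mem_sup_left ha) (Subgroup.mem_sup_right hb)
  have hcard : Nat.card ↥(A ⊔ B) ≤ Nat.card A * Nat.card B := by
    rw [← Nat.card_prod]
    apply Nat.card_le_card_of_surjective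
      (fun p : A × B => (⟨(p.1 : Γ) * (p.2 : Γ),
        Subgroup.mul_mem _ (Subgroup.mem_sup_left p.1.2) (Subgroup.mem_sup_right p.2.2)⟩ :
          ↥(A ⊔ B)))
    rintro ⟨z, hz⟩
    obtain ⟨a', ha', b', hb', rfl⟩ := bg16c_aux_mem_sup hcomm hz
    exact ⟨(⟨a', ha'⟩, ⟨b', hb'⟩), rfl⟩
  have heq : Subgroup.zpowers (a * b) = A ⊔ B := by
    apply Subgroup.eq_of_le_of_card_ge hle
    rw [Nat.card_zpowers, hoab]
    exact hcard
  exact heq ▸ (inferInstance : IsCyclic ↥(Subgroup.zpowers (a * b)))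

end Cfsg.Agent.Helper19
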