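import Mathlib

/-!
# CALL S1356 piece CNORM (helper19, for helper99)
-/

set_option autoImplicit false

namespace Cfsg.Agent.Helper19

open Subgroup

universe u

variable {G : Type u} [Group G] [Finite G]

/-- CNORM [S, PURE]. `M` normalizes `C_M(H)` when it normalizes `H`. -/
theorem bg56_cent_norm {M H : Subgroup G} (hn : M ≤ normalizer (H : Set G)) :
    M ≤ normalizer ((M ⊓ centralizer (H : Set G) : Subgroup G) : Set G) := by
  have key : ∀ m ∈ M, ∀ x ∈ M ⊓ centralizer (H : Set G),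
      m * x * m⁻¹ ∈ M ⊓ centralizer (H : Set G) := by
    intro m hm x hx
    obtain ⟨hxM, hxC⟩ := Subgroup.mem_inf.mp hx
    refine Subgroup.mem_inf.mpr ⟨M.mul_mem (M.mul_mem hm hxM) (M.inv_mem hm), ?_⟩
    rw [Subgroup.mem_centralizer_iff]
    intro h hh
    have hh' : m⁻¹ * h * m ∈ H := by
      have h1 := (Subgroup.mem_normalizer_iff.mp (hn (M.inv_mem hm)) h).mp hh
      rwa [inv_inv] at h1
    have hc := Subgroup.mem_centralizer_iff.mp hxC _ hh'
    calc h * (m * x * m⁻¹) = m * ((m⁻¹ * h * m) * x) * m⁻¹ := by group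
      _ = m * (x * (m⁻¹ * h * m)) * m⁻¹ := by rw [hc]
      _ = m * x * m⁻¹ * h := by group
  intro m hm
  rw [Subgroup.mem_normalizer_iff]
  intro x
  constructor
  · exact key m hm x
  · intro hx
    have h1 := key m⁻¹ (M.inv_mem hm) _ hx
    have e : m⁻¹ * (m * x * m⁻¹) * m⁻¹⁻¹ = x := by group
    rwa [e] at h1

end Cfsg.Agent.Helper19
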