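import Mathlib

/-!
# CALL S1356 piece SUPN (helper19, for helper99)
-/

set_option autoImplicit false

namespace Cfsg.Agent.Helper19

open Subgroup

universe u

variable {G : Type u} [Group G] [Finite G]

/-- SUPN [S, PURE]. `A` commutative, `X` cyclic centralizing `A`: `A ⊔ X` is nilpotent (it is
commutative: closure induction, or `MonoidHom.noncommCoprod`). -/
theorem bg56_sup_nil {A X : Subgroup G} (hA : ∀ a ∈ A, ∀ b ∈ A, a * b = b * a) (hX : IsCyclic ↥X)
    (hXA : X ≤ centralizer (A : Set G)) : Group.IsNilpotent ↥(A ⊔ X) := by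
  have hXc : ∀ x ∈ X, ∀ y ∈ X, x * y = y * x := by
    intro x hx y hy
    obtain ⟨g, hg⟩ := hX.exists_generator
    obtain ⟨m, hm⟩ := Subgroup.mem_zpowers_iff.mp (hg ⟨x, hx⟩)
    obtain ⟨n, hn⟩ := Subgroup.mem_zpowers_iff.mp (hg ⟨y, hy⟩)
    have hx' : x = (g : G) ^ m := by rw [← Subgroup.coe_zpow, hm]
    have hy' : y = (g : G) ^ n := by rw [← Subgroup.coe_zpow, hn]
    rw [hx', hy', ← zpow_add, ← zpow_add, add_comm]
  have hcomm : ∀ x ∈ ((A : Set G) ∪ (X : Set G)), ∀ y ∈ ((A : Set G) ∪ (X : Set G)),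
      x * y = y * x := by
    rintro x (hx | hx) y (hy | hy)
    · exact hA x hx y hy
    · exact Subgroup.mem_centralizer_iff.mp (hXA hy) x hx
    · exact (Subgroup.mem_centralizer_iff.mp (hXA hx) y hy).symm
    · exact hXc x hx y hy
  have heq : A ⊔ X = Subgroup.closure ((A : Set G) ∪ (X : Set G)) := by
    rw [Subgroup.closure_union, Subgroup.closure_eq, Subgroup.closure_eq]
  rw [heq]
  letI : CommGroup ↥(Subgroup.closure ((A : Set G) ∪ (X : Set G))) :=
    Subgroup.closureCommGroupOfComm hcomm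
  exact CommGroup.isNilpotent

end Cfsg.Agent.Helper19
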