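import Mathlib
set_option autoImplicit false

/-!
# Pieces NF2, NA, NK of CALL S0996 (helper79): numerics for Brauer–Reynolds with few Sylow subgroups
-/

namespace Cfsg.Agent.Helper19

/-- NF2 -/
theorem brn_few (p n : ℕ) (hlt : 2 * (1 + n * p) < (p + 1) * (p + 2)) :
    ∀ h u : ℕ, 0 < h → 0 < u → n * (u + 1) ≠ h * u * p + u ^ 2 + u + h := by
  intro h u hh hu heq
  have hp1 : 1 ≤ p := by
    rcases Nat.eq_zero_or_pos p with h0 | h0
    · subst h0; simp at hlt
    · exact h0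
  have h1 : 2 * n * p < (p + 3) * p := by nlinarith
  have h2 : 2 * n < p + 3 := lt_of_mul_lt_mul_right h1 (Nat.zero_le p)
  have h3 : u * p ≤ h * u * p := by
    have := Nat.mul_le_mul_right (u * p) hh
    calc u * p = 1 * (u * p) := (one_mul _).symm
      _ ≤ h * (u * p) := this
      _ = h * u * p := (mul_assoc h u p).symm
  have h4 : u * p + u ^ 2 + u + 1 ≤ n * (u + 1) := by rw [heq]; omega
  have h5 : 2 * n * (u + 1) ≤ (p + 2) * (u + 1) := Nat.mul_le_mul_right _ (by omega)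
  have h6 : p ≤ u * p := by
    calc p = 1 * p := (one_mul p).symm
      _ ≤ u * p := Nat.mul_le_mul_right p hu
  have h7 : 1 ≤ u ^ 2 := Nat.one_le_pow _ _ hu
  nlinarith

/-- NA -/
theorem brn_num_alpha (p q n t a A B C W : ℕ) (hn : 1 ≤ n) (ht : 2 ≤ t) (ha : 1 ≤ a)
    (hq : q = 1 + a * (n + 1)) (hp : p = t * q + 1)
    (h1 : t * q ^ 2 = t + (1 + n * p) * A + (p - 1) * B + q * C + p * W)
    (h2 : t * q = t + (n + 1) * A + W) : n = 1 ∧ t = 2 := by
  subst hp
  have hp1 : t * q + 1 - 1 = t * q := by omega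
  rw [hp1] at h1
  have hq2 : 3 ≤ q := by
    have : 2 ≤ a * (n + 1) := by nlinarith
    omega
  have h1z : (t : ℤ) * q ^ 2 = t + (1 + n * (t * q + 1)) * A + (t * q) * B + q * C
      + (t * q + 1) * W := by exact_mod_cast h1
  have h2z : (t : ℤ) * q = t + (n + 1) * A + W := by exact_mod_cast h2
  have hnz : (1 : ℤ) ≤ n := by exact_mod_cast hn
  have htz : (2 : ℤ) ≤ t := by exact_mod_cast ht
  have hqz : (3 : ℤ) ≤ q := by exact_mod_cast hq2
  have hA0 : (0 : ℤ) ≤ A := Int.natCast_nonneg A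
  have hB0 : (0 : ℤ) ≤ B := Int.natCast_nonneg B
  have hC0 : (0 : ℤ) ≤ C := Int.natCast_nonneg C
  have hW0 : (0 : ℤ) ≤ W := Int.natCast_nonneg W
  have key : (t : ℤ) * q * A = t * q * B + q * C + t * q * ((t - 1) * (q - 1)) := by
    linear_combination h1z - ((t : ℤ) * q + 1) * h2z
  have htq : (0 : ℤ) < t * q := by positivity
  have hA : ((t : ℤ) - 1) * (q - 1) ≤ A := by
    by_contra hlt
    push Not at hlt
    have h5 : (0 : ℤ) < t * q * ((t - 1) * (q - 1) - A) := mul_pos htq (by linarith)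
    have h6 : (0 : ℤ) ≤ t * q * B := mul_nonneg htq.le hB0
    have h7 : (0 : ℤ) ≤ q * C := mul_nonneg (by linarith) hC0
    nlinarith
  have h8 : ((n : ℤ) + 1) * A ≤ t * (q - 1) := by nlinarith
  have h9 : ((n : ℤ) + 1) * (t - 1) ≤ t := by
    by_contra hlt
    push Not at hlt
    have h10 : (0 : ℤ) < (((n : ℤ) + 1) * (t - 1) - t) * (q - 1) :=
      mul_pos (by linarith) (by linarith)
    have h11 : ((n : ℤ) + 1) * (((t : ℤ) - 1) * (q - 1)) ≤ ((n : ℤ) + 1) * A :=
      mul_le_mul_of_nonneg_left hA (by linarith)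
    nlinarith
  have h12 : (0 : ℤ) ≤ ((n : ℤ) - 1) * (t - 2) := mul_nonneg (by linarith) (by linarith)
  have ht2 : (t : ℤ) = 2 := by nlinarith
  have hn1 : (n : ℤ) = 1 := by
    rw [ht2] at h9
    linarith
  exact ⟨by exact_mod_cast hn1, by exact_mod_cast ht2⟩

/-- NK -/
theorem brn_num_K (p q n t a b w f : ℕ) (S : ℤ) (hp : 2 ≤ p) (hqt : q * t = p - 1)
    (hab : 1 + a + b = q) (hqa : q = 1 + w + a * (n + 1))
    (hcase : (w = 0 ∧ f = q) ∨ (w * t = n + 1 ∧ f + q = w * p))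
    (hsum : (p : ℤ) * q * (1 + n * p)
      = 1 + a * (1 + (n : ℤ) * p) ^ 2 + b * ((p : ℤ) - 1) ^ 2 + t * (f : ℤ) ^ 2 + (p : ℤ) ^ 2 * S) :
    S = n := by
  have e1 : (q : ℤ) * t = p - 1 := by
    have h : q * t + 1 = p := by omega
    have hz : (q : ℤ) * t + 1 = p := by exact_mod_cast h
    linarith
  have e2 : (1 : ℤ) + a + b = q := by exact_mod_cast hab
  have e3 : (q : ℤ) = 1 + w + a * (n + 1) := by exact_mod_cast hqa
  have hpz : (p : ℤ) ≠ 0 := by
    have : (2 : ℤ) ≤ p := by exact_mod_cast hp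
    linarith
  have hfin : (p : ℤ) ^ 2 * (S - n) = 0 := by
    rcases hcase with ⟨hw, hf⟩ | ⟨hwt, hfq⟩
    · subst hw
      subst hf
      have e3' : (f : ℤ) = 1 + a * (n + 1) := by rw [e3]; push_cast; ring
      linear_combination (-1 : ℤ) * hsum - ((p : ℤ) - 1) ^ 2 * e2 - (f : ℤ) * e1
        + (((n : ℤ) - 1) * p ^ 2 + 2 * p) * e3'
    · have e4 : (w : ℤ) * t = n + 1 := by exact_mod_cast hwt
      have e5 : (f : ℤ) = w * p - q := by
        have hz : (f : ℤ) + q = w * p := by exact_mod_cast hfq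
        linarith
      rw [e5] at hsum
      linear_combination (-1 : ℤ) * hsum + (2 * (p : ℤ) * w - q) * e1 - ((p : ℤ) - 1) ^ 2 * e2
        + (((n : ℤ) - 1) * p ^ 2 + 2 * p) * e3 - (w : ℤ) * p ^ 2 * e4
  have h0 : S - n = 0 := by
    rcases mul_eq_zero.mp hfin with h | h
    · exact absurd ((pow_eq_zero_iff two_ne_zero).mp h) hpz
    · exact h
  linarith

end Cfsg.Agent.Helper19
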