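import Mathlib

/-!
# CALL C3O piece CYC (helper19, for helper43)

If `ker P(M)` has dimension `deg P` (`P` irreducible), then every matrix commuting with `M`
acts on `ker P(M)` as a polynomial in `M`.
-/

set_option autoImplicit false

namespace Cfsg.Agent.Helper19

open Matrix Module Polynomial

universe u

/-- linear-map core of CYC -/
theorem c3o_cyc_lin {F : Type*} [Field F] {V : Type*} [AddCommGroup V] [Module F V]
    [FiniteDimensional F V] (f a : V →ₗ[F] V) (hc : Commute a f) (P : F[X]) (hP : Irreducible P)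
    (hdim : Module.finrank F (LinearMap.ker (aeval f P)) = P.natDegree) :
    ∃ R : F[X], ∀ w : V, aeval f P w = 0 → a w = aeval f R w := by
  classical
  have hd : 0 < P.natDegree := hP.natDegree_pos
  have hKne : LinearMap.ker (aeval f P) ≠ ⊥ := by
    intro h
    rw [h, finrank_bot] at hdim
    omega
  obtain ⟨w₀, hw₀K, hw₀⟩ := (Submodule.ne_bot_iff _).mp hKne
  rw [LinearMap.mem_ker] at hw₀K
  have hcomR : ∀ R : F[X], Commute a (aeval f R) := by
    intro R
    induction R using Polynomial.induction_on' with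
    | add p q hp hq => rw [map_add]; exact hp.add_right hq
    | monomial n c =>
      rw [aeval_monomial]
      exact (Algebra.commute_algebraMap_right c a).mul_right (hc.pow_right n)
  have hmulapp : ∀ (R S : F[X]) (w : V), aeval f (R * S) w = aeval f R (aeval f S w) := by
    intro R S w
    rw [map_mul]; rfl
  -- evaluation map into the kernel
  have hevK : ∀ R : F[X], aeval f R w₀ ∈ LinearMap.ker (aeval f P) := by
    intro R
    rw [LinearMap.mem_ker, ← hmulapp, mul_comm, hmulapp, hw₀K, map_zero]
  let ev : F[X] →ₗ[F] V := (LinearMap.applyₗ w₀) ∘ₗ (aeval f).toLinearMap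
  have hev : ∀ R : F[X], ev R = aeval f R w₀ := fun R => rfl
  let φ : degreeLT F P.natDegree →ₗ[F] LinearMap.ker (aeval f P) :=
    (ev ∘ₗ (degreeLT F P.natDegree).subtype).codRestrict _ (fun R => hevK R.1)
  have hφ : ∀ R : degreeLT F P.natDegree, (φ R : V) = aeval f R.1 w₀ := fun R => rfl
  have : FiniteDimensional F (degreeLT F P.natDegree) :=
    LinearEquiv.finiteDimensional (degreeLTEquiv F P.natDegree).symm
  have hfr : Module.finrank F (degreeLT F P.natDegree) =
      Module.finrank F (LinearMap.ker (aeval f P)) := by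
    rw [hdim, LinearEquiv.finrank_eq (degreeLTEquiv F P.natDegree), Module.finrank_fin_fun]
  have hinj : Function.Injective φ := by
    rw [← LinearMap.ker_eq_bot, LinearMap.ker_eq_bot']
    intro R hR
    have hR0 : aeval f R.1 w₀ = 0 := by
      rw [← hφ, hR]; rfl
    by_contra hne
    have hne' : R.1 ≠ 0 := fun h => hne (Subtype.ext h)
    have hdeg : R.1.degree < P.degree := by
      have := mem_degreeLT.mp R.2
      rwa [degree_eq_natDegree hP.ne_zero]
    have hnd : ¬ P ∣ R.1 := by
      intro hdvd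
      exact absurd (degree_le_of_dvd hdvd hne') (not_le.mpr hdeg)
    rcases EuclideanDomain.dvd_or_coprime P R.1 hP with h | h
    · exact hnd h
    · obtain ⟨u, v, huv⟩ := h
      apply hw₀
      have h1 : aeval f (u * P + v * R.1) w₀ = w₀ := by
        rw [huv, map_one]; rfl
      rw [map_add, LinearMap.add_apply, hmulapp, hmulapp, hw₀K, hR0, map_zero, map_zero,
        add_zero] at h1
      exact h1.symm
  have hsurj : Function.Surjective φ :=
    (LinearMap.injective_iff_surjective_of_finrank_eq_finrank hfr).mp hinj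
  have haw₀ : a w₀ ∈ LinearMap.ker (aeval f P) := by
    rw [LinearMap.mem_ker]
    have := congrArg (fun g : V →ₗ[F] V => g w₀) (hcomR P).eq
    simp only [Module.End.mul_apply] at this
    rw [← this, hw₀K, map_zero]
  obtain ⟨R, hR⟩ := hsurj ⟨a w₀, haw₀⟩
  have hR' : aeval f R.1 w₀ = a w₀ := by
    rw [← hφ, hR]
  refine ⟨R.1, fun w hw => ?_⟩
  obtain ⟨S, hS⟩ := hsurj ⟨w, LinearMap.mem_ker.mpr hw⟩
  have hS' : aeval f S.1 w₀ = w := by
    rw [← hφ, hS]
  rw [← hS']
  have h1 := congrArg (fun g : V →ₗ[F] V => g w₀) (hcomR S.1).eq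
  simp only [Module.End.mul_apply] at h1
  rw [h1, ← hR', ← hmulapp, ← hmulapp, mul_comm]

/-- PIECE CYC -/
theorem c3o_cyc {F : Type*} [Field F] {ι : Type*} [Fintype ι] [DecidableEq ι]
    (M A : Matrix ι ι F) (hAM : A * M = M * A) (P : F[X]) (hP : Irreducible P)
    (hdim : Module.finrank F (LinearMap.ker (aeval (Matrix.toLin' M) P)) = P.natDegree) :
    ∃ R : F[X], ∀ w : ι → F, aeval (Matrix.toLin' M) P w = 0 →
      A.mulVec w = (aeval M R).mulVec w := by
  have key : ∀ R : F[X], aeval (Matrix.toLin' M) R = Matrix.toLin' (aeval M R) := by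
    intro R
    exact Polynomial.aeval_algHom_apply
      (Matrix.toLinAlgEquiv' : Matrix ι ι F ≃ₐ[F] ((ι → F) →ₗ[F] ι → F)) M R
  have hc : Commute (Matrix.toLin' A) (Matrix.toLin' M) := by
    show Matrix.toLin' A * Matrix.toLin' M = Matrix.toLin' M * Matrix.toLin' A
    rw [Module.End.mul_eq_comp, Module.End.mul_eq_comp, ← Matrix.toLin'_mul, ← Matrix.toLin'_mul,
      hAM]
  obtain ⟨R, hR⟩ := c3o_cyc_lin (Matrix.toLin' M) (Matrix.toLin' A) hc P hP hdim
  refine ⟨R, fun w hw => ?_⟩
  have := hR w hw
  rw [key, Matrix.toLin'_apply, Matrix.toLin'_apply] at this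
  exact this

end Cfsg.Agent.Helper19
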