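import Mathlib
import Cfsg.Prelude.Def_GeometricClasses
import Cfsg.Prelude.Def_LieClassical
import Cfsg.Agent.Helper69.E4Def
import Cfsg.Agent.Helper69.E4UDef
import Cfsg.Agent.Helper97.UForm
import Cfsg.Agent.Helper67.HermGS
import Cfsg.Agent.Helper69.E4DIAGINV

set_option autoImplicit false

/-!
# Piece INVU2 of S6001 (helper69): the unitary spectral theorem for an involution.
-/

namespace Cfsg.Agent.Helper19
open Cfsg.Agent.Helper69 Cfsg.Agent.Helper97
open scoped Matrix

/-- Gram-Schmidt for a hermitian invertible matrix indexed by an arbitrary fintype. -/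
theorem e4u_gs_fintype {F : Type*} [Field F] [Fintype F] (q : ℕ) (hF : Fintype.card F = q ^ 2)
    (σ : F ≃+* F) (hσ : ∀ x, σ x = x ^ q) {ι : Type*} [Fintype ι] [DecidableEq ι]
    (A : Matrix ι ι F) (hA : Aᵀ = A.map σ) (hdet : A.det ≠ 0) :
    ∃ U : Matrix ι ι F, Uᵀ * A * U.map σ = 1 := by
  classical
  let e : ι ≃ Fin (Fintype.card ι) := Fintype.equivFin ι
  have hA' : (A.submatrix e.symm e.symm)ᵀ = (A.submatrix e.symm e.symm).map σ := by
    ext i j
    have := congrFun (congrFun hA (e.symm i)) (e.symm j)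
    simpa using this
  have hdet' : (A.submatrix e.symm e.symm).det ≠ 0 := by
    rw [Matrix.det_submatrix_equiv_self]; exact hdet
  obtain ⟨U', -, hU'⟩ := Cfsg.Agent.Helper67.herm_gram_schmidt q hF σ hσ (Fintype.card ι)
    (A.submatrix e.symm e.symm) hA' hdet'
  refine ⟨U'.submatrix e e, ?_⟩
  have hAe : A = (A.submatrix e.symm e.symm).submatrix e e := by
    ext i j; simp
  have h1 : (U'.submatrix e e)ᵀ = U'ᵀ.submatrix e e := by
    ext i j; simp
  have h2 : (U'.submatrix e e).map σ = (U'.map σ).submatrix e e := by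
    ext i j; simp
  rw [h1, h2]
  conv_lhs => rw [hAe]
  rw [Matrix.submatrix_mul_equiv, Matrix.submatrix_mul_equiv, hU', Matrix.submatrix_one_equiv]

/-- Block Gram-Schmidt: if the hermitian invertible matrix `A` vanishes between the two classes of
a predicate `P`, it has an orthonormalising matrix respecting the classes. -/
theorem e4u_gs_block {F : Type*} [Field F] [Fintype F] (q : ℕ) (hF : Fintype.card F = q ^ 2)
    (σ : F ≃+* F) (hσ : ∀ x, σ x = x ^ q) {n : ℕ} (P : Fin n → Prop) [DecidablePred P]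
    (A : Matrix (Fin n) (Fin n) F) (hA : Aᵀ = A.map σ) (hdet : A.det ≠ 0)
    (hz : ∀ i j, ¬ (P i ↔ P j) → A i j = 0) :
    ∃ C : Matrix (Fin n) (Fin n) F, Cᵀ * A * C.map σ = 1 ∧
      ∀ i j, ¬ (P i ↔ P j) → C i j = 0 := by
  classical
  let e : {i // P i} ⊕ {i // ¬ P i} ≃ Fin n := Equiv.sumCompl P
  let A₁ : Matrix {i // P i} {i // P i} F := Matrix.of fun i j => A i j
  let A₂ : Matrix {i // ¬ P i} {i // ¬ P i} F := Matrix.of fun i j => A i j
  have hG : A.submatrix e e = Matrix.fromBlocks A₁ 0 0 A₂ := by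
    ext i j
    rcases i with i | i <;> rcases j with j | j
    · simp [e, A₁]
    · simp only [Matrix.submatrix_apply, Matrix.fromBlocks_apply₁₂, Matrix.zero_apply]
      apply hz
      simp [e, i.2, j.2]
    · simp only [Matrix.submatrix_apply, Matrix.fromBlocks_apply₂₁, Matrix.zero_apply]
      apply hz
      simp [e, i.2, j.2]
    · simp [e, A₂]
  have hdetG : (A.submatrix e e).det = A₁.det * A₂.det := by
    rw [hG, Matrix.det_fromBlocks_zero₁₂]
  have hdetA : (A.submatrix e e).det ≠ 0 := by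
    have : A = (A.submatrix e e).submatrix e.symm e.symm := by ext i j; simp
    intro h0
    apply hdet
    rw [this, Matrix.det_submatrix_equiv_self, h0]
  rw [hdetG] at hdetA
  have hd1 : A₁.det ≠ 0 := left_ne_zero_of_mul hdetA
  have hd2 : A₂.det ≠ 0 := right_ne_zero_of_mul hdetA
  have hA1 : A₁ᵀ = A₁.map σ := by
    ext i j
    have := congrFun (congrFun hA i.1) j.1
    simpa [A₁] using this
  have hA2 : A₂ᵀ = A₂.map σ := by
    ext i j
    have := congrFun (congrFun hA i.1) j.1
    simpa [A₂] using this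
  obtain ⟨U₁, hU₁⟩ := e4u_gs_fintype q hF σ hσ A₁ hA1 hd1
  obtain ⟨U₂, hU₂⟩ := e4u_gs_fintype q hF σ hσ A₂ hA2 hd2
  let C' : Matrix ({i // P i} ⊕ {i // ¬ P i}) ({i // P i} ⊕ {i // ¬ P i}) F :=
    Matrix.fromBlocks U₁ 0 0 U₂
  have hC' : C'ᵀ * A.submatrix e e * C'.map σ = 1 := by
    rw [hG]
    simp only [C']
    rw [Matrix.fromBlocks_transpose, Matrix.fromBlocks_map, Matrix.fromBlocks_multiply,
      Matrix.fromBlocks_multiply]
    simp only [Matrix.transpose_zero, Matrix.zero_mul, Matrix.mul_zero, add_zero, zero_add,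
      Matrix.map_zero _ (map_zero σ)]
    rw [hU₁, hU₂, Matrix.fromBlocks_one]
  refine ⟨C'.submatrix e.symm e.symm, ?_, ?_⟩
  · have hAe : A = (A.submatrix e e).submatrix e.symm e.symm := by ext i j; simp
    have h1 : (C'.submatrix e.symm e.symm)ᵀ = C'ᵀ.submatrix e.symm e.symm := by
      ext i j; simp
    have h2 : (C'.submatrix e.symm e.symm).map σ = (C'.map σ).submatrix e.symm e.symm := by
      ext i j; simp
    rw [h1, h2]
    conv_lhs => rw [hAe]
    rw [Matrix.submatrix_mul_equiv, Matrix.submatrix_mul_equiv, hC', Matrix.submatrix_one_equiv]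
  · intro i j hij
    by_cases hi : P i <;> by_cases hj : P j
    · exact absurd (by simp [hi, hj]) hij
    · simp [C', e, Equiv.sumCompl_symm_apply_of_pos, Equiv.sumCompl_symm_apply_of_neg, hi, hj]
    · simp [C', e, Equiv.sumCompl_symm_apply_of_pos, Equiv.sumCompl_symm_apply_of_neg, hi, hj]
    · exact absurd (by simp [hi, hj]) hij

theorem e4u_unitary_diag_involution {F : Type*} [Field F] [Fintype F] {p : ℕ}
    (hF : Fintype.card F = p ^ 2) (h2 : (2 : F) ≠ 0) (σ : F ≃+* F) (hσ : IsSigma p σ)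
    (y : Matrix (Fin 4) (Fin 4) F) (hy : y ^ 2 = 1) (hU : yᵀ * y.map σ = 1) :
    ∃ (U : Matrix (Fin 4) (Fin 4) F) (d : Fin 4 → F), Uᵀ * U.map σ = 1 ∧ (∀ i, d i ^ 2 = 1) ∧
      y * U = U * Matrix.diagonal d := by
  classical
  obtain ⟨Q, d, hQ, hd, hQy⟩ := e4_diag_involution h2 y hy
  have hd' : ∀ i, d i = 1 ∨ d i = -1 := fun i => by
    have h := hd i
    have h' : (d i - 1) * (d i + 1) = 0 := by linear_combination h
    rcases mul_eq_zero.mp h' with h1 | h1
    · left; linear_combination h1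
    · right; linear_combination h1
  have hσd : ∀ i, σ (d i) = d i := by
    intro i
    rcases hd' i with h | h <;> simp [h]
  have hQu : IsUnit Q.det := isUnit_iff_ne_zero.mpr hQ
  have hQP : Q * Q⁻¹ = 1 := Matrix.mul_nonsing_inv Q hQu
  have hPQ : Q⁻¹ * Q = 1 := Matrix.nonsing_inv_mul Q hQu
  have hyP : y * Q⁻¹ = Q⁻¹ * Matrix.diagonal d := by
    calc y * Q⁻¹ = (Q⁻¹ * Q) * y * Q⁻¹ := by rw [hPQ, Matrix.one_mul]
      _ = Q⁻¹ * (Q * y) * Q⁻¹ := by simp only [Matrix.mul_assoc]
      _ = Q⁻¹ * (Matrix.diagonal d * Q) * Q⁻¹ := by rw [hQy]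
      _ = Q⁻¹ * Matrix.diagonal d * (Q * Q⁻¹) := by simp only [Matrix.mul_assoc]
      _ = Q⁻¹ * Matrix.diagonal d := by rw [hQP, Matrix.mul_one]
  set P : Matrix (Fin 4) (Fin 4) F := Q⁻¹ with hP
  have hPdet : P.det ≠ 0 := by
    intro h0
    have := congrArg Matrix.det hPQ
    rw [Matrix.det_mul, h0, zero_mul, Matrix.det_one] at this
    exact zero_ne_one this
  set G : Matrix (Fin 4) (Fin 4) F := Pᵀ * P.map σ with hGdef
  have hmapmap : (P.map σ).map σ = P := by
    ext i j; simp [hσ.inv]
  have hGherm : Gᵀ = G.map σ := by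
    rw [hGdef, Matrix.transpose_mul, Matrix.transpose_transpose, Matrix.map_mul, hmapmap,
      Matrix.transpose_map]
  have hGdet : G.det ≠ 0 := by
    rw [hGdef, Matrix.det_mul, Matrix.det_transpose]
    have h1 : (P.map σ).det = σ P.det := by
      have := RingHom.map_det (σ : F →+* F) P
      simpa using this.symm
    rw [h1]
    exact mul_ne_zero hPdet ((map_ne_zero σ).mpr hPdet)
  have hDmap : (Matrix.diagonal d).map σ = Matrix.diagonal d := by
    rw [Matrix.diagonal_map (map_zero σ)]
    congr 1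
    funext i
    exact hσd i
  have hDGD : Matrix.diagonal d * G * Matrix.diagonal d = G := by
    have h1 : (y * P)ᵀ * (y * P).map σ = G := by
      rw [Matrix.transpose_mul, Matrix.map_mul, hGdef]
      calc Pᵀ * yᵀ * (y.map σ * P.map σ) = Pᵀ * (yᵀ * y.map σ) * P.map σ := by
            simp only [Matrix.mul_assoc]
        _ = Pᵀ * P.map σ := by rw [hU, Matrix.mul_one]
    rw [hyP, Matrix.transpose_mul, Matrix.map_mul, hDmap, Matrix.diagonal_transpose] at h1
    calc Matrix.diagonal d * G * Matrix.diagonal d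
        = Matrix.diagonal d * (Pᵀ * P.map σ) * Matrix.diagonal d := by rw [hGdef]
      _ = Matrix.diagonal d * Pᵀ * (P.map σ * Matrix.diagonal d) := by
          simp only [Matrix.mul_assoc]
      _ = G := h1
  have hz : ∀ i j, ¬ (d i = 1 ↔ d j = 1) → G i j = 0 := by
    intro i j hij
    have h1 := congrFun (congrFun hDGD i) j
    rw [Matrix.mul_diagonal, Matrix.diagonal_mul] at h1
    have h3 : d i * d j = -1 := by
      rcases hd' i with hi | hi <;> rcases hd' j with hj | hj
      · exact absurd (by simp [hi, hj]) hij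
      · rw [hi, hj]; ring
      · rw [hi, hj]; ring
      · exfalso
        apply hij
        have hne : (-1 : F) ≠ 1 := by
          intro h
          apply h2
          calc (2 : F) = 1 - (-1) := by ring
            _ = 0 := by rw [h]; ring
        rw [hi, hj]
    have h4 : (2 : F) * G i j = 0 := by
      have : d i * G i j * d j = (d i * d j) * G i j := by ring
      rw [this, h3] at h1
      linear_combination -h1
    rcases mul_eq_zero.mp h4 with h5 | h5
    · exact absurd h5 h2
    · exact h5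
  obtain ⟨C, hC, hCz⟩ := e4u_gs_block p hF σ hσ.pow (fun i => d i = 1) G hGherm hGdet hz
  refine ⟨P * C, d, ?_, hd, ?_⟩
  · rw [Matrix.transpose_mul, Matrix.map_mul]
    calc Cᵀ * Pᵀ * (P.map σ * C.map σ) = Cᵀ * (Pᵀ * P.map σ) * C.map σ := by
          simp only [Matrix.mul_assoc]
      _ = 1 := hC
  · have hDC : Matrix.diagonal d * C = C * Matrix.diagonal d := by
      ext i j
      rw [Matrix.mul_diagonal, Matrix.diagonal_mul]
      by_cases hij : (d i = 1 ↔ d j = 1)
      · have : d i = d j := by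
          rcases hd' i with hi | hi <;> rcases hd' j with hj | hj
          · rw [hi, hj]
          · rw [hi, hij.mp hi]
          · rw [hij.mpr hj, hj]
          · rw [hi, hj]
        rw [this]; ring
      · rw [hCz i j hij]; ring
    rw [← Matrix.mul_assoc, hyP, Matrix.mul_assoc, hDC, Matrix.mul_assoc]

end Cfsg.Agent.Helper19
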