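import Mathlib
import Cfsg.Agent.Helper90.HTDefs

/-!
# CALL S5953 piece DIAGOBS (helper19, for helper90)

Invariant totally isotropic subspaces of a diagonal matrix (standard Hermitian form): the
dimension is at most the sum of the half-multiplicities of the diagonal entries.
Self-contained (does not use HTIB): the bound on each coordinate block is proved with
`Matrix.rank_add_rank_le_card_of_mul_eq_zero`.
-/

set_option autoImplicit false

namespace Cfsg.Agent.Helper19.HT5953

open Module Polynomial Cfsg.Agent.Helper90.HT

section blocks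

variable {F : Type*} [Field F] [Fintype F]

/-- the ring homomorphism `x ↦ x ^ q` of a field with `q ^ 2` elements -/
theorem dg_exists_frob (q : ℕ) (hq : Fintype.card F = q ^ 2) :
    ∃ σ : F →+* F, ∀ x, σ x = x ^ q := by
  obtain ⟨p, hp⟩ := CharP.exists F
  have := hp
  obtain ⟨k, hpprime, hk⟩ := FiniteField.card F p
  have : Fact p.Prime := ⟨hpprime⟩
  have hq' : q ∣ p ^ (k : ℕ) := by rw [← hk, hq]; exact dvd_pow_self q two_ne_zero
  obtain ⟨j, -, rfl⟩ := (Nat.dvd_prime_pow hpprime).mp hq'
  have : ExpChar F p := ExpChar.prime hpprime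
  exact ⟨iterateFrobenius F p j, fun x => iterateFrobenius_def p j x⟩

/-- a totally isotropic subspace supported on the coordinates in `S` has dimension at most
`|S| / 2` -/
theorem dg_bound (q : ℕ) (hq : Fintype.card F = q ^ 2) (n : ℕ) (S : Finset (Fin n))
    (U : Submodule F (Fin n → F)) (hTI : ∀ u ∈ U, ∀ v ∈ U, Cfsg.hermForm n F q u v = 0)
    (hS : ∀ u ∈ U, ∀ i, i ∉ S → u i = 0) : 2 * finrank F U ≤ S.card := by
  classical
  obtain ⟨σ, hσ⟩ := dg_exists_frob q hq
  have hq0 : q ≠ 0 := by
    rintro rfl
    have := Fintype.one_lt_card (α := F)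
    omega
  have hinv : ∀ x : F, (x ^ q) ^ q = x := fun x => by
    rw [← pow_mul, ← pow_two, ← hq, FiniteField.pow_card]
  obtain ⟨k, hk⟩ : ∃ k, finrank F U = k := ⟨_, rfl⟩
  have b : Basis (Fin k) F U := (Module.finBasis F U).reindex (finCongr hk)
  let A : Matrix (Fin k) S F := fun j i => (b j : Fin n → F) i.1
  let B : Matrix S (Fin k) F := fun i j => ((b j : Fin n → F) i.1) ^ q
  have hAB : A * B = 0 := by
    ext j j'
    rw [Matrix.mul_apply, Matrix.zero_apply]
    have h := hTI (b j) (b j).2 (b j') (b j').2
    unfold Cfsg.hermForm at h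
    rw [← h, ← Finset.sum_subset (Finset.subset_univ S)]
    · exact Finset.sum_coe_sort S (fun i => (b j : Fin n → F) i * ((b j' : Fin n → F) i) ^ q)
    · intro i _ hi
      rw [hS _ (b j).2 i hi, zero_mul]
  have hbi : LinearIndependent F (fun j => (b j : Fin n → F)) :=
    b.linearIndependent.map' U.subtype (Submodule.ker_subtype U)
  have hrowA : LinearIndependent F A.row := by
    rw [Fintype.linearIndependent_iff]
    intro g hg
    have h0 : ∑ j, g j • (b j : Fin n → F) = 0 := by
      funext i
      by_cases hi : i ∈ S
      · have h1 := congrFun hg ⟨i, hi⟩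
        rw [Finset.sum_apply] at h1
        rw [Finset.sum_apply]
        exact h1
      · rw [Finset.sum_apply]
        apply Finset.sum_eq_zero
        intro j _
        rw [Pi.smul_apply, hS _ (b j).2 i hi, smul_zero]
    exact (Fintype.linearIndependent_iff.mp hbi) g h0
  have hrowB : LinearIndependent F B.transpose.row := by
    rw [Fintype.linearIndependent_iff]
    intro g hg
    have h0 : ∑ j, (g j) ^ q • A.row j = 0 := by
      funext i
      have h1 := congrFun hg i
      rw [Finset.sum_apply] at h1
      have h1' : ∑ j, g j * ((b j : Fin n → F) i.1) ^ q = 0 := h1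
      rw [Finset.sum_apply]
      have h2 : σ (∑ j, (g j) ^ q * (b j : Fin n → F) i.1) = 0 := by
        have h3 : ∀ j, σ ((g j) ^ q * (b j : Fin n → F) i.1) =
            g j * ((b j : Fin n → F) i.1) ^ q := fun j => by
          rw [map_mul, hσ, hσ, hinv]
        rw [map_sum, Finset.sum_congr rfl (fun j _ => h3 j)]
        exact h1'
      exact (map_eq_zero σ).mp h2
    have h4 := (Fintype.linearIndependent_iff.mp hrowA) (fun j => (g j) ^ q) h0
    intro j
    exact (pow_eq_zero_iff hq0).mp (h4 j)
  have hrA : A.rank = k := by
    have := hrowA.rank_matrix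
    rwa [Fintype.card_fin] at this
  have hrB : B.rank = k := by
    have := hrowB.rank_matrix
    rwa [Fintype.card_fin, Matrix.rank_transpose] at this
  have := Matrix.rank_add_rank_le_card_of_mul_eq_zero hAB
  rw [hrA, hrB, Fintype.card_coe] at this
  omega

/-- DIAGOBS: invariant totally isotropic subspaces of a diagonal matrix. -/
theorem ht_diag_obs [DecidableEq F] (q : ℕ) (hq : Fintype.card F = q ^ 2) (n : ℕ) (d : Fin n → F)
    (W : Submodule F (Fin n → F)) (hTI : ∀ u ∈ W, ∀ v ∈ W, Cfsg.hermForm n F q u v = 0)
    (hW : W.map (Matrix.toLin' (Matrix.diagonal d)) ≤ W) :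
    finrank F W ≤ ∑ a ∈ Finset.univ.image d, (Finset.univ.filter (fun k => d k = a)).card / 2 := by
  -- the coordinate subspaces
  let E : F → Submodule F (Fin n → F) := fun a =>
    { carrier := {v | ∀ i, d i ≠ a → v i = 0}
      add_mem' := by
        intro u v hu hv i hi
        rw [Pi.add_apply, hu i hi, hv i hi, add_zero]
      zero_mem' := fun i _ => rfl
      smul_mem' := by
        intro c v hv i hi
        rw [Pi.smul_apply, hv i hi, smul_zero] }
  -- `W` is invariant under polynomials in the diagonal matrix
  have hTu : ∀ u ∈ W, (fun i => d i * u i) ∈ W := by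
    intro u hu
    have h1 := hW (Submodule.mem_map_of_mem hu)
    have h2 : Matrix.toLin' (Matrix.diagonal d) u = fun i => d i * u i := by
      funext i
      rw [Matrix.toLin'_apply, Matrix.mulVec_diagonal]
    rw [h2] at h1
    exact h1
  have hpow : ∀ m : ℕ, ∀ u ∈ W, (fun i => d i ^ m * u i) ∈ W := by
    intro m
    induction m with
    | zero =>
      intro u hu
      have : (fun i => d i ^ 0 * u i) = u := by funext i; rw [pow_zero, one_mul]
      rw [this]; exact hu
    | succ m ih =>
      intro u hu
      have : (fun i => d i ^ (m + 1) * u i) = fun i => d i ^ m * (d i * u i) := by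
        funext i; rw [pow_succ, mul_assoc]
      rw [this]
      exact ih _ (hTu u hu)
  have hpoly : ∀ P : F[X], ∀ u ∈ W, (fun i => P.eval (d i) * u i) ∈ W := by
    intro P
    induction P using Polynomial.induction_on' with
    | add p1 p2 h1 h2 =>
      intro u hu
      have : (fun i => (p1 + p2).eval (d i) * u i) =
          (fun i => p1.eval (d i) * u i) + fun i => p2.eval (d i) * u i := by
        funext i; rw [Pi.add_apply, eval_add, add_mul]
      rw [this]; exact W.add_mem (h1 u hu) (h2 u hu)
    | monomial m c =>
      intro u hu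
      have : (fun i => (monomial m c).eval (d i) * u i) = c • fun i => d i ^ m * u i := by
        funext i; rw [Pi.smul_apply, eval_monomial, smul_eq_mul, mul_assoc]
      rw [this]; exact W.smul_mem c (hpow m u hu)
  -- the coordinate projections preserve `W`
  have hproj : ∀ a, ∀ w ∈ W, (fun i => if d i = a then w i else 0) ∈ W := by
    intro a w hw
    set P : F[X] := ∏ b ∈ (Finset.univ.image d).erase a, (X - C b) with hP
    set c : F := ∏ b ∈ (Finset.univ.image d).erase a, (a - b) with hc
    have hc0 : c ≠ 0 := by
      rw [hc, Finset.prod_ne_zero_iff]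
      intro b hb
      exact sub_ne_zero.mpr (Finset.ne_of_mem_erase hb).symm
    have hev : ∀ i, P.eval (d i) = if d i = a then c else 0 := by
      intro i
      rw [hP, eval_prod]
      by_cases hi : d i = a
      · rw [if_pos hi, hc, hi]
        refine Finset.prod_congr rfl fun b _ => ?_
        rw [eval_sub, eval_X, eval_C]
      · rw [if_neg hi]
        apply Finset.prod_eq_zero (i := d i)
        · exact Finset.mem_erase.mpr ⟨hi, Finset.mem_image_of_mem d (Finset.mem_univ i)⟩
        · rw [eval_sub, eval_X, eval_C, sub_self]
    have h1 := hpoly P w hw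
    have h2 : (fun i => if d i = a then w i else 0) = c⁻¹ • fun i => P.eval (d i) * w i := by
      funext i
      rw [Pi.smul_apply, hev, smul_eq_mul]
      by_cases hi : d i = a
      · rw [if_pos hi, if_pos hi, ← mul_assoc, inv_mul_cancel₀ hc0, one_mul]
      · rw [if_neg hi, if_neg hi, zero_mul, mul_zero]
    rw [h2]
    exact W.smul_mem _ h1
  -- `W` is the sum of its blocks
  have hle : W ≤ (Finset.univ.image d).sup (fun a => W ⊓ E a) := by
    intro w hw
    have hsum : w = ∑ a ∈ Finset.univ.image d, (fun i => if d i = a then w i else 0) := by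
      funext i
      rw [Finset.sum_apply, Finset.sum_ite_eq,
        if_pos (Finset.mem_image_of_mem d (Finset.mem_univ i))]
    rw [hsum]
    refine Submodule.sum_mem _ fun a ha => ?_
    have h1 : (fun i => if d i = a then w i else 0) ∈ W ⊓ E a := by
      refine ⟨hproj a w hw, ?_⟩
      intro i hi
      exact if_neg hi
    exact (Finset.le_sup (f := fun a => W ⊓ E a) ha) h1
  have hsup : ∀ s : Finset F, finrank F ((s.sup fun a => W ⊓ E a : Submodule F (Fin n → F))) ≤
      ∑ a ∈ s, finrank F (W ⊓ E a : Submodule F (Fin n → F)) := by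
    intro s
    induction s using Finset.induction_on with
    | empty => simp
    | insert a s ha ih =>
      rw [Finset.sup_insert, Finset.sum_insert ha]
      exact (Submodule.finrank_add_le_finrank_add_finrank _ _).trans (Nat.add_le_add_left ih _)
  have hb : ∀ a, finrank F (W ⊓ E a : Submodule F (Fin n → F)) ≤
      (Finset.univ.filter (fun k => d k = a)).card / 2 := by
    intro a
    rw [Nat.le_div_iff_mul_le (by norm_num : 0 < 2), mul_comm]
    apply dg_bound q hq n (Finset.univ.filter (fun k => d k = a)) (W ⊓ E a)
    · intro u hu v hv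
      exact hTI u hu.1 v hv.1
    · intro u hu i hi
      apply hu.2 i
      intro h
      exact hi (Finset.mem_filter.mpr ⟨Finset.mem_univ i, h⟩)
  calc finrank F W
      ≤ finrank F (((Finset.univ.image d).sup fun a => W ⊓ E a : Submodule F (Fin n → F))) :=
        Submodule.finrank_mono hle
    _ ≤ ∑ a ∈ Finset.univ.image d, finrank F (W ⊓ E a : Submodule F (Fin n → F)) := hsup _
    _ ≤ _ := Finset.sum_le_sum fun a _ => hb a

end blocks

end Cfsg.Agent.Helper19.HT5953
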