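import Mathlib
import Cfsg.Prelude.Def_LieRecognition

set_option autoImplicit false
open scoped Pointwise

namespace Cfsg.Agent.Helper19

variable {M : Type*} [Group M]

/-- Every element of a finite subgroup of odd order `2n+1` is killed by `2n+1`. -/
theorem pow_card_odd_sub [Finite M] (X : Subgroup M) {n : ℕ} (hn : Nat.card X = 2 * n + 1) {z : M}
    (hz : z ∈ X) : z ^ (2 * n + 1) = 1 := by
  have h : (⟨z, hz⟩ : X) ^ Nat.card X = 1 := pow_card_eq_one'
  rw [hn] at h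
  have := congrArg Subtype.val h
  simpa using this

/-- Squaring is injective on a subgroup of odd order. -/
theorem sq_inj_of_odd [Finite M] (X : Subgroup M) (hodd : Odd (Nat.card X)) {x y : M}
    (hx : x ∈ X) (hy : y ∈ X) (h : x * x = y * y) : x = y := by
  obtain ⟨n, hn⟩ := hodd
  have e : ∀ z ∈ X, z = (z * z) ^ (n + 1) := by
    intro z hz
    rw [← pow_two, ← pow_mul]
    have h2 : 2 * (n + 1) = (2 * n + 1) + 1 := by ring
    rw [h2, pow_succ, pow_card_odd_sub X hn hz, one_mul]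
  rw [e x hx, e y hy, h]

/-- Square roots in a subgroup of odd order. -/
theorem exists_sqrt_of_odd [Finite M] (X : Subgroup M) (hodd : Odd (Nat.card X)) {z : M}
    (hz : z ∈ X) : ∃ w ∈ Subgroup.zpowers z, w * w = z := by
  obtain ⟨n, hn⟩ := hodd
  refine ⟨z ^ (n + 1), Subgroup.pow_mem _ (Subgroup.mem_zpowers z) _, ?_⟩
  rw [← pow_add]
  have h2 : n + 1 + (n + 1) = (2 * n + 1) + 1 := by ring
  rw [h2, pow_succ, pow_card_odd_sub X hn hz, one_mul]

/-- An element of odd order whose square is one is trivial. -/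
theorem eq_one_of_sq_of_odd [Finite M] (X : Subgroup M) (hodd : Odd (Nat.card X)) {x : M}
    (hx : x ∈ X) (h : x * x = 1) : x = 1 :=
  sq_inj_of_odd X hodd hx X.one_mem (by rw [h, one_mul])

theorem inv_eq_self_of_mul_self {t : M} (ht : t * t = 1) : t⁻¹ = t :=
  inv_eq_of_mul_eq_one_left ht

/-- If `t` inverts `k` then it inverts every element of `zpowers k`. -/
theorem inverted_of_mem_zpowers {t k w : M} (hk : t * k * t⁻¹ = k⁻¹) (hw : w ∈ Subgroup.zpowers k) :
    t * w * t⁻¹ = w⁻¹ := by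
  obtain ⟨j, rfl⟩ := Subgroup.mem_zpowers_iff.mp hw
  rw [← conj_zpow, hk, inv_zpow]

/-- The decomposition `x = y z` with `y` centralised and `z` inverted by the involution `t`. -/
theorem inverted_decomp [Finite M] {t : M} (ht : t * t = 1) (X : Subgroup M)
    (hodd : Odd (Nat.card X)) (hnorm : ∀ x ∈ X, t * x * t⁻¹ ∈ X) {x : M} (hx : x ∈ X) :
    ∃ y ∈ X, ∃ z ∈ X, t * y * t⁻¹ = y ∧ t * z * t⁻¹ = z⁻¹ ∧ x = y * z := by
  have hti : t⁻¹ = t := inv_eq_self_of_mul_self ht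
  have ht' : ∀ g : M, t * (t * g) = g := fun g => by rw [← mul_assoc, ht, one_mul]
  set k := x⁻¹ * (t * x * t⁻¹) with hk
  have hkX : k ∈ X := X.mul_mem (X.inv_mem hx) (hnorm x hx)
  have hkinv : t * k⁻¹ * t⁻¹ = k⁻¹⁻¹ := by
    rw [hk, hti]
    simp only [mul_inv_rev, inv_inv, hti, mul_assoc, ht']
  obtain ⟨w, hw, hww⟩ := exists_sqrt_of_odd X hodd (X.inv_mem hkX)
  have hwX : w ∈ X := (Subgroup.zpowers_le.mpr (X.inv_mem hkX)) hw
  have hwinv : t * w * t⁻¹ = w⁻¹ := inverted_of_mem_zpowers hkinv hw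
  refine ⟨x * w⁻¹, X.mul_mem hx (X.inv_mem hwX), w, hwX, ?_, hwinv, by group⟩
  have h1 : t * x * t⁻¹ = x * k := by rw [hk]; group
  have h2 : k = w⁻¹ * w⁻¹ := by
    rw [← mul_inv_rev, hww, inv_inv]
  have h3 : t * w⁻¹ * t⁻¹ = w := by
    have := congrArg (·⁻¹) hwinv
    simpa [mul_assoc] using this
  calc t * (x * w⁻¹) * t⁻¹ = (t * x * t⁻¹) * (t * w⁻¹ * t⁻¹) := by group
    _ = x * k * w := by rw [h1, h3]
    _ = x * w⁻¹ := by rw [h2]; group

/-- Uniqueness in the decomposition. -/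
theorem inverted_decomp_unique [Finite M] {t : M} (X : Subgroup M)
    (hodd : Odd (Nat.card X)) {y z y' z' : M} (hz : z ∈ X) (hz' : z' ∈ X)
    (hy : t * y * t⁻¹ = y) (hzi : t * z * t⁻¹ = z⁻¹)
    (hy' : t * y' * t⁻¹ = y') (hzi' : t * z' * t⁻¹ = z'⁻¹) (h : y * z = y' * z') :
    y = y' ∧ z = z' := by
  have e1 : (y * z)⁻¹ * (t * (y * z) * t⁻¹) = z⁻¹ * z⁻¹ := by
    have : t * (y * z) * t⁻¹ = (t * y * t⁻¹) * (t * z * t⁻¹) := by group
    rw [this, hy, hzi]; group
  have e2 : (y' * z')⁻¹ * (t * (y' * z') * t⁻¹) = z'⁻¹ * z'⁻¹ := by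
    have : t * (y' * z') * t⁻¹ = (t * y' * t⁻¹) * (t * z' * t⁻¹) := by group
    rw [this, hy', hzi']; group
  rw [h, e2] at e1
  have hzz : z⁻¹ = z'⁻¹ := sq_inj_of_odd X hodd (X.inv_mem hz) (X.inv_mem hz') e1.symm
  have hzz' : z = z' := inv_injective hzz
  refine ⟨?_, hzz'⟩
  rw [hzz'] at h
  exact mul_right_cancel h

/-- The statement of S1124 with `t * t = 1` in place of `orderOf t = 2`. -/
theorem inverted_factorization [Finite M]
    (t : M) (ht : t * t = 1) (X : Subgroup M) (hodd : Odd (Nat.card X))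
    (hnorm : ∀ x ∈ X, t * x * t⁻¹ ∈ X) :
    (∀ x ∈ X, ∃! p : M × M, p.1 ∈ X ⊓ Subgroup.centralizer {t} ∧ p.2 ∈ Cfsg.invertedBy X t ∧
        x = p.1 * p.2) ∧
      Nat.card X = Nat.card ↥(X ⊓ Subgroup.centralizer {t}) * Nat.card (Cfsg.invertedBy X t) ∧
      ∀ x ∈ X, MulAut.conj x • Subgroup.closure (Cfsg.invertedBy X t) =
        Subgroup.closure (Cfsg.invertedBy X t) := by
  have hcent : ∀ y : M, y ∈ Subgroup.centralizer {t} ↔ t * y * t⁻¹ = y := by
    intro y
    rw [Subgroup.mem_centralizer_iff]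
    constructor
    · intro h
      have := h t (Set.mem_singleton t)
      rw [this]; group
    · intro h g hg
      rw [Set.mem_singleton_iff] at hg
      subst hg
      have : g * y = y * g := by
        calc g * y = (g * y * g⁻¹) * g := by group
          _ = y * g := by rw [h]
      exact this
  have huniq : ∀ x ∈ X, ∃! p : M × M, p.1 ∈ X ⊓ Subgroup.centralizer {t} ∧
      p.2 ∈ Cfsg.invertedBy X t ∧ x = p.1 * p.2 := by
    intro x hx
    obtain ⟨y, hyX, z, hzX, hy, hz, hxyz⟩ := inverted_decomp ht X hodd hnorm hx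
    refine ⟨(y, z), ⟨⟨hyX, (hcent y).mpr hy⟩, ⟨hzX, hz⟩, hxyz⟩, ?_⟩
    rintro ⟨y', z'⟩ ⟨⟨hy'X, hy'⟩, ⟨hz'X, hz'⟩, hx'⟩
    have := inverted_decomp_unique X hodd hz'X hzX ((hcent y').mp hy') hz' hy hz
      (hx'.symm.trans hxyz)
    exact Prod.ext this.1 this.2
  refine ⟨huniq, ?_, ?_⟩
  · let f : ↥(X ⊓ Subgroup.centralizer {t}) × (Cfsg.invertedBy X t) → X := fun p =>
      ⟨(p.1 : M) * (p.2 : M), X.mul_mem p.1.2.1 p.2.2.1⟩
    have hf : Function.Bijective f := by
      constructor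
      · rintro ⟨⟨y, hy⟩, ⟨z, hz⟩⟩ ⟨⟨y', hy'⟩, ⟨z', hz'⟩⟩ h
        have h' : y * z = y' * z' := congrArg Subtype.val h
        have := inverted_decomp_unique X hodd hz.1 hz'.1 ((hcent y).mp hy.2) hz.2
          ((hcent y').mp hy'.2) hz'.2 h'
        obtain ⟨rfl, rfl⟩ := this
        rfl
      · rintro ⟨x, hx⟩
        obtain ⟨⟨y, z⟩, ⟨hy, hz, hxyz⟩, -⟩ := huniq x hx
        exact ⟨(⟨y, hy⟩, ⟨z, hz⟩), Subtype.ext hxyz.symm⟩
    rw [← Nat.card_prod]
    exact (Nat.card_congr (Equiv.ofBijective f hf)).symm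
  · have hA : ∀ y ∈ X ⊓ Subgroup.centralizer {t}, ∀ h ∈ Subgroup.closure (Cfsg.invertedBy X t),
        y * h * y⁻¹ ∈ Subgroup.closure (Cfsg.invertedBy X t) := by
      intro y hy h hh
      induction hh using Subgroup.closure_induction with
      | mem k hk =>
        apply Subgroup.subset_closure
        refine ⟨X.mul_mem (X.mul_mem hy.1 hk.1) (X.inv_mem hy.1), ?_⟩
        have hyc := (hcent y).mp hy.2
        have : t * (y * k * y⁻¹) * t⁻¹ = (t * y * t⁻¹) * (t * k * t⁻¹) * (t * y * t⁻¹)⁻¹ := by group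
        rw [this, hyc, hk.2]; group
      | one => simp
      | mul a b _ _ ha hb =>
        have : y * (a * b) * y⁻¹ = (y * a * y⁻¹) * (y * b * y⁻¹) := by group
        rw [this]; exact Subgroup.mul_mem _ ha hb
      | inv a _ ha =>
        have : y * a⁻¹ * y⁻¹ = (y * a * y⁻¹)⁻¹ := by group
        rw [this]; exact Subgroup.inv_mem _ ha
    have hB : ∀ x ∈ X, ∀ h ∈ Subgroup.closure (Cfsg.invertedBy X t),
        x * h * x⁻¹ ∈ Subgroup.closure (Cfsg.invertedBy X t) := by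
      intro x hx h hh
      obtain ⟨⟨y, z⟩, ⟨hy, hz, hxyz⟩, -⟩ := huniq x hx
      have hz' : z ∈ Subgroup.closure (Cfsg.invertedBy X t) := Subgroup.subset_closure hz
      have : x * h * x⁻¹ = y * (z * h * z⁻¹) * y⁻¹ := by rw [hxyz]; group
      rw [this]
      exact hA y hy _ (Subgroup.mul_mem _ (Subgroup.mul_mem _ hz' hh) (Subgroup.inv_mem _ hz'))
    intro x hx
    ext g
    rw [Subgroup.mem_smul_pointwise_iff_exists]
    constructor
    · rintro ⟨s, hs, rfl⟩
      rw [MulAut.smul_def, MulAut.conj_apply]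
      exact hB x hx s hs
    · intro hg
      refine ⟨x⁻¹ * g * x, ?_, ?_⟩
      · have := hB x⁻¹ (X.inv_mem hx) g hg
        simpa using this
      · rw [MulAut.smul_def, MulAut.conj_apply]; group

end Cfsg.Agent.Helper19
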