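import Mathlib
import Cfsg.Prelude.Def_LieRecognition
import Cfsg.Agent.Helper19.Inverted

set_option autoImplicit false
open scoped Pointwise

namespace Cfsg.Agent.Helper19

variable {M : Type*} [Group M]

/-- If `t` centralises `k` then it centralises every element of `zpowers k`. -/
theorem fixed_of_mem_zpowers {t k w : M} (hk : t * k * t⁻¹ = k) (hw : w ∈ Subgroup.zpowers k) :
    t * w * t⁻¹ = w := by
  obtain ⟨j, rfl⟩ := Subgroup.mem_zpowers_iff.mp hw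
  rw [← conj_zpow, hk]

/-- A group `N` of odd order normalised by a four-group `{1, x, y, xy}` is the product
`C_N(x) C_N(y) C_N(xy) C_N(y)`. -/
theorem klein_decomp [Finite M] (N : Subgroup M) (hodd : Odd (Nat.card N)) {x y : M}
    (hx : x * x = 1) (hy : y * y = 1) (hxy : x * y = y * x)
    (hNx : ∀ n ∈ N, x * n * x⁻¹ ∈ N) (hNy : ∀ n ∈ N, y * n * y⁻¹ ∈ N) {n : M} (hn : n ∈ N) :
    ∃ c d k : M, x * c * x⁻¹ = c ∧ y * d * y⁻¹ = d ∧ (x * y) * k * (x * y)⁻¹ = k ∧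
      n = c * d * k * d := by
  obtain ⟨c, hcN, i, hiN, hc, hi, hn_eq⟩ := inverted_decomp hx N hodd hNx hn
  obtain ⟨c', hc'N, j, hjN, hc', hj, hi_eq⟩ := inverted_decomp hy N hodd hNy hiN
  have hxi : x⁻¹ = x := inv_eq_self_of_mul_self hx
  have hyi : y⁻¹ = y := inv_eq_self_of_mul_self hy
  -- conjugation by `x` and `y` commute
  have hcomm : ∀ g : M, y * (x * g * x⁻¹) * y⁻¹ = x * (y * g * y⁻¹) * x⁻¹ := by
    intro g
    calc y * (x * g * x⁻¹) * y⁻¹ = (y * x) * g * (y * x)⁻¹ := by group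
      _ = (x * y) * g * (x * y)⁻¹ := by rw [hxy]
      _ = x * (y * g * y⁻¹) * x⁻¹ := by group
  have h1 : y * (x * c' * x⁻¹) * y⁻¹ = x * c' * x⁻¹ := by rw [hcomm, hc']
  have h2 : y * (x * j * x⁻¹) * y⁻¹ = (x * j * x⁻¹)⁻¹ := by rw [hcomm, hj]; group
  have h3 : y * c'⁻¹ * y⁻¹ = c'⁻¹ := by
    have := congrArg (·⁻¹) hc'
    simpa [mul_assoc] using this
  have h4 : y * (c' * j⁻¹ * c'⁻¹) * y⁻¹ = (c' * j⁻¹ * c'⁻¹)⁻¹ := by
    have hj' : y * j⁻¹ * y⁻¹ = j := by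
      have := congrArg (·⁻¹) hj
      simpa [mul_assoc] using this
    calc y * (c' * j⁻¹ * c'⁻¹) * y⁻¹ = (y * c' * y⁻¹) * (y * j⁻¹ * y⁻¹) * (y * c'⁻¹ * y⁻¹) := by group
      _ = (c' * j⁻¹ * c'⁻¹)⁻¹ := by rw [hc', hj', h3]; group
  have h5 : (x * c' * x⁻¹) * (x * j * x⁻¹) = c'⁻¹ * (c' * j⁻¹ * c'⁻¹) := by
    calc (x * c' * x⁻¹) * (x * j * x⁻¹) = x * (c' * j) * x⁻¹ := by group
      _ = i⁻¹ := by rw [← hi_eq, hi]
      _ = c'⁻¹ * (c' * j⁻¹ * c'⁻¹) := by rw [hi_eq]; group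
  obtain ⟨e1, e2⟩ := inverted_decomp_unique N hodd (hNx j hjN)
    (N.mul_mem (N.mul_mem hc'N (N.inv_mem hjN)) (N.inv_mem hc'N)) h1 h2 h3 h4 h5
  obtain ⟨d, hdz, hdd⟩ := exists_sqrt_of_odd N hodd hc'N
  have hyd : y * d * y⁻¹ = d := fixed_of_mem_zpowers hc' hdz
  have hxd : x * d * x⁻¹ = d⁻¹ := inverted_of_mem_zpowers e1 hdz
  have hxd' : x * d⁻¹ * x⁻¹ = d := by
    have := congrArg (·⁻¹) hxd
    simpa [mul_assoc] using this
  have hyd' : y * d⁻¹ * y⁻¹ = d⁻¹ := by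
    have := congrArg (·⁻¹) hyd
    simpa [mul_assoc] using this
  have hxj' : x * j⁻¹ * x⁻¹ = c' * j * c'⁻¹ := by
    have := congrArg (·⁻¹) e2
    simpa [mul_assoc] using this
  refine ⟨c, d, d * j * d⁻¹, hc, hyd, ?_, ?_⟩
  · calc (x * y) * (d * j * d⁻¹) * (x * y)⁻¹
        = x * ((y * d * y⁻¹) * (y * j * y⁻¹) * (y * d⁻¹ * y⁻¹)) * x⁻¹ := by group
      _ = x * (d * j⁻¹ * d⁻¹) * x⁻¹ := by rw [hyd, hj, hyd']
      _ = (x * d * x⁻¹) * (x * j⁻¹ * x⁻¹) * (x * d⁻¹ * x⁻¹) := by group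
      _ = d⁻¹ * (c' * j * c'⁻¹) * d := by rw [hxd, hxj', hxd']
      _ = d⁻¹ * ((d * d) * j * (d * d)⁻¹) * d := by rw [hdd]
      _ = d * j * d⁻¹ := by group
  · rw [hn_eq, hi_eq, ← hdd]; group

end Cfsg.Agent.Helper19
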