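/-
CALL NP (helper13; row S5989), piece SPIN4 (double, tag SPIN4b), by helper19.  Pure Mathlib.
-/
import Mathlib

set_option autoImplicit false

namespace Cfsg.Agent.Helper19.NP5989

/-- SPIN4 [M, pure Mathlib]: a permutation with `σ⁴ = 1` and `σ²` fixed-point-free has all cycles of
length `4`. -/
theorem np_sign_four {α : Type*} [Fintype α] [DecidableEq α] (σ : Equiv.Perm α) (h4 : σ ^ 4 = 1)
    (hf : ∀ x, σ (σ x) ≠ x) :
    4 ∣ Fintype.card α ∧ Equiv.Perm.sign σ = (-1) ^ (Fintype.card α / 4) := by
  have hall : ∀ n ∈ σ.cycleType, n = 4 := by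
    intro n hn
    have h1 : n ∣ 4 := (Equiv.Perm.dvd_of_mem_cycleType hn).trans (orderOf_dvd_of_pow_eq_one h4)
    have h2 : 2 ≤ n := Equiv.Perm.two_le_of_mem_cycleType hn
    have h3 : n ≠ 2 := by
      rintro rfl
      obtain ⟨c, τ, hστ, hdisj, hc, hcard⟩ := Equiv.Perm.mem_cycleType_iff.mp hn
      have hc2 : c ^ 2 = 1 := by
        have h := hc.orderOf
        rw [hcard] at h
        rw [← h]; exact pow_orderOf_eq_one c
      obtain ⟨x, hx⟩ : ∃ x, x ∈ c.support := by
        have : c.support.Nonempty := by
          rw [← Finset.card_pos, hcard]; norm_num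
        exact this
      have hτx : τ x = x := by
        rcases hdisj x with h | h
        · exact absurd h (Equiv.Perm.mem_support.mp hx)
        · exact h
      have hcx : c x ∈ c.support := Equiv.Perm.apply_mem_support.mpr hx
      have hτcx : τ (c x) = c x := by
        rcases hdisj (c x) with h | h
        · exact absurd h (Equiv.Perm.mem_support.mp hcx)
        · exact h
      apply hf x
      rw [hστ]
      simp only [Equiv.Perm.mul_apply, hτx, hτcx]
      have h := congrArg (fun f : Equiv.Perm α => f x) hc2
      simpa [pow_two] using h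
    have h4' : n ≤ 4 := Nat.le_of_dvd (by norm_num) h1
    interval_cases n
    · exact absurd rfl h3
    · exact absurd h1 (by norm_num)
    · rfl
  have hrep : σ.cycleType = Multiset.replicate (Multiset.card σ.cycleType) 4 :=
    Multiset.eq_replicate_card.mpr hall
  have hsupp : σ.support = Finset.univ := by
    ext x
    simp only [Equiv.Perm.mem_support, Finset.mem_univ, iff_true]
    intro h
    exact hf x (by rw [h, h])
  have hsum : σ.cycleType.sum = Fintype.card α := by
    rw [Equiv.Perm.sum_cycleType, hsupp, Finset.card_univ]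
  have hsum' : σ.cycleType.sum = 4 * Multiset.card σ.cycleType := by
    conv_lhs => rw [hrep]
    rw [Multiset.sum_replicate, smul_eq_mul, mul_comm]
  have hcard : Fintype.card α = 4 * Multiset.card σ.cycleType := by rw [← hsum, hsum']
  refine ⟨⟨_, hcard⟩, ?_⟩
  have hu : ((-1 : ℤˣ)) ^ 4 = 1 := by decide
  rw [Equiv.Perm.sign_of_cycleType, hsum', hcard, Nat.mul_div_cancel_left _ (by norm_num : 0 < 4),
    pow_add, pow_mul, hu, one_pow, one_mul]

end Cfsg.Agent.Helper19.NP5989
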