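import Mathlib
import Cfsg.Agent.Helper8.SylFix
import Cfsg.Agent.Helper9.OrdTools
import Cfsg.Agent.S0985
import Cfsg.Agent.S1001
import Cfsg.Agent.Helper83.T7920ND

set_option autoImplicit false

namespace Cfsg.Agent.Helper19

/-- An even involution `σ` on 10 points commuting with a permutation `τ` of order dividing 3
that has a unique fixed point (fixed by `σ`) is trivial. -/
theorem o720b_perm_aux {X : Type*} [Fintype X] [DecidableEq X] (σ τ : Equiv.Perm X)
    (hσ : σ ^ 2 = 1) (hτ : τ ^ 3 = 1) (hcomm : σ * τ = τ * σ)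
    (hsign : Equiv.Perm.sign σ = 1) (hcard : Fintype.card X = 10) (x₀ : X)
    (hσ0 : σ x₀ = x₀) (hτ00 : τ x₀ = x₀) (hτ0 : ∀ x, τ x = x → x = x₀) : σ = 1 := by
  classical
  -- fixed points of `σ` modulo 3
  have hinv : ∀ y : Function.fixedPoints σ, σ (τ y.1) = τ y.1 := by
    intro y
    have h1 : σ (τ y.1) = (σ * τ) y.1 := rfl
    rw [h1, hcomm]
    show τ (σ y.1) = τ y.1
    rw [y.2]
  let f : Function.End (Function.fixedPoints σ) := fun y => ⟨τ y.1, hinv y⟩
  have hf : f ^ 3 ^ 1 = 1 := by
    rw [pow_one]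
    have h3 : f ^ 3 = f * (f * f) := by rw [pow_succ, pow_two, mul_assoc]
    rw [h3]
    funext y
    apply Subtype.ext
    show τ (τ (τ y.1)) = y.1
    have h4 : τ (τ (τ y.1)) = (τ ^ 3) y.1 := by
      rw [pow_succ, pow_two]; rfl
    rw [h4, hτ]; rfl
  have hmod := Equiv.Perm.card_fixedPoints_modEq (f := f) (p := 3) (n := 1) hf
  have hone : Fintype.card (Function.fixedPoints f) = 1 := by
    rw [Fintype.card_eq_one_iff]
    refine ⟨⟨⟨x₀, hσ0⟩, Subtype.ext hτ00⟩, ?_⟩
    intro y
    apply Subtype.ext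
    apply Subtype.ext
    have h5 : f y.1 = y.1 := y.2
    have h6 : τ y.1.1 = y.1.1 := congrArg Subtype.val h5
    exact hτ0 _ h6
  rw [hone] at hmod
  -- parity
  have h2 : ∀ n ∈ σ.cycleType, n = 2 := by
    intro n hn
    have hdvd : n ∣ 2 := (Equiv.Perm.dvd_of_mem_cycleType hn).trans (orderOf_dvd_of_pow_eq_one hσ)
    have hle := Equiv.Perm.two_le_of_mem_cycleType hn
    have := Nat.le_of_dvd (by norm_num) hdvd
    omega
  have hrep := Multiset.eq_replicate_card.mpr h2
  have hsum : σ.cycleType.sum = 2 * Multiset.card σ.cycleType := by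
    conv_lhs => rw [hrep]
    rw [Multiset.sum_replicate, smul_eq_mul, mul_comm]
  have hfp := Equiv.Perm.card_fixedPoints σ
  have hle := Equiv.Perm.sum_cycleType_le σ
  have hfix : Fintype.card (Function.fixedPoints σ) + 2 * Multiset.card σ.cycleType =
      Fintype.card X := by omega
  have heven : ¬ Odd (Multiset.card σ.cycleType) := by
    intro hodd
    have := Cfsg.Agent.Helper8.SylFix.sign_of_involution σ hσ _ hfix hodd
    rw [hsign] at this
    exact absurd this (by decide)
  rw [Nat.not_odd_iff_even] at heven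
  obtain ⟨c, hc⟩ := heven
  have hmod' : Fintype.card (Function.fixedPoints σ) % 3 = 1 := hmod
  have hc0 : Multiset.card σ.cycleType = 0 := by omega
  rw [← Equiv.Perm.cycleType_eq_zero]
  exact Multiset.card_eq_zero.1 hc0

variable {G : Type*} [Group G] [Finite G] [IsSimpleGroup G]

omit [Finite G] [IsSimpleGroup G] in
theorem o720b_hna (hG : ¬ IsMulCommutative G) : ∃ a b : G, a * b ≠ b * a := by
  by_contra hcon
  push Not at hcon
  exact hG ⟨⟨hcon⟩⟩

omit [IsSimpleGroup G] in
theorem o720b_card9 (h : Nat.card G = 720) (P : Sylow 3 G) :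
    Nat.card (P : Subgroup G) = 3 ^ 2 :=
  Cfsg.Agent.Helper9.OrdTools.sylow_card 2 80 (by rw [h]; norm_num) (by norm_num) P

omit [IsSimpleGroup G] in
theorem o720b_comm (h : Nat.card G = 720) (P : Sylow 3 G) :
    ∀ a ∈ (P : Subgroup G), ∀ b ∈ (P : Subgroup G), a * b = b * a := by
  intro a ha b hb
  have := (IsPGroup.isMulCommutative_of_card_eq_prime_sq (p := 3) (o720b_card9 h P)).is_comm.comm
    (⟨a, ha⟩ : (P : Subgroup G)) ⟨b, hb⟩
  exact congrArg Subtype.val this

/-- If `|N(P)| = 18`, the elements of `N(P) ∖ P` invert `P`. -/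
theorem o720b_invert (hG : ¬ IsMulCommutative G) (h : Nat.card G = 720) (P : Sylow 3 G)
    (hN : Nat.card (Subgroup.normalizer ((P : Subgroup G) : Set G)) = 18) (t : G)
    (ht : t ∈ Subgroup.normalizer ((P : Subgroup G) : Set G)) (htP : t ∉ (P : Subgroup G))
    (x : G) (hx : x ∈ (P : Subgroup G)) : t * x * t⁻¹ = x⁻¹ := by
  have hcomm := o720b_comm h P
  have hidx : ((P : Subgroup G).subgroupOf
      (Subgroup.normalizer ((P : Subgroup G) : Set G))).index = 2 := by
    have h1 := Subgroup.card_mul_index ((P : Subgroup G).subgroupOf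
      (Subgroup.normalizer ((P : Subgroup G) : Set G)))
    rw [Nat.card_congr (Subgroup.subgroupOfEquivOfLe Subgroup.le_normalizer).toEquiv,
      o720b_card9 h P, hN] at h1
    omega
  have ht2 : t * t ∈ (P : Subgroup G) := by
    have h1 := (Subgroup.mul_mem_iff_of_index_two hidx
      (a := (⟨t, ht⟩ : Subgroup.normalizer ((P : Subgroup G) : Set G))) (b := ⟨t, ht⟩)).2 Iff.rfl
    rw [Subgroup.mem_subgroupOf] at h1
    exact h1
  have ha : t * x * t⁻¹ ∈ (P : Subgroup G) := (Subgroup.mem_normalizer_iff.1 ht x).1 hx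
  have hy : x * (t * x * t⁻¹) ∈ (P : Subgroup G) := Subgroup.mul_mem _ hx ha
  have hta : t * (t * x * t⁻¹) * t⁻¹ = x := by
    have h1 : t * (t * x * t⁻¹) * t⁻¹ = (t * t) * x * (t * t)⁻¹ := by group
    rw [h1, hcomm (t * t) ht2 x hx]; group
  have hty : t * (x * (t * x * t⁻¹)) = x * (t * x * t⁻¹) * t := by
    calc t * (x * (t * x * t⁻¹)) = (t * x * t⁻¹) * (t * (t * x * t⁻¹) * t⁻¹) * t := by group
      _ = (t * x * t⁻¹) * x * t := by rw [hta]
      _ = x * (t * x * t⁻¹) * t := by rw [hcomm (t * x * t⁻¹) ha x hx]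
  have hc : ∀ n ∈ Subgroup.normalizer ((P : Subgroup G) : Set G),
      n * (x * (t * x * t⁻¹)) = x * (t * x * t⁻¹) * n := by
    intro n hn
    by_cases hnP : n ∈ (P : Subgroup G)
    · exact hcomm n hnP _ hy
    · have hp : t⁻¹ * n ∈ (P : Subgroup G) := by
        have h1 := (Subgroup.mul_mem_iff_of_index_two hidx
          (a := (⟨t, ht⟩ : Subgroup.normalizer ((P : Subgroup G) : Set G))⁻¹) (b := ⟨n, hn⟩)).2
          (by
            rw [Subgroup.inv_mem_iff, Subgroup.mem_subgroupOf, Subgroup.mem_subgroupOf]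
            exact ⟨fun h' => absurd h' htP, fun h' => absurd h' hnP⟩)
        rw [Subgroup.mem_subgroupOf] at h1
        exact h1
      calc n * (x * (t * x * t⁻¹)) = t * ((t⁻¹ * n) * (x * (t * x * t⁻¹))) := by group
        _ = t * ((x * (t * x * t⁻¹)) * (t⁻¹ * n)) := by rw [hcomm (t⁻¹ * n) hp _ hy]
        _ = (t * (x * (t * x * t⁻¹))) * (t⁻¹ * n) := by group
        _ = (x * (t * x * t⁻¹) * t) * (t⁻¹ * n) := by rw [hty]
        _ = x * (t * x * t⁻¹) * n := by group
  have h1 := Cfsg.Agent.Helper9.OrdTools.eq_one_of_commute_normalizer (o720b_hna hG) P hcomm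
    (x * (t * x * t⁻¹)) hy hc
  exact eq_inv_of_mul_eq_one_right h1

theorem o720b_arith (m c : ℕ) (h9 : 9 * m = c) (hdvd : c ∣ 720) (h5 : ¬ 5 ∣ c)
    (hmod : m ≡ 1 [MOD 3]) (hm1 : m ≠ 1) (hm16 : m ≠ 16) : c = 36 := by
  subst h9
  have hmod' : m % 3 = 1 := hmod
  have hm80 : m ∣ 80 := Nat.dvd_of_mul_dvd_mul_left (by norm_num : 0 < 9) (by simpa using hdvd)
  have h1 : m ∈ Nat.divisors 80 := Nat.mem_divisors.2 ⟨hm80, by norm_num⟩
  have h80 : Nat.divisors 80 = {1, 2, 4, 5, 8, 10, 16, 20, 40, 80} := by decide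
  rw [h80] at h1
  simp only [Finset.mem_insert, Finset.mem_singleton] at h1
  rcases h1 with rfl | rfl | rfl | rfl | rfl | rfl | rfl | rfl | rfl | rfl <;> omega

/-- The final parity contradiction on the 10 cosets of `N`. -/
theorem o720b_final (hna : ∃ a b : G, a * b ≠ b * a) (N : Subgroup G) (hNidx : N.index = 10)
    (d v : G) (hd3 : d ^ 3 = 1) (hv2 : v ^ 2 = 1) (hv1 : v ≠ 1) (hvd : v * d = d * v)
    (hvN : v ∈ N) (hdN : d ∈ N) (hfixd : ∀ g : G, g⁻¹ * d * g ∈ N → g ∈ N) : False := by
  classical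
  have hNtop : N ≠ ⊤ := by
    intro htop
    rw [htop, Subgroup.index_top] at hNidx
    omega
  letI : Fintype (G ⧸ N) := Fintype.ofFinite _
  have hcardX : Fintype.card (G ⧸ N) = 10 := by
    rw [← Nat.card_eq_fintype_card, ← Subgroup.index_eq_card, hNidx]
  have hsmul : ∀ a g : G, MulAction.toPermHom G (G ⧸ N) a (QuotientGroup.mk g) =
      QuotientGroup.mk (a * g) := fun a g => rfl
  have hσ1 := o720b_perm_aux
    (MulAction.toPermHom G (G ⧸ N) v) (MulAction.toPermHom G (G ⧸ N) d)
    (by rw [← map_pow, hv2, map_one]) (by rw [← map_pow, hd3, map_one])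
    (by rw [← map_mul, ← map_mul, hvd])
    (Cfsg.Agent.Helper9.OrdTools.hom_trivial hna (Equiv.Perm.sign.comp
      (MulAction.toPermHom G (G ⧸ N))) v)
    hcardX (QuotientGroup.mk 1)
    (by
      rw [hsmul, QuotientGroup.eq]
      simpa using hvN)
    (by
      rw [hsmul, QuotientGroup.eq]
      simpa using hdN)
    (by
      intro x hx
      induction x using QuotientGroup.induction_on with
      | H g =>
        rw [hsmul, QuotientGroup.eq] at hx
        have h1 : g⁻¹ * d * g ∈ N := by
          have h2 := Subgroup.inv_mem _ hx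
          have h3 : ((d * g)⁻¹ * g)⁻¹ = g⁻¹ * d * g := by group
          rwa [h3] at h2
        have hgN := hfixd g h1
        rw [QuotientGroup.eq]
        simpa using hgN)
  have hinj := Cfsg.Agent.Helper9.OrdTools.toPermHom_injective N hNtop
  exact hv1 (hinj (by rw [hσ1, map_one]))

/-- PIECE O720B -/
theorem o720_n3_ne_40 (hG : ¬ IsMulCommutative G) (h : Nat.card G = 720) :
    Nat.card (Sylow 3 G) ≠ 40 := by
  classical
  intro h40
  have hna := o720b_hna hG
  have hN18 : ∀ P : Sylow 3 G,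
      Nat.card (Subgroup.normalizer ((P : Subgroup G) : Set G)) = 18 := by
    intro P
    have h1 := (Cfsg.Agent.Helper9.OrdTools.sylow_num P
      (by rw [o720b_card9 h P]; norm_num) (by rw [o720b_card9 h P, h]; norm_num)).2.2.2
    rw [h40, h] at h1
    omega
  have hmod : ¬ Nat.card (Sylow 3 G) ≡ 1 [MOD 3 ^ 2] := by rw [h40]; decide
  obtain ⟨P, R, hPR, hidx⟩ := Cfsg.Agent.S0985.result 3 2 hmod
  -- the intersection `D`
  have hD3 : Nat.card ((R : Subgroup G) ⊓ (P : Subgroup G) : Subgroup G) = 3 := by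
    have e1 : Nat.card ((R : Subgroup G) ⊓ (P : Subgroup G) : Subgroup G) =
        Nat.card ((R : Subgroup G).subgroupOf (P : Subgroup G)) := by
      rw [← Subgroup.subgroupOf_map_subtype,
        Subgroup.card_map_of_injective (Subgroup.subtype_injective _)]
    have e2 := Subgroup.card_mul_index ((R : Subgroup G).subgroupOf (P : Subgroup G))
    rw [o720b_card9 h P] at e2
    have hne1 : ((R : Subgroup G).subgroupOf (P : Subgroup G)).index ≠ 1 := by
      intro h1
      rw [Subgroup.index_eq_one, Subgroup.subgroupOf_eq_top] at h1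
      exact hPR (Sylow.ext (Subgroup.eq_of_le_of_card_ge h1
        (by rw [o720b_card9 h P, o720b_card9 h R])))
    have hdvd : ((R : Subgroup G).subgroupOf (P : Subgroup G)).index ∣ 9 :=
      Dvd.intro_left _ e2
    have hle : ((R : Subgroup G).subgroupOf (P : Subgroup G)).index ≤ 3 := by simpa using hidx
    rw [e1]
    generalize ((R : Subgroup G).subgroupOf (P : Subgroup G)).index = i at *
    generalize Nat.card ((R : Subgroup G).subgroupOf (P : Subgroup G)) = s at *
    interval_cases i <;> omega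
  obtain ⟨d, hdD, hd1, hdinv, hd3, hall⟩ :=
    Cfsg.Agent.Helper83.T7920Aux.exists_gen3 _ hD3
  have hDP : (R : Subgroup G) ⊓ (P : Subgroup G) ≤ (P : Subgroup G) := inf_le_right
  have hDR : (R : Subgroup G) ⊓ (P : Subgroup G) ≤ (R : Subgroup G) := inf_le_left
  -- an element of `N(P) ∖ P`
  obtain ⟨t, ht, htP⟩ : ∃ t ∈ Subgroup.normalizer ((P : Subgroup G) : Set G),
      t ∉ (P : Subgroup G) := by
    by_contra hcon
    push Not at hcon
    have h1 := Subgroup.card_le_of_le (H := Subgroup.normalizer ((P : Subgroup G) : Set G))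
      (K := (P : Subgroup G)) hcon
    rw [hN18 P, o720b_card9 h P] at h1
    omega
  have htinv : ∀ x ∈ ((R : Subgroup G) ⊓ (P : Subgroup G) : Subgroup G), t * x * t⁻¹ = x⁻¹ :=
    fun x hx => o720b_invert hG h P (hN18 P) t ht htP x (hDP hx)
  have hND := Cfsg.Agent.Helper83.o7920_norm_D _ hD3 t htinv
  -- the centralizer `C` of `D`
  have hPC : (P : Subgroup G) ≤
      Subgroup.centralizer (((R : Subgroup G) ⊓ (P : Subgroup G) : Subgroup G) : Set G) := by
    intro r hr
    rw [Subgroup.mem_centralizer_iff]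
    intro x hx
    exact o720b_comm h P x (hDP hx) r hr
  have hRC : (R : Subgroup G) ≤
      Subgroup.centralizer (((R : Subgroup G) ⊓ (P : Subgroup G) : Subgroup G) : Set G) := by
    intro r hr
    rw [Subgroup.mem_centralizer_iff]
    intro x hx
    exact o720b_comm h R x (hDR hx) r hr
  have h5 : ¬ 5 ∣ Nat.card (Subgroup.centralizer
      (((R : Subgroup G) ⊓ (P : Subgroup G) : Subgroup G) : Set G)) := by
    intro h5
    have : Fact (Nat.Prime 5) := ⟨by norm_num⟩
    obtain ⟨y, hy⟩ := exists_prime_orderOf_dvd_card' 5 h5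
    have hy' : orderOf (y : G) = 5 := by rw [Subgroup.orderOf_coe]; exact hy
    have hcz := Cfsg.Agent.S1001.result 5 2 4 (by norm_num) (by rw [h]; norm_num) (y : G) hy'
    have hdmem : d ∈ Subgroup.centralizer ({(y : G)} : Set G) := by
      rw [Subgroup.mem_centralizer_iff]
      intro z hz
      rw [Set.mem_singleton_iff] at hz
      subst hz
      exact ((Subgroup.mem_centralizer_iff.1 y.2) d hdD).symm
    rw [hcz] at hdmem
    obtain ⟨k, hk⟩ := Subgroup.mem_zpowers_iff.1 hdmem
    have hd5 : d ^ 5 = 1 := by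
      rw [← hk, ← zpow_natCast, ← zpow_mul, mul_comm, zpow_mul, zpow_natCast, ← hy',
        pow_orderOf_eq_one, one_zpow]
    have h6 : d ^ 6 = 1 := by
      have : (6 : ℕ) = 3 * 2 := by norm_num
      rw [this, pow_mul, hd3, one_pow]
    have h7 : d ^ 6 = d ^ 5 * d := pow_succ d 5
    rw [h6, hd5, one_mul] at h7
    exact hd1 h7.symm
  have hPcoe := Sylow.coe_subtype P hPC
  have hP'card : Nat.card ((P.subtype hPC : Sylow 3 ↥(Subgroup.centralizer (((R : Subgroup G) ⊓ (P : Subgroup G) : Subgroup G) : Set G))) : Subgroup ↥(Subgroup.centralizer (((R : Subgroup G) ⊓ (P : Subgroup G) : Subgroup G) : Set G))) = 9 := by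
    rw [hPcoe, Nat.card_congr (Subgroup.subgroupOfEquivOfLe hPC).toEquiv, o720b_card9 h P]
    norm_num
  have hnorm : Subgroup.normalizer (((P.subtype hPC : Sylow 3 ↥(Subgroup.centralizer (((R : Subgroup G) ⊓ (P : Subgroup G) : Subgroup G) : Set G))) : Subgroup ↥(Subgroup.centralizer (((R : Subgroup G) ⊓ (P : Subgroup G) : Subgroup G) : Set G))) : Set ↥(Subgroup.centralizer (((R : Subgroup G) ⊓ (P : Subgroup G) : Subgroup G) : Set G))) =
      ((P.subtype hPC : Sylow 3 ↥(Subgroup.centralizer (((R : Subgroup G) ⊓ (P : Subgroup G) : Subgroup G) : Set G))) : Subgroup ↥(Subgroup.centralizer (((R : Subgroup G) ⊓ (P : Subgroup G) : Subgroup G) : Set G))) := by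
    apply le_antisymm
    · intro c hc
      rw [hPcoe] at hc ⊢
      have hcN : (c : G) ∈ Subgroup.normalizer ((P : Subgroup G) : Set G) := by
        rw [Subgroup.mem_normalizer_iff]
        intro r
        have h1 := (Subgroup.mem_normalizer_iff.1 hc)
        constructor
        · intro hr
          have h2 := (h1 ⟨r, hPC hr⟩).1 (by rw [Subgroup.mem_subgroupOf]; exact hr)
          rw [Subgroup.mem_subgroupOf] at h2
          simpa using h2
        · intro hr
          have hrH : r ∈ Subgroup.centralizer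
              (((R : Subgroup G) ⊓ (P : Subgroup G) : Subgroup G) : Set G) := by
            have h3 : (c : G)⁻¹ * ((c : G) * r * (c : G)⁻¹) * (c : G) ∈
                Subgroup.centralizer
                  (((R : Subgroup G) ⊓ (P : Subgroup G) : Subgroup G) : Set G) :=
              Subgroup.mul_mem _ (Subgroup.mul_mem _ (Subgroup.inv_mem _ c.2) (hPC hr)) c.2
            have h4 : (c : G)⁻¹ * ((c : G) * r * (c : G)⁻¹) * (c : G) = r := by group
            rwa [h4] at h3
          have h2 := (h1 ⟨r, hrH⟩).2 (by rw [Subgroup.mem_subgroupOf]; simpa using hr)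
          rw [Subgroup.mem_subgroupOf] at h2
          exact h2
      rw [Subgroup.mem_subgroupOf]
      by_contra hcP
      have h1 := o720b_invert hG h P (hN18 P) (c : G) hcN hcP d (hDP hdD)
      have hcd := (Subgroup.mem_centralizer_iff.1 c.2) d hdD
      apply hdinv
      calc d = (d * (c : G)) * (c : G)⁻¹ := by group
        _ = (c : G) * d * (c : G)⁻¹ := by rw [hcd]
        _ = d⁻¹ := h1
    · exact Subgroup.le_normalizer
  have hn3C : Nat.card (Sylow 3 ↥(Subgroup.centralizer (((R : Subgroup G) ⊓ (P : Subgroup G) : Subgroup G) : Set G))) = (Subgroup.normalizer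
      (((P.subtype hPC : Sylow 3 ↥(Subgroup.centralizer (((R : Subgroup G) ⊓ (P : Subgroup G) : Subgroup G) : Set G))) : Subgroup ↥(Subgroup.centralizer (((R : Subgroup G) ⊓ (P : Subgroup G) : Subgroup G) : Set G))) : Set ↥(Subgroup.centralizer (((R : Subgroup G) ⊓ (P : Subgroup G) : Subgroup G) : Set G)))).index :=
    Sylow.card_eq_index_normalizer (P.subtype hPC)
  rw [hnorm] at hn3C
  have hmod3 := card_sylow_modEq_one 3 (Subgroup.centralizer
      (((R : Subgroup G) ⊓ (P : Subgroup G) : Subgroup G) : Set G))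
  rw [hn3C] at hmod3
  have hidxC := Subgroup.card_mul_index ((P.subtype hPC : Sylow 3 ↥(Subgroup.centralizer (((R : Subgroup G) ⊓ (P : Subgroup G) : Subgroup G) : Set G))) : Subgroup ↥(Subgroup.centralizer (((R : Subgroup G) ⊓ (P : Subgroup G) : Subgroup G) : Set G)))
  rw [hP'card] at hidxC
  have hCdvd : Nat.card (Subgroup.centralizer
      (((R : Subgroup G) ⊓ (P : Subgroup G) : Subgroup G) : Set G)) ∣ 720 :=
    h ▸ Subgroup.card_subgroup_dvd_card _
  have hm1 : ((P.subtype hPC : Sylow 3 ↥(Subgroup.centralizer (((R : Subgroup G) ⊓ (P : Subgroup G) : Subgroup G) : Set G))) : Subgroup ↥(Subgroup.centralizer (((R : Subgroup G) ⊓ (P : Subgroup G) : Subgroup G) : Set G))).index ≠ 1 := by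
    intro h1
    rw [h1, mul_one] at hidxC
    have hPC' : (P : Subgroup G) = Subgroup.centralizer
        (((R : Subgroup G) ⊓ (P : Subgroup G) : Subgroup G) : Set G) :=
      Subgroup.eq_of_le_of_card_ge hPC (by rw [o720b_card9 h P, ← hidxC]; norm_num)
    have hRP : (R : Subgroup G) ≤ (P : Subgroup G) := by rw [hPC']; exact hRC
    exact hPR (Sylow.ext (Subgroup.eq_of_le_of_card_ge hRP
      (by rw [o720b_card9 h P, o720b_card9 h R]))).symm
  have hm16 : ((P.subtype hPC : Sylow 3 ↥(Subgroup.centralizer (((R : Subgroup G) ⊓ (P : Subgroup G) : Subgroup G) : Set G))) : Subgroup ↥(Subgroup.centralizer (((R : Subgroup G) ⊓ (P : Subgroup G) : Subgroup G) : Set G))).index ≠ 16 := by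
    intro h16
    rw [h16] at hidxC
    have h1 := Subgroup.card_mul_index (Subgroup.centralizer
      (((R : Subgroup G) ⊓ (P : Subgroup G) : Subgroup G) : Set G))
    rw [← hidxC, h] at h1
    have hi5 : (Subgroup.centralizer
      (((R : Subgroup G) ⊓ (P : Subgroup G) : Subgroup G) : Set G)).index = 5 := by omega
    have hne : Subgroup.centralizer
        (((R : Subgroup G) ⊓ (P : Subgroup G) : Subgroup G) : Set G) ≠ ⊤ := by
      intro htop
      rw [htop, Subgroup.index_top] at hi5
      omega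
    have h2 := Cfsg.Agent.Helper9.OrdTools.card_dvd_factorial_index _ hne
    rw [hi5, h] at h2
    exact absurd h2 (by decide)
  have hC36 := o720b_arith _ _ hidxC hCdvd h5 hmod3 hm1 hm16
  -- the normalizer `N` of `D`
  rw [hC36] at hND
  have hNidx : (Subgroup.normalizer
      (((R : Subgroup G) ⊓ (P : Subgroup G) : Subgroup G) : Set G)).index = 10 := by
    have h1 := Subgroup.card_mul_index (Subgroup.normalizer
      (((R : Subgroup G) ⊓ (P : Subgroup G) : Subgroup G) : Set G))
    rw [hND, h] at h1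
    omega
  have hNtop : Subgroup.normalizer
      (((R : Subgroup G) ⊓ (P : Subgroup G) : Subgroup G) : Set G) ≠ ⊤ := by
    intro htop
    rw [htop, Subgroup.index_top] at hNidx
    omega
  -- `d` fixes only the trivial coset
  have hfixd : ∀ g : G, g⁻¹ * d * g ∈ Subgroup.normalizer
      (((R : Subgroup G) ⊓ (P : Subgroup G) : Subgroup G) : Set G) →
      g ∈ Subgroup.normalizer (((R : Subgroup G) ⊓ (P : Subgroup G) : Subgroup G) : Set G) := by
    intro g hg
    have hd'3 : (g⁻¹ * d * g) ^ 3 = 1 := by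
      have hddd : d * d * d = 1 := by rw [← pow_two, ← pow_succ]; exact hd3
      have : (g⁻¹ * d * g) ^ 3 = g⁻¹ * (d * d * d) * g := by
        rw [pow_succ, pow_two]; group
      rw [this, hddd]; group
    have hd'1 : g⁻¹ * d * g ≠ 1 := by
      intro h1
      apply hd1
      have : d = g * (g⁻¹ * d * g) * g⁻¹ := by group
      rw [this, h1]; group
    have hord : orderOf (g⁻¹ * d * g) = 3 := orderOf_eq_prime hd'3 hd'1
    have hz3 : IsPGroup 3 (Subgroup.zpowers (g⁻¹ * d * g)) :=
      IsPGroup.of_card (n := 1) (by rw [Nat.card_zpowers, hord, pow_one])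
    have hD3' : IsPGroup 3 ((R : Subgroup G) ⊓ (P : Subgroup G) : Subgroup G) :=
      IsPGroup.of_card (n := 1) (by rw [hD3, pow_one])
    have hsup := hz3.to_sup_of_normal_right' hD3' ((Subgroup.zpowers_le).2 hg)
    obtain ⟨Q, hQ⟩ := hsup.exists_le_sylow
    have hdQ : d ∈ (Q : Subgroup G) := hQ (Subgroup.mem_sup_right hdD)
    have hd'Q : g⁻¹ * d * g ∈ (Q : Subgroup G) :=
      hQ (Subgroup.mem_sup_left (Subgroup.mem_zpowers _))
    haveI : IsMulCommutative (Q : Subgroup G) :=
      ⟨⟨fun a b => Subtype.ext (o720b_comm h Q a a.2 b b.2)⟩⟩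
    obtain ⟨n, hn, hn'⟩ := Q.conj_eq_normalizer_conj_of_mem d g hdQ hd'Q
    have hcase : g⁻¹ * d * g = d ∨ g⁻¹ * d * g = d⁻¹ := by
      by_cases hnQ : n ∈ (Q : Subgroup G)
      · left
        rw [hn']
        have := o720b_comm h Q n hnQ d hdQ
        calc n⁻¹ * d * n = n⁻¹ * (d * n) := by group
          _ = n⁻¹ * (n * d) := by rw [this]
          _ = d := by group
      · right
        have hnQ' : n⁻¹ ∉ (Q : Subgroup G) := fun h' => hnQ (by simpa using Subgroup.inv_mem _ h')
        have := o720b_invert hG h Q (hN18 Q) n⁻¹ (Subgroup.inv_mem _ hn) hnQ' d hdQ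
        rw [inv_inv] at this
        rw [hn']; exact this
    have hginv : g⁻¹ ∈ Subgroup.normalizer
        (((R : Subgroup G) ⊓ (P : Subgroup G) : Subgroup G) : Set G) := by
      apply Subgroup.mem_normalizer_fintype
      intro x hx
      rw [inv_inv]
      rcases hall x hx with rfl | rfl | rfl
      · simp
      · rcases hcase with hc | hc
        · rw [hc]; exact hdD
        · rw [hc]; exact Subgroup.inv_mem _ hdD
      · have : g⁻¹ * d⁻¹ * g = (g⁻¹ * d * g)⁻¹ := by group
        rw [this]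
        rcases hcase with hc | hc
        · rw [hc]; exact Subgroup.inv_mem _ hdD
        · rw [hc, inv_inv]; exact hdD
    simpa using Subgroup.inv_mem _ hginv
  -- an involution of `C`
  haveI : Fact (Nat.Prime 2) := ⟨by norm_num⟩
  obtain ⟨v, hv⟩ := exists_prime_orderOf_dvd_card' (G := ↥(Subgroup.centralizer
      (((R : Subgroup G) ⊓ (P : Subgroup G) : Subgroup G) : Set G))) 2 (by rw [hC36]; norm_num)
  have hv' : orderOf (v : G) = 2 := by rw [Subgroup.orderOf_coe]; exact hv
  have hv2 : (v : G) ^ 2 = 1 := by rw [← hv']; exact pow_orderOf_eq_one _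
  have hv1 : (v : G) ≠ 1 := by
    intro h1
    rw [h1, orderOf_one] at hv'
    omega
  have hvd : (v : G) * d = d * (v : G) := ((Subgroup.mem_centralizer_iff.1 v.2) d hdD).symm
  have hvN : (v : G) ∈ Subgroup.normalizer
      (((R : Subgroup G) ⊓ (P : Subgroup G) : Subgroup G) : Set G) :=
    Subgroup.centralizer_le_normalizer _ v.2
  have hdN : d ∈ Subgroup.normalizer
      (((R : Subgroup G) ⊓ (P : Subgroup G) : Subgroup G) : Set G) :=
    Subgroup.le_normalizer hdD
  exact o720b_final hna _ hNidx d (v : G) hd3 hv2 hv1 hvd hvN hdN hfixd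

end Cfsg.Agent.Helper19
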