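import Mathlib
import Cfsg.Prelude.Def_LieRecognition
import Cfsg.Agent.Helper19.Inverted

set_option autoImplicit false
open scoped Pointwise

namespace Cfsg.Agent.Helper19

section Dihedral

variable {M : Type*} [Group M]

/-- conjugating by an involution inverts the product. -/
theorem invol_conj_mul_left {s u : M} (hs : s * s = 1) (hu : u * u = 1) :
    s * (s * u) * s⁻¹ = (s * u)⁻¹ := by
  rw [inv_eq_self_of_mul_self hs, mul_inv_rev, inv_eq_self_of_mul_self hs,
    inv_eq_self_of_mul_self hu, ← mul_assoc, hs, one_mul]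

theorem invol_conj_mul_right {s u : M} (hs : s * s = 1) (hu : u * u = 1) :
    u * (s * u) * u⁻¹ = (s * u)⁻¹ := by
  rw [inv_eq_self_of_mul_self hu, mul_inv_rev, inv_eq_self_of_mul_self hs,
    inv_eq_self_of_mul_self hu, mul_assoc, mul_assoc, hu, mul_one]

/-- Two involutions whose product has odd order are conjugate by a power of the product. -/
theorem conj_of_odd_order_mul {s u : M} (hs : s * s = 1) (hu : u * u = 1)
    (hodd : Odd (orderOf (s * u))) :
    ∃ g ∈ Subgroup.zpowers (s * u), g * s * g⁻¹ = u := by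
  obtain ⟨n, hn⟩ := hodd
  have hc : (s * u) ^ (2 * n + 1) = 1 := by rw [← hn]; exact pow_orderOf_eq_one _
  refine ⟨(s * u) ^ n, Subgroup.pow_mem _ (Subgroup.mem_zpowers _) _, ?_⟩
  have h1 : s * (s * u) ^ n * s⁻¹ = ((s * u) ^ n)⁻¹ := by
    rw [← conj_pow, invol_conj_mul_left hs hu, inv_pow]
  have h2 : s * ((s * u) ^ n)⁻¹ * s⁻¹ = (s * u) ^ n := by
    have := congrArg (·⁻¹) h1
    simpa [mul_assoc] using this
  have h3 : (s * u) ^ n * (s * u) ^ n = (s * u)⁻¹ := by
    rw [← pow_add]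
    apply eq_inv_of_mul_eq_one_left
    rw [← pow_succ]
    have : n + n + 1 = 2 * n + 1 := by ring
    rw [this, hc]
  have hsi : s⁻¹ = s := inv_eq_self_of_mul_self hs
  calc (s * u) ^ n * s * ((s * u) ^ n)⁻¹
      = (s * u) ^ n * (s * ((s * u) ^ n)⁻¹ * s⁻¹) * s := by group
    _ = (s * u) ^ n * (s * u) ^ n * s := by rw [h2]
    _ = (s * u)⁻¹ * s := by rw [h3]
    _ = u := by
      rw [mul_inv_rev, hsi, inv_eq_self_of_mul_self hu, mul_assoc, hs, mul_one]

/-- If the product of two involutions has even order, some involution commutes with both. -/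
theorem exists_central_invol_of_even [Finite M] {s u : M} (hs : s * s = 1) (hu : u * u = 1)
    (heven : Even (orderOf (s * u))) :
    ∃ w : M, w ≠ 1 ∧ w * w = 1 ∧ w * s = s * w ∧ w * u = u * w := by
  obtain ⟨m, hm⟩ := heven
  have hpos : 0 < orderOf (s * u) := orderOf_pos _
  have hm0 : m ≠ 0 := by omega
  have hw1 : (s * u) ^ m ≠ 1 := pow_ne_one_of_lt_orderOf hm0 (by omega)
  have hw2 : (s * u) ^ m * (s * u) ^ m = 1 := by
    rw [← pow_add, ← hm]; exact pow_orderOf_eq_one _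
  have hwi : ((s * u) ^ m)⁻¹ = (s * u) ^ m := inv_eq_self_of_mul_self hw2
  refine ⟨(s * u) ^ m, hw1, hw2, ?_, ?_⟩
  · have h1 : s * (s * u) ^ m * s⁻¹ = (s * u) ^ m := by
      rw [← conj_pow, invol_conj_mul_left hs hu, inv_pow, hwi]
    calc (s * u) ^ m * s = (s * (s * u) ^ m * s⁻¹) * s := by rw [h1]
      _ = s * (s * u) ^ m := by group
  · have h1 : u * (s * u) ^ m * u⁻¹ = (s * u) ^ m := by
      rw [← conj_pow, invol_conj_mul_right hs hu, inv_pow, hwi]
    calc (s * u) ^ m * u = (u * (s * u) ^ m * u⁻¹) * u := by rw [h1]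
      _ = u * (s * u) ^ m := by group

/-- For involutions `s`, `s'` with product of odd order there is an involution `w` swapping them,
and it is the only such involution `u` for which `u * w` lies in a subgroup of odd order. -/
theorem exists_swap [Finite M] {s s' : M} (hs : s * s = 1) (hs' : s' * s' = 1)
    (hodd : Odd (orderOf (s * s'))) :
    ∃ w : M, w * w = 1 ∧ w * s * w = s' ∧ w ∈ Subgroup.closure {s, s'} ∧
      ∀ u : M, u * u = 1 → u * s * u = s' →
        (∃ X : Subgroup M, Odd (Nat.card X) ∧ u * w ∈ X) → u = w := by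
  obtain ⟨g, hg, hgs⟩ := conj_of_odd_order_mul hs hs' hodd
  have hsi : s⁻¹ = s := inv_eq_self_of_mul_self hs
  have hs'i : s'⁻¹ = s' := inv_eq_self_of_mul_self hs'
  have hginv : s * g * s⁻¹ = g⁻¹ := inverted_of_mem_zpowers (invol_conj_mul_left hs hs') hg
  have hww : (g * s) * (g * s) = 1 := by
    calc (g * s) * (g * s) = g * (s * g * s⁻¹) * (s * s) := by group
      _ = 1 := by rw [hginv, hs]; group
  have hgs2 : g * s = s * g⁻¹ := by
    calc g * s = (s * g * s⁻¹)⁻¹ * s := by rw [hginv]; group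
      _ = s * g⁻¹ := by group
  have hwsw : (g * s) * s * (g * s) = s' := by
    calc (g * s) * s * (g * s) = g * (s * s) * (g * s) := by group
      _ = g * (g * s) := by rw [hs, mul_one]
      _ = g * (s * g⁻¹) := by rw [hgs2]
      _ = g * s * g⁻¹ := by group
      _ = s' := hgs
  have hsmem : s ∈ Subgroup.closure ({s, s'} : Set M) :=
    Subgroup.subset_closure (by simp)
  have hs'mem : s' ∈ Subgroup.closure ({s, s'} : Set M) :=
    Subgroup.subset_closure (by simp)
  have hgmem : g ∈ Subgroup.closure ({s, s'} : Set M) :=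
    (Subgroup.zpowers_le.mpr (Subgroup.mul_mem _ hsmem hs'mem)) hg
  refine ⟨g * s, hww, hwsw, Subgroup.mul_mem _ hgmem hsmem, ?_⟩
  intro u hu hus ⟨X, hX, he⟩
  have hwi : (g * s)⁻¹ = g * s := inv_eq_self_of_mul_self hww
  have hui : u⁻¹ = u := inv_eq_self_of_mul_self hu
  -- `w * s' * w = s` and `u * s' * u = s`
  have hws' : (g * s) * s' * (g * s) = s := by
    rw [← hwsw]
    calc g * s * (g * s * s * (g * s)) * (g * s)
        = ((g * s) * (g * s)) * s * ((g * s) * (g * s)) := by group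
      _ = s := by rw [hww]; group
  have hus' : u * s' * u = s := by
    rw [← hus]
    calc u * (u * s * u) * u = (u * u) * s * (u * u) := by group
      _ = s := by rw [hu]; group
  -- `e = u * w` commutes with `s` and `s'`
  have hes : (u * (g * s)) * s = s * (u * (g * s)) := by
    calc (u * (g * s)) * s = u * ((g * s) * s * (g * s)) * (g * s)⁻¹ := by group
      _ = u * s' * (g * s) := by rw [hwsw, hwi]
      _ = (u * s' * u) * u⁻¹ * (g * s) := by group
      _ = s * (u * (g * s)) := by rw [hus', hui]; group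
  have hes' : (u * (g * s)) * s' = s' * (u * (g * s)) := by
    calc (u * (g * s)) * s' = u * ((g * s) * s' * (g * s)) * (g * s)⁻¹ := by group
      _ = u * s * (g * s) := by rw [hws', hwi]
      _ = (u * s * u) * u⁻¹ * (g * s) := by group
      _ = s' * (u * (g * s)) := by rw [hus, hui]; group
  have hecent : u * (g * s) ∈ Subgroup.centralizer ({s, s'} : Set M) := by
    rw [Subgroup.mem_centralizer_iff]
    intro h hh
    rcases hh with rfl | rfl
    · exact hes.symm
    · exact hes'.symm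
  have hcl : Subgroup.closure ({s, s'} : Set M) ≤
      Subgroup.centralizer ((Subgroup.centralizer ({s, s'} : Set M) : Subgroup M) : Set M) := by
    rw [Subgroup.closure_le]
    intro x hx
    rw [SetLike.mem_coe, Subgroup.mem_centralizer_iff]
    intro h hh
    exact ((Subgroup.mem_centralizer_iff.mp hh) x hx).symm
  have hew : (g * s) * (u * (g * s)) = (u * (g * s)) * (g * s) :=
    (Subgroup.mem_centralizer_iff.mp (hcl (Subgroup.mul_mem _ hgmem hsmem))) _ hecent |>.symm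
  have hee : (u * (g * s)) * (u * (g * s)) = 1 := by
    calc (u * (g * s)) * (u * (g * s)) = u * ((g * s) * (u * (g * s))) := by group
      _ = u * ((u * (g * s)) * (g * s)) := by rw [hew]
      _ = (u * u) * ((g * s) * (g * s)) := by group
      _ = 1 := by rw [hu, hww, one_mul]
  have he1 : u * (g * s) = 1 := eq_one_of_sq_of_odd X hX he hee
  calc u = (u * (g * s)) * (g * s)⁻¹ := by group
    _ = g * s := by rw [he1, hwi, one_mul]

end Dihedral


section Setup

variable {G Ω : Type*} [Group G] [MulAction G Ω] {a : Ω} {t : G} {Q : Subgroup G}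

theorem ro_t_inv (hS : Cfsg.IsRankOneSetup G Ω a t Q) : t⁻¹ = t :=
  inv_eq_self_of_mul_self hS.mul_self

theorem ro_tta (hS : Cfsg.IsRankOneSetup G Ω a t Q) : t • t • a = a := by
  rw [smul_smul, hS.mul_self, one_smul]

theorem ro_b_ne (hS : Cfsg.IsRankOneSetup G Ω a t Q) : t • a ≠ a :=
  fun h => hS.not_mem (MulAction.mem_stabilizer_iff.mpr h)

theorem ro_mem_D {g : G} :
    g ∈ MulAction.stabilizer G a ⊓ MulAction.stabilizer G (t • a) ↔ g • a = a ∧ g • t • a = t • a := by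
  rw [Subgroup.mem_inf, MulAction.mem_stabilizer_iff, MulAction.mem_stabilizer_iff]

theorem ro_stab_le_normalizer (hS : Cfsg.IsRankOneSetup G Ω a t Q) :
    MulAction.stabilizer G a ≤ Subgroup.normalizer (Q : Set G) := by
  intro g hg
  rw [Subgroup.mem_set_normalizer_iff]
  intro h
  constructor
  · exact hS.conj_mem g hg h
  · intro hh
    have := hS.conj_mem g⁻¹ (inv_mem hg) _ hh
    simpa [mul_assoc] using this

/-- Every element of `G_a` is `q * d` with `q ∈ Q` and `d ∈ D`. -/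
theorem ro_exists_mul (hS : Cfsg.IsRankOneSetup G Ω a t Q) {g : G}
    (hg : g ∈ MulAction.stabilizer G a) :
    ∃ q ∈ Q, ∃ d ∈ MulAction.stabilizer G a ⊓ MulAction.stabilizer G (t • a), g = q * d := by
  have h1 : ((Q ⊔ (MulAction.stabilizer G a ⊓ MulAction.stabilizer G (t • a)) : Subgroup G) : Set G)
      = (Q : Set G) * ((MulAction.stabilizer G a ⊓ MulAction.stabilizer G (t • a) : Subgroup G) : Set G) :=
    Subgroup.coe_mul_of_right_le_normalizer_left Q _ (le_trans inf_le_left (ro_stab_le_normalizer hS))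
  rw [← hS.sup_eq] at hg
  have hg' : g ∈ ((Q ⊔ (MulAction.stabilizer G a ⊓ MulAction.stabilizer G (t • a)) : Subgroup G) : Set G) := hg
  rw [h1] at hg'
  obtain ⟨q, hq, d, hd, rfl⟩ := Set.mem_mul.mp hg'
  exact ⟨q, hq, d, hd, rfl⟩

/-- `Q` is transitive on the points other than `a`. -/
theorem ro_Q_trans (hS : Cfsg.IsRankOneSetup G Ω a t Q) {c : Ω} (hc : c ≠ a) :
    ∃ q ∈ Q, q • t • a = c := by
  obtain ⟨g, hga, hgb⟩ := (MulAction.is_two_pretransitive_iff.mp hS.two_transitive)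
    (ro_b_ne hS).symm hc.symm
  obtain ⟨q, hq, d, hd, rfl⟩ := ro_exists_mul hS (MulAction.mem_stabilizer_iff.mpr hga)
  refine ⟨q, hq, ?_⟩
  rw [mul_smul, (ro_mem_D.mp hd).2] at hgb
  exact hgb

/-- A non-identity element of `Q` fixes no point other than `a`. -/
theorem ro_Q_free (hS : Cfsg.IsRankOneSetup G Ω a t Q) {q : G} (hq : q ∈ Q) {c : Ω} (hc : c ≠ a)
    (h : q • c = c) : q = 1 := by
  obtain ⟨x, hx, rfl⟩ := ro_Q_trans hS hc
  have h1 : x⁻¹ * q * x ∈ Q ⊓ MulAction.stabilizer G (t • a) := by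
    refine ⟨Q.mul_mem (Q.mul_mem (Q.inv_mem hx) hq) hx, MulAction.mem_stabilizer_iff.mpr ?_⟩
    rw [mul_smul, mul_smul, h, inv_smul_smul]
  rw [hS.inf_eq_bot, Subgroup.mem_bot] at h1
  calc q = x * (x⁻¹ * q * x) * x⁻¹ := by group
    _ = 1 := by rw [h1]; group

theorem ro_Q_fix (hS : Cfsg.IsRankOneSetup G Ω a t Q) {q : G} (hq : q ∈ Q) (hq1 : q ≠ 1) {c : Ω}
    (h : q • c = c) : c = a := by
  by_contra hc
  exact hq1 (ro_Q_free hS hq hc h)

theorem ro_Q_smul_a (hS : Cfsg.IsRankOneSetup G Ω a t Q) {q : G} (hq : q ∈ Q) : q • a = a :=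
  MulAction.mem_stabilizer_iff.mp (hS.le hq)

theorem ro_Q_smul_ne (hS : Cfsg.IsRankOneSetup G Ω a t Q) {q : G} (hq : q ∈ Q) {c : Ω} (hc : c ≠ a) :
    q • c ≠ a := by
  intro h
  apply hc
  have := congrArg (fun z => q⁻¹ • z) h
  simp only [inv_smul_smul] at this
  rw [this, inv_smul_eq_iff, ro_Q_smul_a hS hq]

/-- `Q` is regular on the points other than `a`. -/
theorem ro_Q_regular (hS : Cfsg.IsRankOneSetup G Ω a t Q) {c c' : Ω} (hc : c ≠ a) (hc' : c' ≠ a) :
    ∃! x : Q, (x : G) • c = c' := by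
  obtain ⟨q₁, hq₁, h1⟩ := ro_Q_trans hS hc
  obtain ⟨q₂, hq₂, h2⟩ := ro_Q_trans hS hc'
  refine ⟨⟨q₂ * q₁⁻¹, Q.mul_mem hq₂ (Q.inv_mem hq₁)⟩, ?_, ?_⟩
  · show (q₂ * q₁⁻¹) • c = c'
    rw [← h1, mul_smul, inv_smul_smul, h2]
  · rintro ⟨y, hy⟩ hyc
    have hyc' : y • c = c' := hyc
    apply Subtype.ext
    show y = q₂ * q₁⁻¹
    have h3 : ((q₂ * q₁⁻¹)⁻¹ * y) • c = c := by
      rw [mul_smul, hyc', ← h2, inv_smul_eq_iff, mul_smul, ← h1, inv_smul_smul]
    have h4 := ro_Q_free hS (Q.mul_mem (Q.inv_mem (Q.mul_mem hq₂ (Q.inv_mem hq₁))) hy) hc h3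
    calc y = (q₂ * q₁⁻¹) * ((q₂ * q₁⁻¹)⁻¹ * y) := by group
      _ = q₂ * q₁⁻¹ := by rw [h4, mul_one]

/-- `Q` contains an involution. -/
theorem ro_exists_invol (hS : Cfsg.IsRankOneSetup G Ω a t Q) [Finite G] :
    ∃ s ∈ Q, s ≠ 1 ∧ s * s = 1 := by
  have h2 : 2 ∣ Nat.card Q := hS.even_card.two_dvd
  obtain ⟨x, hx⟩ := exists_prime_orderOf_dvd_card' (G := Q) 2 h2
  refine ⟨x, x.2, ?_, ?_⟩
  · intro h
    have : x = 1 := Subtype.ext h
    rw [this, orderOf_one] at hx
    exact absurd hx (by norm_num)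
  · have := pow_orderOf_eq_one x
    rw [hx, pow_two] at this
    exact congrArg Subtype.val this

/-- Involutions of `G_a` lie in `Q`. -/
theorem ro_invol_mem_Q (hS : Cfsg.IsRankOneSetup G Ω a t Q) [Finite G] {s : G}
    (hs : s ∈ MulAction.stabilizer G a) (h2 : s * s = 1) : s ∈ Q := by
  obtain ⟨q, hq, d, hd, rfl⟩ := ro_exists_mul hS hs
  have hdQ : d * q * d⁻¹ ∈ Q := hS.conj_mem d hd.1 q hq
  have h3 : d * d = (q * (d * q * d⁻¹))⁻¹ := by
    apply eq_inv_of_mul_eq_one_right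
    calc q * (d * q * d⁻¹) * (d * d) = (q * d) * (q * d) := by group
      _ = 1 := h2
  have h4 : d * d ∈ Q ⊓ MulAction.stabilizer G (t • a) := by
    refine ⟨?_, Subgroup.mul_mem _ hd.2 hd.2⟩
    rw [h3]
    exact Q.inv_mem (Q.mul_mem hq hdQ)
  rw [hS.inf_eq_bot, Subgroup.mem_bot] at h4
  have hd1 : d = 1 := eq_one_of_sq_of_odd _ hS.odd_card hd h4
  rw [hd1, mul_one]
  exact hq

/-- `Ω` is in bijection with `Option Q`. -/
theorem ro_bij (hS : Cfsg.IsRankOneSetup G Ω a t Q) :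
    Function.Bijective (fun o : Option Q => match o with
      | none => a
      | some q => (q : G) • t • a) := by
  constructor
  · rintro (_ | ⟨q, hq⟩) (_ | ⟨q', hq'⟩) h
    · rfl
    · exact absurd h.symm (ro_Q_smul_ne hS hq' (ro_b_ne hS))
    · exact absurd h (ro_Q_smul_ne hS hq (ro_b_ne hS))
    · have h' : q • t • a = q' • t • a := h
      have h3 : (q'⁻¹ * q) • t • a = t • a := by
        rw [mul_smul, h', inv_smul_smul]
      have h4 := ro_Q_free hS (Q.mul_mem (Q.inv_mem hq') hq) (ro_b_ne hS) h3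
      have : q = q' := by
        calc q = q' * (q'⁻¹ * q) := by group
          _ = q' := by rw [h4, mul_one]
      subst this
      rfl
  · intro c
    by_cases hc : c = a
    · exact ⟨none, hc.symm⟩
    · obtain ⟨q, hq, h⟩ := ro_Q_trans hS hc
      exact ⟨some ⟨q, hq⟩, h⟩

theorem ro_finite (hS : Cfsg.IsRankOneSetup G Ω a t Q) [Finite G] : Finite Ω :=
  Finite.of_surjective _ (ro_bij hS).2

theorem ro_card (hS : Cfsg.IsRankOneSetup G Ω a t Q) [Finite G] : Nat.card Ω = Nat.card Q + 1 := by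
  rw [← Nat.card_congr (Equiv.ofBijective _ (ro_bij hS)), Finite.card_option]

/-- Every involution fixes a point. -/
theorem ro_exists_fixed (hS : Cfsg.IsRankOneSetup G Ω a t Q) [Finite G] {u : G} (hu : u * u = 1) :
    ∃ c : Ω, u • c = c := by
  classical
  have := ro_finite hS
  have := Fintype.ofFinite Ω
  have hcard : ¬ 2 ∣ Fintype.card Ω := by
    rw [← Nat.card_eq_fintype_card, ro_card hS]
    obtain ⟨k, hk⟩ := hS.even_card
    omega
  have hσ : (MulAction.toPermHom G Ω u) ^ 2 ^ 1 = 1 := by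
    rw [pow_one, ← map_pow, pow_two, hu, map_one]
  obtain ⟨c, hc⟩ := Equiv.Perm.exists_fixed_point_of_prime (p := 2) (n := 1) hcard hσ
  exact ⟨c, hc⟩

/-- The set-up transported by conjugation. -/
theorem ro_conj (hS : Cfsg.IsRankOneSetup G Ω a t Q) (g : G) :
    Cfsg.IsRankOneSetup G Ω (g • a) (g * t * g⁻¹) (Q.map (MulAut.conj g).toMonoidHom) := by
  have hta : (g * t * g⁻¹) • g • a = g • t • a := by
    rw [mul_smul, inv_smul_smul, mul_smul]
  have hinj : Function.Injective (MulAut.conj g).toMonoidHom := (MulAut.conj g).injective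
  refine ⟨hS.two_transitive, ?_, ?_, ?_, ?_, ?_, ?_, ?_, ?_, ?_⟩
  · calc g * t * g⁻¹ * (g * t * g⁻¹) = g * (t * t) * g⁻¹ := by group
      _ = 1 := by rw [hS.mul_self]; group
  · intro h
    apply hS.ne_one
    calc t = g⁻¹ * (g * t * g⁻¹) * g := by group
      _ = 1 := by rw [h]; group
  · intro h
    rw [MulAction.mem_stabilizer_iff, hta] at h
    exact ro_b_ne hS (smul_left_cancel g h)
  · rw [MulAction.stabilizer_smul_eq_stabilizer_map_conj]
    exact Subgroup.map_mono hS.le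
  · intro h hh x hx
    rw [MulAction.stabilizer_smul_eq_stabilizer_map_conj] at hh
    obtain ⟨h₀, hh₀, rfl⟩ := hh
    obtain ⟨x₀, hx₀, rfl⟩ := hx
    refine ⟨h₀ * x₀ * h₀⁻¹, hS.conj_mem h₀ hh₀ x₀ hx₀, ?_⟩
    simp only [MulEquiv.toMonoidHom_eq_coe, MonoidHom.coe_coe, MulAut.conj_apply]
    group
  · rw [hta, MulAction.stabilizer_smul_eq_stabilizer_map_conj, ← Subgroup.map_inf _ _ _ hinj,
      hS.inf_eq_bot, Subgroup.map_bot]
  · rw [hta, MulAction.stabilizer_smul_eq_stabilizer_map_conj,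
      MulAction.stabilizer_smul_eq_stabilizer_map_conj, ← Subgroup.map_inf _ _ _ hinj,
      ← Subgroup.map_sup, hS.sup_eq]
  · rw [Subgroup.card_map_of_injective hinj]
    exact hS.even_card
  · rw [hta, MulAction.stabilizer_smul_eq_stabilizer_map_conj,
      MulAction.stabilizer_smul_eq_stabilizer_map_conj, ← Subgroup.map_inf _ _ _ hinj,
      Subgroup.card_map_of_injective hinj]
    exact hS.odd_card

theorem ro_exists_smul_eq (hS : Cfsg.IsRankOneSetup G Ω a t Q) (c c' : Ω) : ∃ g : G, g • c = c' := by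
  have := hS.two_transitive
  have : MulAction.IsPretransitive G Ω := MulAction.isPretransitive_of_is_two_pretransitive
  exact MulAction.exists_smul_eq G c c'

/-- A non-identity involution fixes at most one point. -/
theorem ro_invol_fix_unique (hS : Cfsg.IsRankOneSetup G Ω a t Q) [Finite G] {u : G} (hu1 : u ≠ 1)
    (hu : u * u = 1) {c c' : Ω} (h : u • c = c) (h' : u • c' = c') : c' = c := by
  obtain ⟨g, rfl⟩ := ro_exists_smul_eq hS a c
  have hS' := ro_conj hS g
  have huQ := ro_invol_mem_Q hS' (MulAction.mem_stabilizer_iff.mpr h) hu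
  exact ro_Q_fix hS' huQ hu1 h'

/-- An involution of `G_a` times an involution outside `G_a` has odd order. -/
theorem ro_odd_order (hS : Cfsg.IsRankOneSetup G Ω a t Q) [Finite G] {s u : G}
    (hs : s ∈ MulAction.stabilizer G a) (hs1 : s ≠ 1) (hs2 : s * s = 1)
    (hu : u ∉ MulAction.stabilizer G a) (hu2 : u * u = 1) : Odd (orderOf (s * u)) := by
  by_contra hodd
  rw [Nat.not_odd_iff_even] at hodd
  obtain ⟨w, hw1, hw2, hws, hwu⟩ := exists_central_invol_of_even hs2 hu2 hodd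
  have hsa : s • a = a := MulAction.mem_stabilizer_iff.mp hs
  have hwa : w • a = a := by
    apply ro_invol_fix_unique hS hs1 hs2 hsa
    rw [← mul_smul, ← hws, mul_smul, hsa]
  apply hu
  rw [MulAction.mem_stabilizer_iff]
  apply ro_invol_fix_unique hS hw1 hw2 hwa
  rw [← mul_smul, hwu, mul_smul, hwa]

/-- An involution of `G_a` is conjugate to any involution outside `G_a`. -/
theorem ro_conj_of_mem_of_not_mem (hS : Cfsg.IsRankOneSetup G Ω a t Q) [Finite G] {s u : G}
    (hs : s ∈ MulAction.stabilizer G a) (hs1 : s ≠ 1) (hs2 : s * s = 1)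
    (hu : u ∉ MulAction.stabilizer G a) (hu2 : u * u = 1) : ∃ g : G, g * s * g⁻¹ = u := by
  obtain ⟨g, -, hg⟩ := conj_of_odd_order_mul hs2 hu2 (ro_odd_order hS hs hs1 hs2 hu hu2)
  exact ⟨g, hg⟩

/-- Every involution is conjugate to `t`. -/
theorem ro_conj_t (hS : Cfsg.IsRankOneSetup G Ω a t Q) [Finite G] {u : G} (hu1 : u ≠ 1)
    (hu : u * u = 1) : ∃ g : G, g * u * g⁻¹ = t := by
  obtain ⟨c, hc⟩ := ro_exists_fixed hS hu
  obtain ⟨g, hg⟩ := ro_exists_smul_eq hS c a
  have h1 : g * u * g⁻¹ ∈ MulAction.stabilizer G a := by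
    rw [MulAction.mem_stabilizer_iff, mul_smul, mul_smul, ← hg, inv_smul_smul, hc]
  have h2 : g * u * g⁻¹ ≠ 1 := by
    intro h
    apply hu1
    calc u = g⁻¹ * (g * u * g⁻¹) * g := by group
      _ = 1 := by rw [h]; group
  have h3 : (g * u * g⁻¹) * (g * u * g⁻¹) = 1 := by
    calc (g * u * g⁻¹) * (g * u * g⁻¹) = g * (u * u) * g⁻¹ := by group
      _ = 1 := by rw [hu]; group
  obtain ⟨k, hk⟩ := ro_conj_of_mem_of_not_mem hS h1 h2 h3 hS.not_mem hS.mul_self
  refine ⟨k * g, ?_⟩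
  rw [← hk]; group

/-- All involutions are conjugate. -/
theorem ro_invol_conj (hS : Cfsg.IsRankOneSetup G Ω a t Q) [Finite G] {u v : G} (hu1 : u ≠ 1)
    (hu : u * u = 1) (hv1 : v ≠ 1) (hv : v * v = 1) : ∃ g : G, g * u * g⁻¹ = v := by
  obtain ⟨g, hg⟩ := ro_conj_t hS hu1 hu
  obtain ⟨k, hk⟩ := ro_conj_t hS hv1 hv
  refine ⟨k⁻¹ * g, ?_⟩
  calc k⁻¹ * g * u * (k⁻¹ * g)⁻¹ = k⁻¹ * (g * u * g⁻¹) * k := by group
    _ = v := by rw [hg, ← hk]; group

/-- `|G_a| = |Q| |D|`. -/
theorem ro_card_stab (hS : Cfsg.IsRankOneSetup G Ω a t Q) :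
    Nat.card (MulAction.stabilizer G a) =
      Nat.card Q * Nat.card ↥(MulAction.stabilizer G a ⊓ MulAction.stabilizer G (t • a)) := by
  let f : Q × ↥(MulAction.stabilizer G a ⊓ MulAction.stabilizer G (t • a)) → MulAction.stabilizer G a :=
    fun p => ⟨(p.1 : G) * (p.2 : G), Subgroup.mul_mem _ (hS.le p.1.2) p.2.2.1⟩
  have hf : Function.Bijective f := by
    constructor
    · rintro ⟨⟨q, hq⟩, ⟨d, hd⟩⟩ ⟨⟨q', hq'⟩, ⟨d', hd'⟩⟩ h
      have h' : q * d = q' * d' := congrArg Subtype.val h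
      have h1 : q'⁻¹ * q = d' * d⁻¹ := by
        calc q'⁻¹ * q = q'⁻¹ * (q * d) * d⁻¹ := by group
          _ = d' * d⁻¹ := by rw [h']; group
      have h2 : q'⁻¹ * q ∈ Q ⊓ MulAction.stabilizer G (t • a) := by
        refine ⟨Q.mul_mem (Q.inv_mem hq') hq, ?_⟩
        rw [h1]
        exact Subgroup.mul_mem _ hd'.2 (Subgroup.inv_mem _ hd.2)
      rw [hS.inf_eq_bot, Subgroup.mem_bot] at h2
      have hqq : q = q' := by
        calc q = q' * (q'⁻¹ * q) := by group
          _ = q' := by rw [h2, mul_one]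
      subst hqq
      have hdd : d = d' := mul_left_cancel h'
      subst hdd
      rfl
    · rintro ⟨g, hg⟩
      obtain ⟨q, hq, d, hd, rfl⟩ := ro_exists_mul hS hg
      exact ⟨(⟨q, hq⟩, ⟨d, hd⟩), rfl⟩
  rw [← Nat.card_prod]
  exact (Nat.card_congr (Equiv.ofBijective f hf)).symm

/-- `|G| = |Q| |D| (|Q| + 1)`. -/
theorem ro_card_G (hS : Cfsg.IsRankOneSetup G Ω a t Q) [Finite G] :
    Nat.card G = Nat.card Q *
      Nat.card ↥(MulAction.stabilizer G a ⊓ MulAction.stabilizer G (t • a)) * (Nat.card Q + 1) := by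
  have := hS.two_transitive
  have : MulAction.IsPretransitive G Ω := MulAction.isPretransitive_of_is_two_pretransitive
  rw [← ro_card_stab hS, ← ro_card hS, ← MulAction.index_stabilizer_of_transitive G a,
    Subgroup.card_mul_index]

/-- Some Sylow 2-subgroup of `G` lies in `Q`. -/
theorem ro_sylow (hS : Cfsg.IsRankOneSetup G Ω a t Q) [Finite G] :
    ∃ P : Sylow 2 G, (P : Subgroup G) ≤ Q := by
  obtain ⟨P₀⟩ : Nonempty (Sylow 2 Q) := inferInstance
  have hcard : Nat.card ((P₀ : Subgroup Q).map Q.subtype) = 2 ^ (Nat.card G).factorization 2 := by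
    rw [Subgroup.card_map_of_injective Q.subtype_injective, P₀.card_eq_multiplicity, ro_card_G hS]
    congr 1
    have hQ0 : Nat.card Q ≠ 0 := Nat.card_pos.ne'
    have hD0 : Nat.card ↥(MulAction.stabilizer G a ⊓ MulAction.stabilizer G (t • a)) ≠ 0 :=
      Nat.card_pos.ne'
    rw [Nat.factorization_mul (Nat.mul_ne_zero hQ0 hD0) (Nat.succ_ne_zero _),
      Nat.factorization_mul hQ0 hD0]
    have h1 : (Nat.card ↥(MulAction.stabilizer G a ⊓ MulAction.stabilizer G (t • a))).factorization 2 = 0 := by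
      apply Nat.factorization_eq_zero_of_not_dvd
      obtain ⟨k, hk⟩ := hS.odd_card
      omega
    have h2 : (Nat.card Q + 1).factorization 2 = 0 := by
      apply Nat.factorization_eq_zero_of_not_dvd
      obtain ⟨k, hk⟩ := hS.even_card
      omega
    rw [Finsupp.add_apply, Finsupp.add_apply, h1, h2, add_zero, add_zero]
  refine ⟨Sylow.ofCard _ hcard, ?_⟩
  rw [Sylow.coe_ofCard]
  exact Subgroup.map_subtype_le _

/-- Canonical form: every `g ∉ G_a` is uniquely `x t y` with `x ∈ G_a`, `y ∈ Q`. -/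
theorem ro_canonical (hS : Cfsg.IsRankOneSetup G Ω a t Q) {g : G}
    (hg : g ∉ MulAction.stabilizer G a) :
    ∃! p : G × G, p.1 ∈ MulAction.stabilizer G a ∧ p.2 ∈ Q ∧ g = p.1 * t * p.2 := by
  have hga : g⁻¹ • a ≠ a := by
    intro h
    apply hg
    rw [MulAction.mem_stabilizer_iff]
    rw [inv_smul_eq_iff] at h
    exact h.symm
  obtain ⟨⟨y', hy'Q⟩, hy', huniq⟩ := ro_Q_regular hS (ro_b_ne hS) hga
  have hy'' : y' • t • a = g⁻¹ • a := hy'
  refine ⟨(g * y' * t, y'⁻¹), ⟨?_, Q.inv_mem hy'Q, ?_⟩, ?_⟩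
  · rw [MulAction.mem_stabilizer_iff, mul_smul, mul_smul, hy'', smul_inv_smul]
  · show g = g * y' * t * t * y'⁻¹
    calc g = g * y' * (t * t) * y'⁻¹ := by rw [hS.mul_self]; group
      _ = g * y' * t * t * y'⁻¹ := by group
  · rintro ⟨x₁, y₁⟩ ⟨hx₁, hy₁, hgxy⟩
    have hx₁a : x₁ • a = a := MulAction.mem_stabilizer_iff.mp hx₁
    have hx₁a' : x₁⁻¹ • a = a := by rw [inv_smul_eq_iff, hx₁a]
    have h1 : y₁⁻¹ • t • a = g⁻¹ • a := by
      have hgi : g⁻¹ = y₁⁻¹ * t * x₁⁻¹ := by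
        rw [hgxy, mul_inv_rev, mul_inv_rev, ro_t_inv hS, mul_assoc]
      rw [hgi, mul_smul, mul_smul, hx₁a']
    have h2 := huniq ⟨y₁⁻¹, Q.inv_mem hy₁⟩ h1
    have h3 : y₁⁻¹ = y' := congrArg Subtype.val h2
    have h4 : y₁ = y'⁻¹ := by rw [← h3, inv_inv]
    have h5 : x₁ = g * y' * t := by
      rw [hgxy, h4]
      calc x₁ = x₁ * (t * t) := by rw [hS.mul_self, mul_one]
        _ = x₁ * t * y'⁻¹ * y' * t := by group
    exact Prod.ext h5 h4

end Setup

end Cfsg.Agent.Helper19
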