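import Mathlib
import Cfsg.Prelude.Def_LieRecognition
import Cfsg.Agent.Helper19.RankOne

set_option autoImplicit false
open scoped Pointwise

namespace Cfsg.Agent.Helper19

section SetupK

variable {G Ω : Type*} [Group G] [MulAction G Ω] {a : Ω} {t : G} {Q : Subgroup G}

theorem conj_ne_one {M : Type*} [Group M] {g u : M} (hu : u ≠ 1) : g * u * g⁻¹ ≠ 1 := by
  intro h
  apply hu
  calc u = g⁻¹ * (g * u * g⁻¹) * g := by group
    _ = 1 := by rw [h]; group

theorem conj_mul_self {M : Type*} [Group M] {g u : M} (hu : u * u = 1) :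
    (g * u * g⁻¹) * (g * u * g⁻¹) = 1 := by
  calc (g * u * g⁻¹) * (g * u * g⁻¹) = g * (u * u) * g⁻¹ := by group
    _ = 1 := by rw [hu]; group

/-- The fixed point of `t` is neither `a` nor `t • a`. -/
theorem ro_t_fixed (hS : Cfsg.IsRankOneSetup G Ω a t Q) [Finite G] :
    ∃ c : Ω, t • c = c ∧ c ≠ a ∧ c ≠ t • a := by
  obtain ⟨c, hc⟩ := ro_exists_fixed hS hS.mul_self
  refine ⟨c, hc, ?_, ?_⟩
  · rintro rfl
    exact ro_b_ne hS hc
  · rintro rfl
    rw [ro_tta hS] at hc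
    exact ro_b_ne hS hc.symm

/-- The structure equation: a unique pair `(s, r)`. -/
theorem ro_structure_eq (hS : Cfsg.IsRankOneSetup G Ω a t Q) [Finite G] :
    ∃! p : G × G, p.1 ∈ Cfsg.involutionsIn (MulAction.stabilizer G a : Set G) ∧ p.2 ∈ Q ∧
      t * p.1 * t = p.2⁻¹ * t * p.2 := by
  obtain ⟨c, hc, hca, hcb⟩ := ro_t_fixed hS
  obtain ⟨⟨r, hrQ⟩, hr, huniq⟩ := ro_Q_regular hS (ro_b_ne hS) hca
  have hr' : r • t • a = c := hr
  have hri : r⁻¹ • c = t • a := by rw [inv_smul_eq_iff, hr']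
  have hti := ro_t_inv hS
  have hs_eq : t * r⁻¹ * t * r * t = (t * r⁻¹) * t * (t * r⁻¹)⁻¹ := by
    rw [mul_inv_rev, inv_inv, hti]; group
  refine ⟨(t * r⁻¹ * t * r * t, r), ⟨⟨?_, ?_, ?_⟩, hrQ, ?_⟩, ?_⟩
  · show t * r⁻¹ * t * r * t ∈ MulAction.stabilizer G a
    rw [MulAction.mem_stabilizer_iff, mul_smul, mul_smul, mul_smul, mul_smul, hr', hc, hri,
      ro_tta hS]
  · show t * r⁻¹ * t * r * t ≠ 1
    rw [hs_eq]; exact conj_ne_one hS.ne_one
  · show (t * r⁻¹ * t * r * t) * (t * r⁻¹ * t * r * t) = 1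
    rw [hs_eq]; exact conj_mul_self hS.mul_self
  · show t * (t * r⁻¹ * t * r * t) * t = r⁻¹ * t * r
    calc t * (t * r⁻¹ * t * r * t) * t = (t * t) * r⁻¹ * t * r * (t * t) := by group
      _ = r⁻¹ * t * r := by rw [hS.mul_self]; group
  · rintro ⟨s₁, r₁⟩ ⟨⟨hs₁a, hs₁1, hs₁2⟩, hr₁, heq⟩
    have hs₁a' : s₁ • a = a := MulAction.mem_stabilizer_iff.mp hs₁a
    have h1 : t • r₁ • t • a = r₁ • t • a := by
      have h2 : (r₁⁻¹ * t * r₁) • t • a = t • a := by
        show (r₁⁻¹ * t * r₁) • t • a = t • a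
        have : (t * s₁ * t) • t • a = t • a := by
          rw [mul_smul, mul_smul, ro_tta hS, hs₁a']
        rw [← heq]; exact this
      rw [mul_smul, mul_smul, inv_smul_eq_iff] at h2
      exact h2
    have h3 : r₁ • t • a = c := ro_invol_fix_unique hS hS.ne_one hS.mul_self hc h1
    have h4 := huniq ⟨r₁, hr₁⟩ h3
    have h5 : r₁ = r := congrArg Subtype.val h4
    have h6 : s₁ = t * r⁻¹ * t * r * t := by
      calc s₁ = (t * t) * s₁ * (t * t) := by rw [hS.mul_self]; group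
        _ = t * (t * s₁ * t) * t := by group
        _ = t * r⁻¹ * t * r * t := by rw [heq, h5]; group
    exact Prod.ext h6 h5

/-- An involution conjugating an involution fixing `c₁` to one fixing `c₂` swaps `c₁` and `c₂`. -/
theorem ro_swap_pts (hS : Cfsg.IsRankOneSetup G Ω a t Q) [Finite G] {s₁ s₂ w : G} {c₁ c₂ : Ω}
    (h1 : s₁ ≠ 1) (h1' : s₁ * s₁ = 1) (hc₁ : s₁ • c₁ = c₁) (hc₂ : s₂ • c₂ = c₂) (hw : w * w = 1)
    (hws : w * s₁ * w = s₂) : w • c₁ = c₂ ∧ w • c₂ = c₁ := by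
  have h2 : s₁ • w • c₂ = w • c₂ := by
    have : s₁ * w = w * s₂ := by
      rw [← hws]
      calc s₁ * w = (w * w) * s₁ * w := by rw [hw, one_mul]
        _ = w * (w * s₁ * w) := by group
    rw [← mul_smul, this, mul_smul, hc₂]
  have h3 : w • c₂ = c₁ := ro_invol_fix_unique hS h1 h1' hc₁ h2
  refine ⟨?_, h3⟩
  rw [← h3, ← mul_smul, hw, one_smul]

/-- `t` normalises `D`. -/
theorem ro_t_norm_D (hS : Cfsg.IsRankOneSetup G Ω a t Q) {d : G}
    (hd : d ∈ MulAction.stabilizer G a ⊓ MulAction.stabilizer G (t • a)) :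
    t * d * t⁻¹ ∈ MulAction.stabilizer G a ⊓ MulAction.stabilizer G (t • a) := by
  rw [ro_t_inv hS]
  rw [ro_mem_D] at hd ⊢
  constructor
  · rw [mul_smul, mul_smul, hd.2, ro_tta hS]
  · rw [mul_smul, mul_smul, ro_tta hS, hd.1]

/-- An involution swapping `a` and `t • a` is `t * k` with `k ∈ K`. -/
theorem ro_mem_K_of_swap (hS : Cfsg.IsRankOneSetup G Ω a t Q) {u : G} (hu : u * u = 1)
    (hua : u • a = t • a) :
    t * u ∈ Cfsg.invertedBy (MulAction.stabilizer G a ⊓ MulAction.stabilizer G (t • a)) t := by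
  have hub : u • t • a = a := by rw [← hua, ← mul_smul, hu, one_smul]
  refine ⟨ro_mem_D.mpr ⟨?_, ?_⟩, ?_⟩
  · rw [mul_smul, hua, ro_tta hS]
  · rw [mul_smul, hub]
  · rw [mul_inv_rev, ro_t_inv hS, inv_eq_self_of_mul_self hu]
    calc t * (t * u) * t = (t * t) * u * t := by group
      _ = u * t := by rw [hS.mul_self, one_mul]

/-- For `k ∈ K`, `t * k` is an involution swapping `a` and `t • a`. -/
theorem ro_swap_of_mem_K (hS : Cfsg.IsRankOneSetup G Ω a t Q) {k : G}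
    (hk : k ∈ Cfsg.invertedBy (MulAction.stabilizer G a ⊓ MulAction.stabilizer G (t • a)) t) :
    (t * k) * (t * k) = 1 ∧ (t * k) • a = t • a ∧ (t * k) • t • a = a := by
  obtain ⟨hkD, hki⟩ := hk
  rw [ro_mem_D] at hkD
  refine ⟨?_, ?_, ?_⟩
  · calc (t * k) * (t * k) = (t * k * t⁻¹) * (t * t) * k := by group
      _ = 1 := by rw [hki, hS.mul_self]; group
  · rw [mul_smul, hkD.1]
  · rw [mul_smul, hkD.2, ro_tta hS]

theorem ro_invol_conj_mem {s k : G}
    (hs : s ∈ Cfsg.involutionsIn (MulAction.stabilizer G a : Set G))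
    (hk : k ∈ MulAction.stabilizer G a) :
    k⁻¹ * s * k ∈ Cfsg.involutionsIn (MulAction.stabilizer G a : Set G) := by
  obtain ⟨hsa, hs1, hs2⟩ := hs
  refine ⟨Subgroup.mul_mem _ (Subgroup.mul_mem _ (Subgroup.inv_mem _ hk) hsa) hk, ?_, ?_⟩
  · have := conj_ne_one (g := k⁻¹) hs1
    rwa [inv_inv] at this
  · have := conj_mul_self (g := k⁻¹) hs2
    rwa [inv_inv] at this

/-- `t s t` is an involution fixing `t • a` and not lying in `G_a`. -/
theorem ro_tst (hS : Cfsg.IsRankOneSetup G Ω a t Q) [Finite G] {s : G}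
    (hs : s ∈ Cfsg.involutionsIn (MulAction.stabilizer G a : Set G)) :
    t * s * t ≠ 1 ∧ (t * s * t) * (t * s * t) = 1 ∧ (t * s * t) • t • a = t • a ∧
      t * s * t ∉ MulAction.stabilizer G a := by
  obtain ⟨hsa, hs1, hs2⟩ := hs
  have hsa' : s • a = a := MulAction.mem_stabilizer_iff.mp hsa
  have e : t * s * t = t * s * t⁻¹ := by rw [ro_t_inv hS]
  have hfix : (t * s * t) • t • a = t • a := by
    rw [mul_smul, mul_smul, ro_tta hS, hsa']
  refine ⟨by rw [e]; exact conj_ne_one hs1, by rw [e]; exact conj_mul_self hs2, hfix, ?_⟩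
  intro hmem
  have h1 : (t * s * t) • a = a := MulAction.mem_stabilizer_iff.mp hmem
  have h2 := ro_invol_fix_unique hS (by rw [e]; exact conj_ne_one hs1)
    (by rw [e]; exact conj_mul_self hs2) hfix h1
  exact ro_b_ne hS h2.symm

/-- `K` maps onto the involutions of `G_a`. -/
theorem ro_K_surj (hS : Cfsg.IsRankOneSetup G Ω a t Q) [Finite G] {s s' : G}
    (hs : s ∈ Cfsg.involutionsIn (MulAction.stabilizer G a : Set G))
    (hs' : s' ∈ Cfsg.involutionsIn (MulAction.stabilizer G a : Set G)) :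
    ∃ k ∈ Cfsg.invertedBy (MulAction.stabilizer G a ⊓ MulAction.stabilizer G (t • a)) t,
      k⁻¹ * s * k = s' := by
  obtain ⟨hst1, hst2, hstb, hstn⟩ := ro_tst hS hs
  obtain ⟨hs'a, hs'1, hs'2⟩ := hs'
  have hs'a' : s' • a = a := MulAction.mem_stabilizer_iff.mp hs'a
  have hodd := ro_odd_order hS hs'a hs'1 hs'2 hstn hst2
  obtain ⟨w, hww, hws, -, -⟩ := exists_swap hs'2 hst2 hodd
  -- `w * s' * w = t s t`
  obtain ⟨hwa, hwb⟩ := ro_swap_pts hS hs'1 hs'2 hs'a' hstb hww hws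
  refine ⟨t * w, ro_mem_K_of_swap hS hww hwa, ?_⟩
  have hwi : w⁻¹ = w := inv_eq_self_of_mul_self hww
  have hws' : w * (t * s * t) * w = s' := by
    rw [← hws]
    calc w * (w * s' * w) * w = (w * w) * s' * (w * w) := by group
      _ = s' := by rw [hww]; group
  rw [mul_inv_rev, hwi, ro_t_inv hS, ← hws']
  group

/-- `k ↦ k⁻¹ s k` is injective on `K`. -/
theorem ro_K_inj (hS : Cfsg.IsRankOneSetup G Ω a t Q) [Finite G] {s k₁ k₂ : G}
    (hs : s ∈ Cfsg.involutionsIn (MulAction.stabilizer G a : Set G))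
    (hk₁ : k₁ ∈ Cfsg.invertedBy (MulAction.stabilizer G a ⊓ MulAction.stabilizer G (t • a)) t)
    (hk₂ : k₂ ∈ Cfsg.invertedBy (MulAction.stabilizer G a ⊓ MulAction.stabilizer G (t • a)) t)
    (h : k₁⁻¹ * s * k₁ = k₂⁻¹ * s * k₂) : k₁ = k₂ := by
  obtain ⟨hst1, hst2, hstb, hstn⟩ := ro_tst hS hs
  have hs' := ro_invol_conj_mem hs hk₁.1.1
  obtain ⟨hs'a, hs'1, hs'2⟩ := hs'
  have hs'a' : (k₁⁻¹ * s * k₁) • a = a := MulAction.mem_stabilizer_iff.mp hs'a
  have hodd := ro_odd_order hS hs'a hs'1 hs'2 hstn hst2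
  have hodd' : Odd (orderOf ((t * s * t) * (k₁⁻¹ * s * k₁))) := by
    have e : (t * s * t) * (k₁⁻¹ * s * k₁) = ((k₁⁻¹ * s * k₁) * (t * s * t))⁻¹ := by
      rw [mul_inv_rev, inv_eq_self_of_mul_self hst2, inv_eq_self_of_mul_self hs'2]
    rw [e, orderOf_inv]; exact hodd
  obtain ⟨w, hww, hws, -, huniq⟩ := exists_swap hst2 hs'2 hodd'
  obtain ⟨hwb, hwa⟩ := ro_swap_pts hS hst1 hst2 hstb hs'a' hww hws
  have hti := ro_t_inv hS
  have key : ∀ k ∈ Cfsg.invertedBy (MulAction.stabilizer G a ⊓ MulAction.stabilizer G (t • a)) t,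
      k⁻¹ * s * k = k₁⁻¹ * s * k₁ → t * k = w := by
    intro k hk hks
    obtain ⟨hu2, hua, hub⟩ := ro_swap_of_mem_K hS hk
    apply huniq (t * k) hu2
    · rw [← hks]
      have hki : k⁻¹ = (t * k) * t := by
        have h0 := hk.2
        rw [hti] at h0
        exact h0.symm
      calc t * k * (t * s * t) * (t * k) = ((t * k) * t) * s * ((t * t) * k) := by group
        _ = k⁻¹ * s * k := by rw [← hki, hS.mul_self, one_mul]
    · refine ⟨MulAction.stabilizer G a ⊓ MulAction.stabilizer G (t • a), hS.odd_card, ?_⟩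
      rw [ro_mem_D]
      constructor
      · rw [mul_smul, hwa, hub]
      · rw [mul_smul, hwb, hua]
  have e1 := key k₁ hk₁ rfl
  have e2 := key k₂ hk₂ h.symm
  exact mul_left_cancel (e1.trans e2.symm)

end SetupK

end Cfsg.Agent.Helper19
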