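import Mathlib
import Cfsg.Prelude.Def_LieRecognition
import Cfsg.Agent.Helper19.RankOneK

set_option autoImplicit false
open scoped Pointwise

namespace Cfsg.Agent.Helper19

section SetupC

variable {G Ω : Type*} [Group G] [MulAction G Ω] {a : Ω} {t : G} {Q : Subgroup G}

theorem mem_centralizer_singleton {M : Type*} [Group M] {g s : M} :
    g ∈ Subgroup.centralizer ({s} : Set M) ↔ s * g = g * s := by
  rw [Subgroup.mem_centralizer_iff]
  constructor
  · intro h; exact h s (Set.mem_singleton s)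
  · intro h x hx
    rw [Set.mem_singleton_iff] at hx
    rw [hx]; exact h

theorem one_mem_K : (1 : G) ∈ Cfsg.invertedBy (MulAction.stabilizer G a ⊓ MulAction.stabilizer G (t • a)) t :=
  ⟨Subgroup.one_mem _, by simp⟩

/-- `|D| = |C_D(s)| |K|` for an involution `s` of `G_a`. -/
theorem ro_card_D_K (hS : Cfsg.IsRankOneSetup G Ω a t Q) [Finite G] {s : G}
    (hs : s ∈ Cfsg.involutionsIn (MulAction.stabilizer G a : Set G)) :
    Nat.card ↥(MulAction.stabilizer G a ⊓ MulAction.stabilizer G (t • a)) =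
      Nat.card ↥((MulAction.stabilizer G a ⊓ MulAction.stabilizer G (t • a)) ⊓ Subgroup.centralizer {s}) *
        Nat.card (Cfsg.invertedBy (MulAction.stabilizer G a ⊓ MulAction.stabilizer G (t • a)) t) := by
  let f : ↥((MulAction.stabilizer G a ⊓ MulAction.stabilizer G (t • a)) ⊓ Subgroup.centralizer {s}) ×
      (Cfsg.invertedBy (MulAction.stabilizer G a ⊓ MulAction.stabilizer G (t • a)) t) →
      ↥(MulAction.stabilizer G a ⊓ MulAction.stabilizer G (t • a)) :=
    fun p => ⟨(p.1 : G) * (p.2 : G), Subgroup.mul_mem _ p.1.2.1 p.2.2.1⟩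
  have hf : Function.Bijective f := by
    constructor
    · rintro ⟨⟨c, hc⟩, ⟨k, hk⟩⟩ ⟨⟨c', hc'⟩, ⟨k', hk'⟩⟩ h
      have h' : c * k = c' * k' := congrArg Subtype.val h
      have hcs : s * c = c * s := mem_centralizer_singleton.mp hc.2
      have hcs' : s * c' = c' * s := mem_centralizer_singleton.mp hc'.2
      have e1 : (c * k)⁻¹ * s * (c * k) = k⁻¹ * s * k := by
        calc (c * k)⁻¹ * s * (c * k) = k⁻¹ * c⁻¹ * (s * c) * k := by group
          _ = k⁻¹ * s * k := by rw [hcs]; group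
      have e2 : (c' * k')⁻¹ * s * (c' * k') = k'⁻¹ * s * k' := by
        calc (c' * k')⁻¹ * s * (c' * k') = k'⁻¹ * c'⁻¹ * (s * c') * k' := by group
          _ = k'⁻¹ * s * k' := by rw [hcs']; group
      rw [h', e2] at e1
      have hkk : k = k' := ro_K_inj hS hs hk hk' e1.symm
      subst hkk
      have hcc : c = c' := mul_right_cancel h'
      subst hcc
      rfl
    · rintro ⟨d, hd⟩
      obtain ⟨k, hk, hks⟩ := ro_K_surj hS hs (ro_invol_conj_mem hs hd.1)
      refine ⟨(⟨d * k⁻¹, Subgroup.mul_mem _ hd (Subgroup.inv_mem _ hk.1), ?_⟩, ⟨k, hk⟩), ?_⟩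
      · refine mem_centralizer_singleton.mpr ?_
        have : s = d * (k⁻¹ * s * k) * d⁻¹ := by rw [hks]; group
        calc s * (d * k⁻¹) = (d * (k⁻¹ * s * k) * d⁻¹) * (d * k⁻¹) := by rw [← this]
          _ = d * k⁻¹ * s := by group
      · apply Subtype.ext
        show d * k⁻¹ * k = d
        group
  rw [← Nat.card_prod]
  exact (Nat.card_congr (Equiv.ofBijective f hf)).symm

/-- `C_D(t) = C_D(s)` for the pair `(s, r)` of the structure equation. -/
theorem ro_cent_t_eq (hS : Cfsg.IsRankOneSetup G Ω a t Q) [Finite G] {s r : G}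
    (hs : s ∈ Cfsg.involutionsIn (MulAction.stabilizer G a : Set G)) (hr : r ∈ Q)
    (heq : t * s * t = r⁻¹ * t * r) :
    (MulAction.stabilizer G a ⊓ MulAction.stabilizer G (t • a)) ⊓ Subgroup.centralizer {t} =
      (MulAction.stabilizer G a ⊓ MulAction.stabilizer G (t • a)) ⊓ Subgroup.centralizer {s} := by
  have hle : (MulAction.stabilizer G a ⊓ MulAction.stabilizer G (t • a)) ⊓ Subgroup.centralizer {t} ≤
      (MulAction.stabilizer G a ⊓ MulAction.stabilizer G (t • a)) ⊓ Subgroup.centralizer {s} := by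
    intro d hd
    refine ⟨hd.1, ?_⟩
    have hdt : t * d = d * t := mem_centralizer_singleton.mp hd.2
    have hdt' : t * d⁻¹ = d⁻¹ * t := by
      calc t * d⁻¹ = d⁻¹ * (d * t) * d⁻¹ := by group
        _ = d⁻¹ * t := by rw [← hdt]; group
    obtain ⟨p, -, huniq⟩ := ro_structure_eq hS
    have h1 := huniq (s, r) ⟨hs, hr, heq⟩
    have hs' : d * s * d⁻¹ ∈ Cfsg.involutionsIn (MulAction.stabilizer G a : Set G) := by
      have := ro_invol_conj_mem (k := d⁻¹) hs (Subgroup.inv_mem _ hd.1.1)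
      rwa [inv_inv] at this
    have h2 := huniq (d * s * d⁻¹, d * r * d⁻¹) ⟨hs', hS.conj_mem d hd.1.1 r hr, by
      show t * (d * s * d⁻¹) * t = (d * r * d⁻¹)⁻¹ * t * (d * r * d⁻¹)
      calc t * (d * s * d⁻¹) * t = (t * d) * s * (d⁻¹ * t) := by group
        _ = d * (t * s * t) * d⁻¹ := by rw [hdt, ← hdt']; group
        _ = d * (r⁻¹ * t * r) * d⁻¹ := by rw [heq]
        _ = d * r⁻¹ * (d⁻¹ * (d * t) * d⁻¹ * d) * r * d⁻¹ := by group
        _ = d * r⁻¹ * (d⁻¹ * (t * d) * d⁻¹ * d) * r * d⁻¹ := by rw [hdt]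
        _ = (d * r * d⁻¹)⁻¹ * t * (d * r * d⁻¹) := by group⟩
    have h3 : d * s * d⁻¹ = s := by
      have := h2.trans h1.symm
      exact congrArg Prod.fst this
    refine mem_centralizer_singleton.mpr ?_
    calc s * d = (d * s * d⁻¹) * d := by rw [h3]
      _ = d * s := by group
  apply Subgroup.eq_of_le_of_card_ge hle
  have hnorm : ∀ x ∈ MulAction.stabilizer G a ⊓ MulAction.stabilizer G (t • a),
      t * x * t⁻¹ ∈ MulAction.stabilizer G a ⊓ MulAction.stabilizer G (t • a) :=
    fun x hx => ro_t_norm_D hS hx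
  have c1 := (inverted_factorization t hS.mul_self _ hS.odd_card hnorm).2.1
  have c2 := ro_card_D_K hS hs
  rw [c1] at c2
  have hKpos : 0 < Nat.card (Cfsg.invertedBy (MulAction.stabilizer G a ⊓ MulAction.stabilizer G (t • a)) t) := by
    have : Nonempty (Cfsg.invertedBy (MulAction.stabilizer G a ⊓ MulAction.stabilizer G (t • a)) t) :=
      ⟨⟨1, one_mem_K⟩⟩
    exact Nat.card_pos
  exact le_of_eq (Nat.eq_of_mul_eq_mul_right hKpos c2).symm

end SetupC

end Cfsg.Agent.Helper19
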