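import Mathlib
import Cfsg.Prelude.Def_LieRecognition
import Cfsg.Agent.Helper19.RankOneC

set_option autoImplicit false
open scoped Pointwise

namespace Cfsg.Agent.Helper19

section SetupF

variable {G Ω : Type*} [Group G] [MulAction G Ω] {a : Ω} {t : G} {Q : Subgroup G}

/-- An element of the centraliser of `X` permutes the fixed points of `X`. -/
theorem cent_smul_fix {X : Set G} {g : G} (hg : g ∈ Subgroup.centralizer X) {c : Ω}
    (hc : ∀ x ∈ X, x • c = c) : ∀ x ∈ X, x • g • c = g • c := by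
  intro x hx
  rw [← mul_smul, (Subgroup.mem_centralizer_iff.mp hg) x hx, mul_smul, hc x hx]

/-- The element of `Q` carrying one fixed point of `X ⊆ G_a` to another centralises `X`. -/
theorem ro_cent_of_fix (hS : Cfsg.IsRankOneSetup G Ω a t Q) {X : Set G}
    (hX : ∀ x ∈ X, x • a = a) {c c' : Ω} (hc : c ≠ a) (hc' : c' ≠ a)
    (hXc : ∀ x ∈ X, x • c = c) (hXc' : ∀ x ∈ X, x • c' = c') {r : G} (hr : r ∈ Q)
    (hrc : r • c = c') : r ∈ Subgroup.centralizer X := by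
  refine Subgroup.mem_centralizer_iff.mpr ?_
  intro x hx
  obtain ⟨y, -, huniq⟩ := ro_Q_regular hS hc hc'
  have hxa : x ∈ MulAction.stabilizer G a := MulAction.mem_stabilizer_iff.mpr (hX x hx)
  have h1 : (x * r * x⁻¹) • c = c' := by
    have : x⁻¹ • c = c := by rw [inv_smul_eq_iff, hXc x hx]
    rw [mul_smul, mul_smul, this, hrc, hXc' x hx]
  have e1 := huniq ⟨x * r * x⁻¹, hS.conj_mem x hxa r hr⟩ h1
  have e2 := huniq ⟨r, hr⟩ hrc
  have e3 : x * r * x⁻¹ = r := congrArg Subtype.val (e1.trans e2.symm)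
  calc x * r = (x * r * x⁻¹) * x := by group
    _ = r * x := by rw [e3]

/-- The centraliser of `X` in the stabiliser of a fixed point `c₀` is transitive on the other
fixed points. -/
theorem ro_cent_trans1 (hS : Cfsg.IsRankOneSetup G Ω a t Q) {X : Set G} {c₀ c c' : Ω}
    (h0 : ∀ x ∈ X, x • c₀ = c₀) (hc : ∀ x ∈ X, x • c = c) (hc' : ∀ x ∈ X, x • c' = c')
    (hne : c ≠ c₀) (hne' : c' ≠ c₀) :
    ∃ g ∈ Subgroup.centralizer X, g • c₀ = c₀ ∧ g • c = c' := by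
  obtain ⟨g₀, rfl⟩ := ro_exists_smul_eq hS a c₀
  have hS' := ro_conj hS g₀
  obtain ⟨⟨r, hr⟩, hrc, -⟩ := ro_Q_regular hS' hne hne'
  exact ⟨r, ro_cent_of_fix hS' h0 hne hne' hc hc' hr hrc, ro_Q_smul_a hS' hr, hrc⟩

/-- Transitivity of `C(X)` on the fixed points of `X` when there are at least three. -/
theorem ro_cent_trans (hS : Cfsg.IsRankOneSetup G Ω a t Q) {X : Set G}
    (h3 : ∃ b c d : Ω, b ≠ c ∧ b ≠ d ∧ c ≠ d ∧ ∀ x ∈ X, x • b = b ∧ x • c = c ∧ x • d = d)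
    {p p' : Ω} (hp : ∀ x ∈ X, x • p = p) (hp' : ∀ x ∈ X, x • p' = p') :
    ∃ g ∈ Subgroup.centralizer X, g • p = p' := by
  by_cases hpp : p = p'
  · exact ⟨1, Subgroup.one_mem _, by rw [one_smul, hpp]⟩
  obtain ⟨b, c, d, hbc, hbd, hcd, hfix⟩ := h3
  have hz : ∃ z, (z = b ∨ z = c ∨ z = d) ∧ z ≠ p ∧ z ≠ p' := by
    by_cases h1 : b = p
    · by_cases h2 : c = p'
      · exact ⟨d, by simp, by rw [← h1]; exact hbd.symm, by rw [← h2]; exact hcd.symm⟩
      · exact ⟨c, by simp, by rw [← h1]; exact hbc.symm, h2⟩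
    · by_cases h2 : b = p'
      · by_cases h3 : c = p
        · exact ⟨d, by simp, by rw [← h3]; exact hcd.symm, by rw [← h2]; exact hbd.symm⟩
        · exact ⟨c, by simp, h3, by rw [← h2]; exact hbc.symm⟩
      · exact ⟨b, by simp, h1, h2⟩
  obtain ⟨z, hzmem, hzp, hzp'⟩ := hz
  have hzfix : ∀ x ∈ X, x • z = z := by
    intro x hx
    rcases hzmem with rfl | rfl | rfl
    · exact (hfix x hx).1
    · exact (hfix x hx).2.1
    · exact (hfix x hx).2.2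
  obtain ⟨g, hg, -, hgp⟩ := ro_cent_trans1 hS hzfix hp hp' (Ne.symm hzp) (Ne.symm hzp')
  exact ⟨g, hg, hgp⟩

/-- Double transitivity of `C(X)` on the fixed points of `X` when there are at least three. -/
theorem ro_cent_two_trans (hS : Cfsg.IsRankOneSetup G Ω a t Q) {X : Set G}
    (h3 : ∃ b c d : Ω, b ≠ c ∧ b ≠ d ∧ c ≠ d ∧ ∀ x ∈ X, x • b = b ∧ x • c = c ∧ x • d = d)
    {b₁ b₂ c₁ c₂ : Ω}
    (hfix : ∀ x ∈ X, x • b₁ = b₁ ∧ x • b₂ = b₂ ∧ x • c₁ = c₁ ∧ x • c₂ = c₂)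
    (hb : b₁ ≠ b₂) (hc : c₁ ≠ c₂) :
    ∃ g ∈ Subgroup.centralizer X, g • b₁ = c₁ ∧ g • b₂ = c₂ := by
  obtain ⟨g₁, hg₁, hg₁b⟩ := ro_cent_trans hS h3 (fun x hx => (hfix x hx).1)
    (fun x hx => (hfix x hx).2.2.1)
  have hfix2 : ∀ x ∈ X, x • g₁ • b₂ = g₁ • b₂ := cent_smul_fix hg₁ (fun x hx => (hfix x hx).2.1)
  have hne : g₁ • b₂ ≠ c₁ := by
    rw [← hg₁b]
    intro h
    exact hb (smul_left_cancel g₁ h).symm
  obtain ⟨g₂, hg₂, hg₂c, hg₂b⟩ := ro_cent_trans1 hS (fun x hx => (hfix x hx).2.2.1) hfix2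
    (fun x hx => (hfix x hx).2.2.2) hne (Ne.symm hc)
  refine ⟨g₂ * g₁, Subgroup.mul_mem _ hg₂ hg₁, ?_, ?_⟩
  · rw [mul_smul, hg₁b, hg₂c]
  · rw [mul_smul, hg₂b]

/-- `C(X)` contains an involution when `X` fixes at least three points. -/
theorem ro_cent_exists_invol (hS : Cfsg.IsRankOneSetup G Ω a t Q) [Finite G] {X : Set G}
    (h3 : ∃ b c d : Ω, b ≠ c ∧ b ≠ d ∧ c ≠ d ∧ ∀ x ∈ X, x • b = b ∧ x • c = c ∧ x • d = d) :
    ∃ w ∈ Subgroup.centralizer X, w ≠ 1 ∧ w * w = 1 := by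
  obtain ⟨b, c, d, hbc, hbd, hcd, hfix⟩ := id h3
  obtain ⟨g, hg, hgb, hgc⟩ := ro_cent_two_trans hS h3 (b₁ := b) (b₂ := c) (c₁ := c) (c₂ := b)
    (fun x hx => ⟨(hfix x hx).1, (hfix x hx).2.1, (hfix x hx).2.1, (hfix x hx).1⟩) hbc hbc.symm
  have hc2 : ∀ k : ℕ, (g ^ (2 * k)) • c = c := by
    intro k
    induction k with
    | zero => simp
    | succ k ih =>
      have : g ^ (2 * (k + 1)) = g ^ (2 * k) * g * g := by
        rw [mul_add, pow_add, mul_one, pow_two, mul_assoc]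
      rw [this, mul_smul, mul_smul, hgc, hgb, ih]
  have heven : Even (orderOf g) := by
    by_contra hodd
    rw [Nat.not_even_iff_odd] at hodd
    obtain ⟨n, hn⟩ := hodd
    have h1 : g ^ (2 * n + 1) = 1 := by rw [← hn]; exact pow_orderOf_eq_one g
    have h2 : (g ^ (2 * n + 1)) • b = c := by
      rw [pow_succ, mul_smul, hgb, hc2 n]
    rw [h1, one_smul] at h2
    exact hbc h2
  obtain ⟨m, hm⟩ := heven
  have hpos : 0 < orderOf g := orderOf_pos g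
  refine ⟨g ^ m, Subgroup.pow_mem _ hg m, pow_ne_one_of_lt_orderOf (by omega) (by omega), ?_⟩
  rw [← pow_add, ← hm]
  exact pow_orderOf_eq_one g

/-- `C(X) ⊓ Q` contains an involution when `X ⊆ G_a` fixes at least three points. -/
theorem ro_cent_exists_invol_Q (hS : Cfsg.IsRankOneSetup G Ω a t Q) [Finite G] {X : Set G}
    (hXa : ∀ x ∈ X, x • a = a)
    (h3 : ∃ b c d : Ω, b ≠ c ∧ b ≠ d ∧ c ≠ d ∧ ∀ x ∈ X, x • b = b ∧ x • c = c ∧ x • d = d) :
    ∃ s ∈ Subgroup.centralizer X ⊓ Q, s ≠ 1 ∧ s * s = 1 := by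
  obtain ⟨w, hw, hw1, hw2⟩ := ro_cent_exists_invol hS h3
  obtain ⟨c, hc⟩ := ro_exists_fixed hS hw2
  have hcfix : ∀ x ∈ X, x • c = c := by
    intro x hx
    apply ro_invol_fix_unique hS hw1 hw2 hc
    rw [← mul_smul, ← (Subgroup.mem_centralizer_iff.mp hw) x hx, mul_smul, hc]
  obtain ⟨h, hh, hhc⟩ := ro_cent_trans hS h3 hcfix hXa
  have hhi : h⁻¹ • a = c := by rw [inv_smul_eq_iff, hhc]
  have hsa : h * w * h⁻¹ ∈ MulAction.stabilizer G a := by
    rw [MulAction.mem_stabilizer_iff, mul_smul, mul_smul, hhi, hc, hhc]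
  refine ⟨h * w * h⁻¹, ⟨Subgroup.mul_mem _ (Subgroup.mul_mem _ hh hw) (Subgroup.inv_mem _ hh),
    ro_invol_mem_Q hS hsa (conj_mul_self hw2)⟩, conj_ne_one hw1, conj_mul_self hw2⟩

/-- `C_{G_a}(X) ≤ C_Q(X) C_D(X)` for `X ⊆ D`. -/
theorem ro_cent_stab_le (hS : Cfsg.IsRankOneSetup G Ω a t Q) {X : Set G}
    (hX : X ⊆ ((MulAction.stabilizer G a ⊓ MulAction.stabilizer G (t • a) : Subgroup G) : Set G)) :
    Subgroup.centralizer X ⊓ MulAction.stabilizer G a ≤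
      (Subgroup.centralizer X ⊓ Q) ⊔
        (Subgroup.centralizer X ⊓ (MulAction.stabilizer G a ⊓ MulAction.stabilizer G (t • a))) := by
  intro g hg
  obtain ⟨hgC, hga⟩ := hg
  have hga' : g • a = a := MulAction.mem_stabilizer_iff.mp hga
  have hXa : ∀ x ∈ X, x • a = a := fun x hx => (ro_mem_D.mp (hX hx)).1
  have hXb : ∀ x ∈ X, x • t • a = t • a := fun x hx => (ro_mem_D.mp (hX hx)).2
  have hgb : g • t • a ≠ a := by
    intro h
    exact ro_b_ne hS (smul_left_cancel g (h.trans hga'.symm))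
  obtain ⟨r, hr, hrb⟩ := ro_Q_trans hS hgb
  have hrC : r ∈ Subgroup.centralizer X :=
    ro_cent_of_fix hS hXa (ro_b_ne hS) hgb hXb (cent_smul_fix hgC hXb) hr hrb
  have hrg : r⁻¹ * g ∈ Subgroup.centralizer X ⊓
      (MulAction.stabilizer G a ⊓ MulAction.stabilizer G (t • a)) := by
    refine ⟨Subgroup.mul_mem _ (Subgroup.inv_mem _ hrC) hgC, ro_mem_D.mpr ⟨?_, ?_⟩⟩
    · rw [mul_smul, hga', inv_smul_eq_iff, ro_Q_smul_a hS hr]
    · rw [mul_smul, inv_smul_eq_iff, hrb]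
  have : g = r * (r⁻¹ * g) := by group
  rw [this]
  exact Subgroup.mul_mem_sup ⟨hrC, hr⟩ hrg

/-- Two involutions swapping `a` and `t • a` and centralising `X` are conjugate under `C_D(X)`. -/
theorem ro_swap_conj (hS : Cfsg.IsRankOneSetup G Ω a t Q) [Finite G] {X : Set G} {u : G}
    (hu2 : u * u = 1) (hua : u • a = t • a) (hXt : ∀ x ∈ X, x * t = t * x)
    (hXu : ∀ x ∈ X, x * u = u * x) :
    ∃ k ∈ (MulAction.stabilizer G a ⊓ MulAction.stabilizer G (t • a)) ⊓ Subgroup.centralizer X,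
      k⁻¹ * t * k = u := by
  have hk' := ro_mem_K_of_swap hS hu2 hua
  have hk'C : t * u ∈ Subgroup.centralizer X := by
    refine Subgroup.mem_centralizer_iff.mpr ?_
    intro x hx
    calc x * (t * u) = (x * t) * u := by group
      _ = t * (x * u) := by rw [hXt x hx]; group
      _ = t * u * x := by rw [hXu x hx]; group
  obtain ⟨k, hkz, hkk⟩ := exists_sqrt_of_odd _ hS.odd_card hk'.1
  have hkmem : k ∈ (MulAction.stabilizer G a ⊓ MulAction.stabilizer G (t • a)) ⊓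
      Subgroup.centralizer X :=
    (Subgroup.zpowers_le.mpr (show t * u ∈ (MulAction.stabilizer G a ⊓
      MulAction.stabilizer G (t • a)) ⊓ Subgroup.centralizer X from ⟨hk'.1, hk'C⟩)) hkz
  have hkinv : t * k * t⁻¹ = k⁻¹ := inverted_of_mem_zpowers hk'.2 hkz
  have hti := ro_t_inv hS
  refine ⟨k, hkmem, ?_⟩
  have h1 : t * k⁻¹ * t = k := by
    have := congrArg (·⁻¹) hkinv
    simp only [mul_inv_rev, inv_inv, hti] at this
    rw [← mul_assoc] at this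
    exact this
  calc k⁻¹ * t * k = (t * t) * k⁻¹ * t * k := by rw [hS.mul_self, one_mul]
    _ = t * (t * k⁻¹ * t) * k := by group
    _ = t * (k * k) := by rw [h1]; group
    _ = t * (t * u) := by rw [hkk]
    _ = u := by rw [← mul_assoc, hS.mul_self, one_mul]

/-- A subset of `D` fixing at least three points is conjugate under `D` into `C(t)`. -/
theorem ro_conj_into_cent_t (hS : Cfsg.IsRankOneSetup G Ω a t Q) [Finite G] {X : Set G}
    (hX : X ⊆ ((MulAction.stabilizer G a ⊓ MulAction.stabilizer G (t • a) : Subgroup G) : Set G))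
    (h3 : ∃ b c d : Ω, b ≠ c ∧ b ≠ d ∧ c ≠ d ∧ ∀ x ∈ X, x • b = b ∧ x • c = c ∧ x • d = d) :
    ∃ k ∈ (MulAction.stabilizer G a ⊓ MulAction.stabilizer G (t • a)),
      ∀ x ∈ X, (k * x * k⁻¹) * t = t * (k * x * k⁻¹) := by
  have hXa : ∀ x ∈ X, x • a = a := fun x hx => (ro_mem_D.mp (hX hx)).1
  have hXb : ∀ x ∈ X, x • t • a = t • a := fun x hx => (ro_mem_D.mp (hX hx)).2
  obtain ⟨w, hw, hw1, hw2⟩ := ro_cent_exists_invol hS h3
  obtain ⟨c, hc⟩ := ro_exists_fixed hS hw2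
  -- a fixed point `p` of `X` with `p ≠ c`
  have hp : ∃ p : Ω, (∀ x ∈ X, x • p = p) ∧ p ≠ c := by
    obtain ⟨b', c', d', hbc, -, -, hfix⟩ := h3
    by_cases hb : b' = c
    · exact ⟨c', fun x hx => (hfix x hx).2.1, by rw [← hb]; exact hbc.symm⟩
    · exact ⟨b', fun x hx => (hfix x hx).1, hb⟩
  obtain ⟨p, hpfix, hpc⟩ := hp
  have hwp : w • p ≠ p := fun h => hpc (ro_invol_fix_unique hS hw1 hw2 hc h)
  obtain ⟨h, hh, hhp, hhwp⟩ := ro_cent_two_trans hS h3 (b₁ := p) (b₂ := w • p) (c₁ := a)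
    (c₂ := t • a)
    (fun x hx => ⟨hpfix x hx, cent_smul_fix hw hpfix x hx, hXa x hx, hXb x hx⟩) (Ne.symm hwp)
    (ro_b_ne hS).symm
  have hhi : h⁻¹ • a = p := by rw [inv_smul_eq_iff, hhp]
  have huC : h * w * h⁻¹ ∈ Subgroup.centralizer X :=
    Subgroup.mul_mem _ (Subgroup.mul_mem _ hh hw) (Subgroup.inv_mem _ hh)
  have hua : (h * w * h⁻¹) • a = t • a := by
    rw [mul_smul, mul_smul, hhi, hhwp]
  obtain ⟨k, hk, hku⟩ := ro_swap_conj hS (X := (∅ : Set G)) (conj_mul_self hw2) hua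
    (fun x hx => absurd hx (Set.notMem_empty x)) (fun x hx => absurd hx (Set.notMem_empty x))
  refine ⟨k, hk.1, ?_⟩
  intro x hx
  have hxu : x * (k⁻¹ * t * k) = (k⁻¹ * t * k) * x := by
    rw [hku]; exact (Subgroup.mem_centralizer_iff.mp huC) x hx
  calc (k * x * k⁻¹) * t = k * (x * (k⁻¹ * t * k)) * k⁻¹ := by group
    _ = k * ((k⁻¹ * t * k) * x) * k⁻¹ := by rw [hxu]
    _ = t * (k * x * k⁻¹) := by group

end SetupF

end Cfsg.Agent.Helper19
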