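import Mathlib
import Cfsg.Prelude.Def_LieRecognition
import Cfsg.Agent.Helper19.RankOneF
import Cfsg.Agent.Helper19.FpfConj

/-!
Helper19: the rank-one set-up, consequences of Thompson's theorem: `Q` is nilpotent, the
involutions of `G_a` are central in `Q`.
-/

set_option autoImplicit false
open scoped Pointwise

namespace Cfsg.Agent.Helper19

/-- a finite nilpotent group of even order has a central involution -/
theorem exists_central_invol_of_nilpotent {Γ : Type*} [Group Γ] [Finite Γ] [Group.IsNilpotent Γ]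
    (h : Even (Nat.card Γ)) : ∃ z : Γ, z ≠ 1 ∧ z * z = 1 ∧ ∀ x : Γ, z * x = x * z := by
  haveI : Fact (Nat.Prime 2) := ⟨Nat.prime_two⟩
  obtain ⟨S⟩ : Nonempty (Sylow 2 Γ) := inferInstance
  have hSn : (S : Subgroup Γ).Normal := inferInstance
  have hSne : (S : Subgroup Γ) ≠ ⊥ := S.ne_bot_of_dvd_card (even_iff_two_dvd.mp h)
  have hZne := center_ne_bot S.isPGroup' hSne
  have hZp : IsPGroup 2 ((S : Subgroup Γ) ⊓ Subgroup.centralizer ((S : Subgroup Γ) : Set Γ) :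
      Subgroup Γ) := S.isPGroup'.to_le inf_le_left
  obtain ⟨z, hz, hzo⟩ := exists_orderOf_eq_prime hZp hZne
  have hz1 : z ≠ 1 := by
    intro h1
    rw [h1, orderOf_one] at hzo
    omega
  have hz2 : z * z = 1 := by
    rw [← pow_two, ← hzo]; exact pow_orderOf_eq_one z
  refine ⟨z, hz1, hz2, ?_⟩
  intro x
  obtain ⟨k, m, hm, e⟩ := Nat.exists_eq_pow_mul_and_not_dvd (orderOf_pos x).ne' 2 (by norm_num)
  have hmodd : Nat.Coprime 2 m := (Nat.Prime.coprime_iff_not_dvd Nat.prime_two).mpr hm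
  -- `z` commutes with the odd part
  have h1 : z * x ^ 2 ^ k = x ^ 2 ^ k * z := by
    apply commute_of_coprime_of_nilpotent Γ z (x ^ 2 ^ k) 2 m hmodd
    · rw [pow_two]; exact hz2
    · rw [← pow_mul, ← e]; exact pow_orderOf_eq_one x
  -- `z` commutes with the `2`-part
  have h2 : z * x ^ m = x ^ m * z := by
    have hxm : (x ^ m) ^ 2 ^ k = 1 := by
      rw [← pow_mul, mul_comm, ← e]; exact pow_orderOf_eq_one x
    have hp : IsPGroup 2 (Subgroup.zpowers (x ^ m)) :=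
      IsPGroup.of_card_dvd_pow (n := k)
        (by rw [Nat.card_zpowers]; exact orderOf_dvd_of_pow_eq_one hxm)
    obtain ⟨S', hS'⟩ := hp.exists_le_sylow
    haveI := Sylow.unique_of_normal S hSn
    have hS'S : S' = S := Subsingleton.elim S' S
    have hmem : x ^ m ∈ (S : Subgroup Γ) := by
      rw [← hS'S]; exact hS' (Subgroup.mem_zpowers _)
    exact (Subgroup.mem_centralizer_iff.mp hz.2 _ hmem).symm
  -- Bezout
  have hcop : IsCoprime ((2 ^ k : ℕ) : ℤ) (m : ℤ) := by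
    rw [Nat.isCoprime_iff_coprime]
    exact Nat.Coprime.pow_left k hmodd
  obtain ⟨u, v, huv⟩ := hcop
  have hx : x = (x ^ 2 ^ k) ^ u * (x ^ m) ^ v := by
    rw [← zpow_natCast x (2 ^ k), ← zpow_natCast x m, ← zpow_mul, ← zpow_mul, ← zpow_add]
    have h3 : ((2 ^ k : ℕ) : ℤ) * u + (m : ℤ) * v = 1 := by rw [← huv]; ring
    rw [h3, zpow_one]
  have c1 : Commute z ((x ^ 2 ^ k) ^ u) := Commute.zpow_right h1 u
  have c2 : Commute z ((x ^ m) ^ v) := Commute.zpow_right h2 v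
  have c3 : Commute z ((x ^ 2 ^ k) ^ u * (x ^ m) ^ v) := c1.mul_right c2
  rw [← hx] at c3
  exact c3

section SetupN

variable {G Ω : Type*} [Group G] [MulAction G Ω] {a : Ω} {t : G} {Q : Subgroup G}

/-- every non-identity element of `K` acts fixed-point-freely on `Q` -/
theorem ro_K_fpf (hS : Cfsg.IsRankOneSetup G Ω a t Q) [Finite G] {x : G}
    (hx : x ∈ Cfsg.invertedBy (MulAction.stabilizer G a ⊓ MulAction.stabilizer G (t • a)) t)
    (hx1 : x ≠ 1) : Q ⊓ Subgroup.centralizer {x} = ⊥ := by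
  rw [Subgroup.eq_bot_iff_forall]
  rintro q ⟨hqQ, hqx⟩
  by_contra hq1
  have hxq : x * q = q * x := mem_centralizer_singleton.mp hqx
  have hxD := ro_mem_D.mp hx.1
  have hXa : ∀ y ∈ ({x} : Set G), y • a = a := by
    intro y hy; rw [Set.mem_singleton_iff] at hy; rw [hy]; exact hxD.1
  have h3 : ∃ b c d : Ω, b ≠ c ∧ b ≠ d ∧ c ≠ d ∧
      ∀ y ∈ ({x} : Set G), y • b = b ∧ y • c = c ∧ y • d = d := by
    refine ⟨a, t • a, q • t • a, (ro_b_ne hS).symm, (ro_Q_smul_ne hS hqQ (ro_b_ne hS)).symm, ?_, ?_⟩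
    · intro h
      exact hq1 (ro_Q_free hS hqQ (ro_b_ne hS) h.symm)
    · intro y hy
      rw [Set.mem_singleton_iff] at hy
      rw [hy]
      refine ⟨hxD.1, hxD.2, ?_⟩
      rw [← mul_smul, hxq, mul_smul, hxD.2]
  obtain ⟨s, hs, hs1, hs2⟩ := ro_cent_exists_invol_Q hS hXa h3
  have hsI : s ∈ Cfsg.involutionsIn (MulAction.stabilizer G a : Set G) := ⟨hS.le hs.2, hs1, hs2⟩
  have hxs : x * s = s * x := mem_centralizer_singleton.mp hs.1
  have heq : x⁻¹ * s * x = (1 : G)⁻¹ * s * 1 := by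
    calc x⁻¹ * s * x = x⁻¹ * (s * x) := by group
      _ = x⁻¹ * (x * s) := by rw [hxs]
      _ = (1 : G)⁻¹ * s * 1 := by group
  exact hx1 (ro_K_inj hS hsI hx one_mem_K heq)

/-- with two commuting involutions in `G`, the stabiliser `G_a` has two distinct involutions -/
theorem ro_two_invol (hS : Cfsg.IsRankOneSetup G Ω a t Q) [Finite G]
    (h2 : ∃ x y : G, x ≠ 1 ∧ y ≠ 1 ∧ x ≠ y ∧ x * x = 1 ∧ y * y = 1 ∧ x * y = y * x) :
    ∃ s s' : G, s ∈ Cfsg.involutionsIn (MulAction.stabilizer G a : Set G) ∧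
      s' ∈ Cfsg.involutionsIn (MulAction.stabilizer G a : Set G) ∧ s ≠ s' := by
  obtain ⟨x, y, hx1, hy1, hxy, hx2, hy2, hcomm⟩ := h2
  obtain ⟨c, hc⟩ := ro_exists_fixed hS hx2
  have hyc : y • c = c := by
    apply ro_invol_fix_unique hS hx1 hx2 hc
    rw [← mul_smul, hcomm, mul_smul, hc]
  obtain ⟨g, hg⟩ := ro_exists_smul_eq hS c a
  have hgi : g⁻¹ • a = c := by rw [inv_smul_eq_iff, hg]
  refine ⟨g * x * g⁻¹, g * y * g⁻¹, ⟨?_, conj_ne_one hx1, conj_mul_self hx2⟩,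
    ⟨?_, conj_ne_one hy1, conj_mul_self hy2⟩, ?_⟩
  · show g * x * g⁻¹ ∈ MulAction.stabilizer G a
    rw [MulAction.mem_stabilizer_iff, mul_smul, mul_smul, hgi, hc, hg]
  · show g * y * g⁻¹ ∈ MulAction.stabilizer G a
    rw [MulAction.mem_stabilizer_iff, mul_smul, mul_smul, hgi, hyc, hg]
  · intro h
    apply hxy
    have h3 : g⁻¹ * (g * x * g⁻¹) * g = g⁻¹ * (g * y * g⁻¹) * g := by rw [h]
    calc x = g⁻¹ * (g * x * g⁻¹) * g := by group
      _ = g⁻¹ * (g * y * g⁻¹) * g := h3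
      _ = y := by group

/-- with two commuting involutions in `G`, `K` has a non-identity element -/
theorem ro_exists_K_ne_one (hS : Cfsg.IsRankOneSetup G Ω a t Q) [Finite G]
    (h2 : ∃ x y : G, x ≠ 1 ∧ y ≠ 1 ∧ x ≠ y ∧ x * x = 1 ∧ y * y = 1 ∧ x * y = y * x) :
    ∃ k ∈ Cfsg.invertedBy (MulAction.stabilizer G a ⊓ MulAction.stabilizer G (t • a)) t, k ≠ 1 := by
  obtain ⟨s, s', hs, hs', hne⟩ := ro_two_invol hS h2
  obtain ⟨k, hk, hks⟩ := ro_K_surj hS hs hs'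
  refine ⟨k, hk, ?_⟩
  rintro rfl
  apply hne
  simpa using hks

/-- elements of `G_a` normalise `Q` -/
theorem ro_conj_mem' (hS : Cfsg.IsRankOneSetup G Ω a t Q) {h : G}
    (hh : h ∈ MulAction.stabilizer G a) {x : G} (hx : x ∈ Q) : h⁻¹ * x * h ∈ Q := by
  have := hS.conj_mem h⁻¹ (Subgroup.inv_mem _ hh) x hx
  rwa [inv_inv] at this

end SetupN

section SetupNu

universe u

variable {G : Type u} {Ω : Type*} [Group G] [MulAction G Ω] {a : Ω} {t : G} {Q : Subgroup G}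

/-- **`Q` is nilpotent** (by Thompson's theorem). -/
theorem ro_Q_nilpotent (hS : Cfsg.IsRankOneSetup G Ω a t Q) [Finite G]
    (h2 : ∃ x y : G, x ≠ 1 ∧ y ≠ 1 ∧ x ≠ y ∧ x * x = 1 ∧ y * y = 1 ∧ x * y = y * x) :
    Group.IsNilpotent Q := by
  obtain ⟨k, hk, hk1⟩ := ro_exists_K_ne_one hS h2
  obtain ⟨p, j, hp, hjp, hj1⟩ := exists_pow_prime_order hk1
  have hkj : k ^ j ∈ Cfsg.invertedBy (MulAction.stabilizer G a ⊓ MulAction.stabilizer G (t • a)) t :=
    ⟨Subgroup.pow_mem _ hk.1 j,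
      inverted_of_mem_zpowers hk.2 (Subgroup.pow_mem _ (Subgroup.mem_zpowers k) j)⟩
  exact isNilpotent_of_fpf_conj Q (k ^ j) hp (fun x hx => hS.conj_mem _ hkj.1.1 x hx) hjp
    (ro_K_fpf hS hkj hj1)

/-- the involutions of `G_a` lie in the centre of `Q` -/
theorem ro_invol_central (hS : Cfsg.IsRankOneSetup G Ω a t Q) [Finite G]
    (h2 : ∃ x y : G, x ≠ 1 ∧ y ≠ 1 ∧ x ≠ y ∧ x * x = 1 ∧ y * y = 1 ∧ x * y = y * x)
    {s : G} (hs : s ∈ Cfsg.involutionsIn (MulAction.stabilizer G a : Set G)) :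
    s ∈ Q ∧ ∀ x ∈ Q, s * x = x * s := by
  haveI := ro_Q_nilpotent hS h2
  obtain ⟨z, hz1, hz2, hzc⟩ := exists_central_invol_of_nilpotent (Γ := Q) hS.even_card
  have hzI : (z : G) ∈ Cfsg.involutionsIn (MulAction.stabilizer G a : Set G) :=
    ⟨hS.le z.2, fun h => hz1 (Subtype.ext h), by simpa using congrArg Subtype.val hz2⟩
  obtain ⟨k, hk, hks⟩ := ro_K_surj hS hzI hs
  have hkG : k ∈ MulAction.stabilizer G a := hk.1.1
  have hzc' : ∀ x ∈ Q, (z : G) * x = x * z := fun x hx => by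
    simpa using congrArg Subtype.val (hzc ⟨x, hx⟩)
  refine ⟨?_, ?_⟩
  · rw [← hks]; exact ro_conj_mem' hS hkG z.2
  · intro x hx
    have hx' : k * x * k⁻¹ ∈ Q := hS.conj_mem k hkG x hx
    rw [← hks]
    calc k⁻¹ * (z : G) * k * x = k⁻¹ * ((z : G) * (k * x * k⁻¹)) * k := by group
      _ = k⁻¹ * ((k * x * k⁻¹) * (z : G)) * k := by rw [hzc' _ hx']
      _ = x * (k⁻¹ * (z : G) * k) := by group

/-- products of involutions of `G_a` -/
theorem ro_invol_mul (hS : Cfsg.IsRankOneSetup G Ω a t Q) [Finite G]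
    (h2 : ∃ x y : G, x ≠ 1 ∧ y ≠ 1 ∧ x ≠ y ∧ x * x = 1 ∧ y * y = 1 ∧ x * y = y * x)
    {s s' : G} (hs : s ∈ Cfsg.involutionsIn (MulAction.stabilizer G a : Set G))
    (hs' : s' ∈ Cfsg.involutionsIn (MulAction.stabilizer G a : Set G)) :
    s * s' = 1 ∨ s * s' ∈ Cfsg.involutionsIn (MulAction.stabilizer G a : Set G) := by
  by_cases h1 : s * s' = 1
  · exact Or.inl h1
  · right
    obtain ⟨hsQ, hsc⟩ := ro_invol_central hS h2 hs
    obtain ⟨hs'Q, -⟩ := ro_invol_central hS h2 hs'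
    refine ⟨Subgroup.mul_mem _ hs.1 hs'.1, h1, ?_⟩
    calc s * s' * (s * s') = s * (s' * s) * s' := by group
      _ = s * (s * s') * s' := by rw [hsc s' hs'Q]
      _ = (s * s) * (s' * s') := by group
      _ = 1 := by rw [hs.2.2, hs'.2.2, one_mul]

end SetupNu

end Cfsg.Agent.Helper19
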