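import Mathlib
import Cfsg.Prelude.Def_LieRecognition
import Cfsg.Agent.Helper19.RankOneN

/-!
Helper19: the rank-one set-up, products of two involutions.
-/

set_option autoImplicit false
open scoped Pointwise

namespace Cfsg.Agent.Helper19

section SetupP

variable {G Ω : Type*} [Group G] [MulAction G Ω] {a : Ω} {t : G} {Q : Subgroup G}

/-- the set-up with `t` replaced by another involution swapping `a` and `t • a` -/
theorem ro_swap_setup (hS : Cfsg.IsRankOneSetup G Ω a t Q) {u : G} (hu2 : u * u = 1)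
    (hua : u • a = t • a) : Cfsg.IsRankOneSetup G Ω a u Q where
  two_transitive := hS.two_transitive
  mul_self := hu2
  ne_one := by
    rintro rfl
    rw [one_smul] at hua
    exact ro_b_ne hS hua.symm
  not_mem := by
    intro h
    rw [MulAction.mem_stabilizer_iff, hua] at h
    exact ro_b_ne hS h
  le := hS.le
  conj_mem := hS.conj_mem
  inf_eq_bot := by rw [hua]; exact hS.inf_eq_bot
  sup_eq := by rw [hua]; exact hS.sup_eq
  even_card := hS.even_card
  odd_card := by rw [hua]; exact hS.odd_card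

/-- a non-identity element of `D` inverted by an involution swapping `a` and `t • a` fixes
exactly the two points `a` and `t • a` -/
theorem ro_fix_of_inverted (hS : Cfsg.IsRankOneSetup G Ω a t Q) [Finite G] {x u : G}
    (hxD : x ∈ MulAction.stabilizer G a ⊓ MulAction.stabilizer G (t • a)) (hx1 : x ≠ 1)
    (hu2 : u * u = 1) (hua : u • a = t • a) (hinv : u * x * u⁻¹ = x⁻¹) {f : Ω}
    (hf : x • f = f) : f = a ∨ f = t • a := by
  have hS' := ro_swap_setup hS hu2 hua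
  have hxK : x ∈ Cfsg.invertedBy (MulAction.stabilizer G a ⊓ MulAction.stabilizer G (u • a)) u :=
    ⟨by rw [hua]; exact hxD, hinv⟩
  have hfpf := ro_K_fpf hS' hxK hx1
  by_contra hcon
  push Not at hcon
  obtain ⟨y, hy, hyf⟩ := ro_Q_trans hS hcon.1
  have hxD' := ro_mem_D.mp hxD
  have hxi : x⁻¹ • t • a = t • a := by rw [inv_smul_eq_iff, hxD'.2]
  have h1 : y⁻¹ * (x * y * x⁻¹) = 1 := by
    apply ro_Q_free hS (Q.mul_mem (Q.inv_mem hy) (hS.conj_mem x hxD.1 y hy)) (ro_b_ne hS)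
    rw [mul_smul, mul_smul, mul_smul, hxi, hyf, hf, inv_smul_eq_iff, hyf]
  have h2 : x * y = y * x := by
    calc x * y = y * (y⁻¹ * (x * y * x⁻¹)) * x := by group
      _ = y * x := by rw [h1, mul_one]
  have h3 : y ∈ Q ⊓ Subgroup.centralizer {x} := ⟨hy, mem_centralizer_singleton.mpr h2⟩
  rw [hfpf, Subgroup.mem_bot] at h3
  rw [h3, one_smul] at hyf
  exact hcon.2 hyf.symm

end SetupP

section SetupPu

universe u

variable {G : Type u} {Ω : Type*} [Group G] [MulAction G Ω] {a : Ω} {t : G} {Q : Subgroup G}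

/-- non-commuting involutions have different fixed points -/
theorem ro_fix_ne_of_not_comm (hS : Cfsg.IsRankOneSetup G Ω a t Q) [Finite G]
    (h2 : ∃ x y : G, x ≠ 1 ∧ y ≠ 1 ∧ x ≠ y ∧ x * x = 1 ∧ y * y = 1 ∧ x * y = y * x)
    {u v : G} (hu1 : u ≠ 1) (hu2 : u * u = 1) (hv1 : v ≠ 1) (hv2 : v * v = 1)
    (hx : (u * v) * (u * v) ≠ 1) {e : Ω} (hue : u • e = e) (hve : v • e = e) : False := by
  obtain ⟨g, hg⟩ := ro_exists_smul_eq hS e a
  have hgi : g⁻¹ • a = e := by rw [inv_smul_eq_iff, hg]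
  have hu' : g * u * g⁻¹ ∈ Cfsg.involutionsIn (MulAction.stabilizer G a : Set G) := by
    refine ⟨?_, conj_ne_one hu1, conj_mul_self hu2⟩
    show g * u * g⁻¹ ∈ MulAction.stabilizer G a
    rw [MulAction.mem_stabilizer_iff, mul_smul, mul_smul, hgi, hue, hg]
  have hv' : g * v * g⁻¹ ∈ Cfsg.involutionsIn (MulAction.stabilizer G a : Set G) := by
    refine ⟨?_, conj_ne_one hv1, conj_mul_self hv2⟩
    show g * v * g⁻¹ ∈ MulAction.stabilizer G a
    rw [MulAction.mem_stabilizer_iff, mul_smul, mul_smul, hgi, hve, hg]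
  obtain ⟨-, hc⟩ := ro_invol_central hS h2 hu'
  obtain ⟨hvQ, -⟩ := ro_invol_central hS h2 hv'
  have h1 := hc _ hvQ
  have h3 : u * v = v * u := by
    calc u * v = g⁻¹ * ((g * u * g⁻¹) * (g * v * g⁻¹)) * g := by group
      _ = g⁻¹ * ((g * v * g⁻¹) * (g * u * g⁻¹)) * g := by rw [h1]
      _ = v * u := by group
  apply hx
  calc u * v * (u * v) = u * (v * u) * v := by group
    _ = u * (u * v) * v := by rw [h3]
    _ = (u * u) * (v * v) := by group
    _ = 1 := by rw [hu2, hv2, one_mul]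

/-- **products of two involutions** -/
theorem ro_prod_invol (hS : Cfsg.IsRankOneSetup G Ω a t Q) [Finite G]
    (h2 : ∃ x y : G, x ≠ 1 ∧ y ≠ 1 ∧ x ≠ y ∧ x * x = 1 ∧ y * y = 1 ∧ x * y = y * x)
    {u v : G} (hu1 : u ≠ 1) (hu2 : u * u = 1) (hv1 : v ≠ 1) (hv2 : v * v = 1)
    (hx : (u * v) * (u * v) ≠ 1) :
    (∃ g : G, ∃ u' ∈ Cfsg.involutionsIn (MulAction.stabilizer G a : Set G),
        g * (u * v) * g⁻¹ = u' * t) ∧
      Odd (Nat.card ↥(Subgroup.centralizer {u * v})) := by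
  have hpair : ∀ {a b c d : Ω}, a ≠ b → c ≠ d → ∃ g : G, g • a = c ∧ g • b = d :=
    fun hab hcd => MulAction.is_two_pretransitive_iff.mp hS.two_transitive hab hcd
  obtain ⟨c₁, hc₁⟩ := ro_exists_fixed hS hu2
  obtain ⟨c₂, hc₂⟩ := ro_exists_fixed hS hv2
  have hc12 : c₁ ≠ c₂ := by
    rintro rfl
    exact ro_fix_ne_of_not_comm hS h2 hu1 hu2 hv1 hv2 hx hc₁ hc₂
  constructor
  · obtain ⟨c, hc, hca, hcb⟩ := ro_t_fixed hS
    obtain ⟨g, hg1, hg2⟩ := hpair hc12 hca.symm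
    have hgi1 : g⁻¹ • a = c₁ := by rw [inv_smul_eq_iff, hg1]
    have hgi2 : g⁻¹ • c = c₂ := by rw [inv_smul_eq_iff, hg2]
    obtain ⟨γ, hγ1, hγ2⟩ := hpair (ro_b_ne hS).symm hca
    have hγi1 : γ⁻¹ • c = a := by rw [inv_smul_eq_iff, hγ1]
    have hγi2 : γ⁻¹ • a = t • a := by rw [inv_smul_eq_iff, hγ2]
    have hs₁ : γ⁻¹ * (g * v * g⁻¹) * γ ∈ Cfsg.involutionsIn (MulAction.stabilizer G a : Set G) := by
      refine ⟨?_, ?_, ?_⟩
      · show γ⁻¹ * (g * v * g⁻¹) * γ ∈ MulAction.stabilizer G a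
        rw [MulAction.mem_stabilizer_iff, mul_smul, mul_smul, mul_smul, mul_smul, hγ1, hgi2, hc₂,
          hg2, hγi1]
      · have := conj_ne_one (g := γ⁻¹) (conj_ne_one (g := g) hv1)
        rwa [inv_inv] at this
      · have := conj_mul_self (g := γ⁻¹) (conj_mul_self (g := g) hv2)
        rwa [inv_inv] at this
    have hs₂ : γ⁻¹ * t * γ ∈ Cfsg.involutionsIn (MulAction.stabilizer G a : Set G) := by
      refine ⟨?_, ?_, ?_⟩
      · show γ⁻¹ * t * γ ∈ MulAction.stabilizer G a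
        rw [MulAction.mem_stabilizer_iff, mul_smul, mul_smul, hγ1, hc, hγi1]
      · have := conj_ne_one (g := γ⁻¹) hS.ne_one
        rwa [inv_inv] at this
      · have := conj_mul_self (g := γ⁻¹) hS.mul_self
        rwa [inv_inv] at this
    obtain ⟨k, hk, hks⟩ := ro_K_surj hS hs₁ hs₂
    have hkD := ro_mem_D.mp hk.1
    have hki : k⁻¹ • t • a = t • a := by rw [inv_smul_eq_iff, hkD.2]
    have hha : (γ * k⁻¹ * γ⁻¹) • a = a := by
      rw [mul_smul, mul_smul, hγi2, hki, hγ2]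
    have hhv : (γ * k⁻¹ * γ⁻¹) * (g * v * g⁻¹) * (γ * k⁻¹ * γ⁻¹)⁻¹ = t := by
      calc (γ * k⁻¹ * γ⁻¹) * (g * v * g⁻¹) * (γ * k⁻¹ * γ⁻¹)⁻¹
          = γ * (k⁻¹ * (γ⁻¹ * (g * v * g⁻¹) * γ) * k) * γ⁻¹ := by group
        _ = γ * (γ⁻¹ * t * γ) * γ⁻¹ := by rw [hks]
        _ = t := by group
    refine ⟨(γ * k⁻¹ * γ⁻¹) * g, (γ * k⁻¹ * γ⁻¹) * (g * u * g⁻¹) * (γ * k⁻¹ * γ⁻¹)⁻¹,
      ⟨?_, conj_ne_one (conj_ne_one hu1), conj_mul_self (conj_mul_self hu2)⟩, ?_⟩
    · show (γ * k⁻¹ * γ⁻¹) * (g * u * g⁻¹) * (γ * k⁻¹ * γ⁻¹)⁻¹ ∈ MulAction.stabilizer G a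
      have h1 : (γ * k⁻¹ * γ⁻¹) ∈ MulAction.stabilizer G a := MulAction.mem_stabilizer_iff.mpr hha
      have h3 : g * u * g⁻¹ ∈ MulAction.stabilizer G a := by
        rw [MulAction.mem_stabilizer_iff, mul_smul, mul_smul, hgi1, hc₁, hg1]
      exact Subgroup.mul_mem _ (Subgroup.mul_mem _ h1 h3) (Subgroup.inv_mem _ h1)
    · rw [← hhv]
      group
  · by_contra hodd
    rw [Nat.not_odd_iff_even] at hodd
    haveI : Fact (Nat.Prime 2) := ⟨Nat.prime_two⟩
    obtain ⟨w', hw'⟩ := exists_prime_orderOf_dvd_card' 2 (even_iff_two_dvd.mp hodd)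
    have hw1 : (w' : G) ≠ 1 := by
      intro h
      have h3 : w' = 1 := Subtype.ext h
      rw [h3, orderOf_one] at hw'
      omega
    have hw2 : (w' : G) * (w' : G) = 1 := by
      have h3 : w' ^ 2 = 1 := by rw [← hw']; exact pow_orderOf_eq_one w'
      rw [pow_two] at h3
      simpa using congrArg Subtype.val h3
    have hwx : (u * v) * (w' : G) = (w' : G) * (u * v) := mem_centralizer_singleton.mp w'.2
    set w : G := (w' : G) with hwdef
    obtain ⟨e, he⟩ := ro_exists_fixed hS hw2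
    have hxe : (u * v) • e = e := by
      apply ro_invol_fix_unique hS hw1 hw2 he
      rw [← mul_smul, ← hwx, mul_smul, he]
    have hue' : u • v • e = e := by rw [← mul_smul]; exact hxe
    have hue : u • e = v • e := by
      have h3 : u • u • v • e = v • e := by rw [← mul_smul, hu2, one_smul]
      rw [hue'] at h3
      exact h3
    have hve' : v • v • e = e := by rw [← mul_smul, hv2, one_smul]
    have hne : e ≠ v • e := by
      intro h
      have h3 : v • e = e := h.symm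
      have h4 : u • e = e := by rw [hue, h3]
      have h5 := ro_invol_fix_unique hS hu1 hu2 hc₁ h4
      have h6 := ro_invol_fix_unique hS hv1 hv2 hc₂ h3
      exact hc12 (h5.symm.trans h6)
    obtain ⟨g, hg1, hg2⟩ := hpair hne (ro_b_ne hS).symm
    have hgi1 : g⁻¹ • a = e := by rw [inv_smul_eq_iff, hg1]
    have hgi2 : g⁻¹ • t • a = v • e := by rw [inv_smul_eq_iff, hg2]
    have hxD : g * (u * v) * g⁻¹ ∈ MulAction.stabilizer G a ⊓ MulAction.stabilizer G (t • a) := by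
      rw [ro_mem_D]
      constructor
      · rw [mul_smul, mul_smul, hgi1, hxe, hg1]
      · rw [mul_smul, mul_smul, hgi2, mul_smul, hve', hue, hg2]
    have hx1 : g * (u * v) * g⁻¹ ≠ 1 := by
      apply conj_ne_one
      intro h
      apply hx
      rw [h, one_mul]
    have hua : (g * u * g⁻¹) • a = t • a := by
      rw [mul_smul, mul_smul, hgi1, hue, hg2]
    have hinv : (g * u * g⁻¹) * (g * (u * v) * g⁻¹) * (g * u * g⁻¹)⁻¹ = (g * (u * v) * g⁻¹)⁻¹ := by
      have hui : u⁻¹ = u := inv_eq_self_of_mul_self hu2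
      have hvi : v⁻¹ = v := inv_eq_self_of_mul_self hv2
      calc (g * u * g⁻¹) * (g * (u * v) * g⁻¹) * (g * u * g⁻¹)⁻¹
          = g * ((u * u) * v * u⁻¹) * g⁻¹ := by group
        _ = g * (v⁻¹ * u⁻¹) * g⁻¹ := by rw [hu2, one_mul, hui, hvi]
        _ = (g * (u * v) * g⁻¹)⁻¹ := by group
    have hwa : (g * w * g⁻¹) • a = a := by
      rw [mul_smul, mul_smul, hgi1, he, hg1]
    have hwcomm : (g * (u * v) * g⁻¹) * (g * w * g⁻¹) = (g * w * g⁻¹) * (g * (u * v) * g⁻¹) := by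
      calc (g * (u * v) * g⁻¹) * (g * w * g⁻¹) = g * ((u * v) * w) * g⁻¹ := by group
        _ = g * (w * (u * v)) * g⁻¹ := by rw [hwx]
        _ = (g * w * g⁻¹) * (g * (u * v) * g⁻¹) := by group
    have hfix : (g * (u * v) * g⁻¹) • ((g * w * g⁻¹) • t • a) = (g * w * g⁻¹) • t • a := by
      rw [← mul_smul, hwcomm, mul_smul, (ro_mem_D.mp hxD).2]
    have hw'1 : g * w * g⁻¹ ≠ 1 := conj_ne_one hw1
    have hw'2 : (g * w * g⁻¹) * (g * w * g⁻¹) = 1 := conj_mul_self hw2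
    rcases ro_fix_of_inverted hS hxD hx1 (conj_mul_self hu2) hua hinv hfix with h | h
    · have h3 : (g * w * g⁻¹) • t • a = (g * w * g⁻¹) • a := by rw [h, hwa]
      exact ro_b_ne hS (smul_left_cancel _ h3)
    · exact ro_b_ne hS (ro_invol_fix_unique hS hw'1 hw'2 hwa h)

end SetupPu

end Cfsg.Agent.Helper19
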