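import Mathlib
import Cfsg.Agent.Helper5.SL2Sylow
import Cfsg.Agent.Helper87.S2788Defs

/-!
# Piece D of CALL S2788 (helper87): the `(-1)`-eigenspace of the central involution of `SL₂(F)`
on a module with a quadratic root element is `C(u(s)) ⊕ C(l(-s⁻¹))`.
-/

set_option autoImplicit false

namespace Cfsg.Agent.Helper19

open Cfsg.Agent Cfsg.Agent.Helper87

/-- abstract core: `z` central, `n * n = z`, `n * a = b * n`, `a` quadratic, odd exponent. -/
theorem s2788D_core {Γ : Type*} [Group Γ] {M : Type*} [AddCommGroup M] [Finite M]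
    [DistribMulAction Γ M] (z a b n : Γ)
    (hzc : ∀ g : Γ, z * g = g * z) (hn2 : n * n = z) (hna : n * a = b * n) (hn : n = a * b * a)
    (k : ℕ) (hp : ∀ m : M, (2 * k + 1) • m = 0)
    (hquad : ∀ m : M, a • (a • m - m) = a • m - m) :
    Nat.card {m : M // z • m = -m} = Nat.card {m : M // z • m = -m ∧ a • m = m} ^ 2 := by
  classical
  -- group identities
  have hnb : n * b = a * n := by
    have h1 : n * b * n = a * n * n := by
      calc n * b * n = n * (b * n) := by rw [mul_assoc]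
        _ = n * (n * a) := by rw [hna]
        _ = (n * n) * a := by rw [mul_assoc]
        _ = z * a := by rw [hn2]
        _ = a * z := hzc a
        _ = a * (n * n) := by rw [hn2]
        _ = a * n * n := by rw [mul_assoc]
    exact mul_right_cancel h1
  have hani : a * n⁻¹ = n⁻¹ * b := by
    have h1 : n * (a * n⁻¹) = n * (n⁻¹ * b) := by
      rw [← mul_assoc, hna, mul_inv_cancel_right, mul_inv_cancel_left]
    exact mul_left_cancel h1
  have hbeq : b = n * a * n⁻¹ := by rw [hna, mul_inv_cancel_right]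
  -- torsion
  have h2 : ∀ m : M, m + m = 0 → m = 0 := by
    intro m hm
    have h := hp m
    have h3 : (2 * k + 1) • m = k • (m + m) + m := by
      rw [add_smul, one_smul, mul_comm, mul_smul, two_smul]
    rw [h3, hm, smul_zero, zero_add] at h
    exact h
  have hhalf : ∀ m : M, m = (k + 1) • (m + m) := by
    intro m
    have h := hp m
    have h3 : (k + 1) • (m + m) = (2 * k + 1) • m + m := by
      rw [← two_smul ℕ m, smul_smul, add_smul (2 * k) 1 m, one_smul]
      have h4 : (k + 1) * 2 = 2 * k + 1 + 1 := by ring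
      rw [h4, add_smul, add_smul, one_smul]
    rw [h3, h, zero_add]
  -- `b` is quadratic
  have hquadb : ∀ m : M, b • (b • m - m) = b • m - m := by
    intro m
    have h1 : b • m - m = n • (a • (n⁻¹ • m) - n⁻¹ • m) := by
      have e1 : n • (a • (n⁻¹ • m)) = b • m := by
        rw [← mul_smul, ← mul_smul, ← hbeq]
      have e2 : n • (n⁻¹ • m) = m := by rw [← mul_smul, mul_inv_cancel, one_smul]
      rw [smul_sub, e1, e2]
    rw [h1, ← mul_smul, ← hna, mul_smul, hquad]
  -- the eigenspace is invariant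
  have hMg : ∀ (g : Γ) (m : M), z • m = -m → z • (g • m) = -(g • m) := by
    intro g m hm
    rw [← mul_smul, hzc g, mul_smul, hm, smul_neg]
  have hMsub : ∀ m m' : M, z • m = -m → z • m' = -m' → z • (m - m') = -(m - m') := by
    intro m m' hm hm'
    rw [smul_sub, hm, hm']; abel
  have hMadd : ∀ m m' : M, z • m = -m → z • m' = -m' → z • (m + m') = -(m + m') := by
    intro m m' hm hm'
    rw [smul_add, hm, hm']; abel
  -- the two fixed spaces
  let Xs : AddSubgroup M :=
    { carrier := {m | z • m = -m ∧ a • m = m}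
      add_mem' := by
        intro x y hx hy
        exact ⟨hMadd x y hx.1 hy.1, by rw [smul_add, hx.2, hy.2]⟩
      zero_mem' := ⟨by rw [smul_zero, neg_zero], by rw [smul_zero]⟩
      neg_mem' := by
        intro x hx
        exact ⟨by rw [smul_neg, hx.1], by rw [smul_neg, hx.2]⟩ }
  let Ys : AddSubgroup M :=
    { carrier := {m | z • m = -m ∧ b • m = m}
      add_mem' := by
        intro x y hx hy
        exact ⟨hMadd x y hx.1 hy.1, by rw [smul_add, hx.2, hy.2]⟩
      zero_mem' := ⟨by rw [smul_zero, neg_zero], by rw [smul_zero]⟩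
      neg_mem' := by
        intro x hx
        exact ⟨by rw [smul_neg, hx.1], by rw [smul_neg, hx.2]⟩ }
  have hXmem : ∀ m : M, m ∈ Xs ↔ (z • m = -m ∧ a • m = m) := fun m => Iff.rfl
  have hYmem : ∀ m : M, m ∈ Ys ↔ (z • m = -m ∧ b • m = m) := fun m => Iff.rfl
  have haX : ∀ m : M, z • m = -m → a • m - m ∈ Xs := by
    intro m hm
    exact (hXmem _).mpr ⟨hMsub _ _ (hMg a m hm) hm, hquad m⟩
  have hbY : ∀ m : M, z • m = -m → b • m - m ∈ Ys := by
    intro m hm
    exact (hYmem _).mpr ⟨hMsub _ _ (hMg b m hm) hm, hquadb m⟩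
  have hnXY : ∀ x : M, x ∈ Xs → n • x ∈ Ys := by
    intro x hx
    rw [hXmem] at hx
    refine (hYmem _).mpr ⟨hMg n x hx.1, ?_⟩
    rw [← mul_smul, ← hna, mul_smul, hx.2]
  have hnYX : ∀ y : M, y ∈ Ys → n • y ∈ Xs := by
    intro y hy
    rw [hYmem] at hy
    refine (hXmem _).mpr ⟨hMg n y hy.1, ?_⟩
    rw [← mul_smul, ← hnb, mul_smul, hy.2]
  have hniYX : ∀ y : M, y ∈ Ys → n⁻¹ • y ∈ Xs := by
    intro y hy
    rw [hYmem] at hy
    refine (hXmem _).mpr ⟨hMg n⁻¹ y hy.1, ?_⟩
    rw [← mul_smul, hani, mul_smul, hy.2]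
  have hXY0 : ∀ d : M, d ∈ Xs → d ∈ Ys → d = 0 := by
    intro d hdX hdY
    rw [hXmem] at hdX
    rw [hYmem] at hdY
    have h1 : n • d = d := by
      rw [hn, mul_smul, mul_smul, hdX.2, hdY.2, hdX.2]
    have h3 : z • d = d := by
      rw [← hn2, mul_smul, h1, h1]
    have h4 : d + d = 0 := by
      have h5 : d = -d := by rw [← hdX.1, h3]
      calc d + d = d + -d := by rw [← h5]
        _ = 0 := add_neg_cancel d
    exact h2 d h4
  -- the bijection
  let f : Xs × Xs → {m : M // z • m = -m} := fun q =>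
    ⟨(q.1 : M) + n • (q.2 : M), hMadd _ _ ((hXmem _).mp q.1.2).1
      (hMg n _ ((hXmem _).mp q.2.2).1)⟩
  have hfinj : Function.Injective f := by
    rintro ⟨⟨x, hx⟩, ⟨x', hx'⟩⟩ ⟨⟨y, hy⟩, ⟨y', hy'⟩⟩ h
    have h1 : x + n • x' = y + n • y' := congrArg Subtype.val h
    have h3 : x - y = n • (y' - x') := by
      rw [smul_sub]
      have h4 : x - y = (x + n • x') - (y + n • x') := by abel
      rw [h4, h1]; abel
    have hd1 : x - y ∈ Xs := Xs.sub_mem hx hy
    have hd2 : x - y ∈ Ys := by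
      rw [h3]
      exact hnXY _ (Xs.sub_mem hy' hx')
    have h5 : x - y = 0 := hXY0 _ hd1 hd2
    have h6 : x = y := sub_eq_zero.mp h5
    have h7 : n • (y' - x') = 0 := by rw [← h3, h5]
    have h8 : y' - x' = 0 := by
      have h9 : n⁻¹ • (n • (y' - x')) = y' - x' := by
        rw [← mul_smul, inv_mul_cancel, one_smul]
      rw [← h9, h7, smul_zero]
    have h10 : y' = x' := sub_eq_zero.mp h8
    subst h6
    subst h10
    rfl
  have hfsurj : Function.Surjective f := by
    rintro ⟨m, hm⟩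
    -- n m = m + x₁ + y₁
    have hm1 : z • (a • m) = -(a • m) := hMg a m hm
    have hm2 : z • (b • (a • m)) = -(b • (a • m)) := hMg b _ hm1
    have hx1 : (a • (b • (a • m)) - b • (a • m)) + (a • m - m) ∈ Xs :=
      Xs.add_mem (haX _ hm2) (haX _ hm)
    have hy1 : b • (a • m) - a • m ∈ Ys := hbY _ hm1
    set x₁ : M := (a • (b • (a • m)) - b • (a • m)) + (a • m - m) with hx₁
    set y₁ : M := b • (a • m) - a • m with hy₁
    have hnm : n • m = m + x₁ + y₁ := by
      rw [hn, mul_smul, mul_smul, hx₁, hy₁]; abel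
    have hzm : z • m = m + (x₁ + n • y₁) + (y₁ + n • x₁) := by
      rw [← hn2, mul_smul, hnm, smul_add, smul_add, hnm]; abel
    have hx2 : x₁ + n • y₁ ∈ Xs := Xs.add_mem hx1 (hnYX _ hy1)
    have hy2 : y₁ + n • x₁ ∈ Ys := Ys.add_mem hy1 (hnXY _ hx1)
    have h2m : m + m = -(x₁ + n • y₁) + -(y₁ + n • x₁) := by
      have h1 : -m = m + (x₁ + n • y₁) + (y₁ + n • x₁) := by rw [← hm, hzm]
      have h3 : m + m = m - (-m) := by abel
      rw [h3, h1]; abel
    have hmdec : m = (k + 1) • (-(x₁ + n • y₁)) + (k + 1) • (-(y₁ + n • x₁)) := by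
      rw [← smul_add, ← h2m]
      exact hhalf m
    have hxx : (k + 1) • (-(x₁ + n • y₁)) ∈ Xs := Xs.nsmul_mem (Xs.neg_mem hx2) _
    have hyy : (k + 1) • (-(y₁ + n • x₁)) ∈ Ys := Ys.nsmul_mem (Ys.neg_mem hy2) _
    refine ⟨(⟨_, hxx⟩, ⟨_, hniYX _ hyy⟩), ?_⟩
    apply Subtype.ext
    show (k + 1) • (-(x₁ + n • y₁)) + n • (n⁻¹ • ((k + 1) • (-(y₁ + n • x₁)))) = m
    rw [← mul_smul, mul_inv_cancel, one_smul]
    exact hmdec.symm
  have hcard : Nat.card {m : M // z • m = -m} = Nat.card (Xs × Xs) :=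
    (Nat.card_congr (Equiv.ofBijective f ⟨hfinj, hfsurj⟩)).symm
  have hX : Nat.card Xs = Nat.card {m : M // z • m = -m ∧ a • m = m} :=
    Nat.card_congr (Equiv.subtypeEquivRight (fun _ => Iff.rfl))
  rw [hcard, Nat.card_prod, hX, pow_two]

theorem s2788_decomp {F : Type*} [Field F] {M : Type*} [AddCommGroup M] [Finite M]
    [DistribMulAction (Matrix.SpecialLinearGroup (Fin 2) F) M]
    (p : ℕ) (hp2 : Odd p) (hp : ∀ m : M, p • m = 0) (s : F) (hs : s ≠ 0)
    (hquad : ∀ m : M, Helper5.uSL s • (Helper5.uSL s • m - m) = Helper5.uSL s • m - m) :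
    Nat.card {m : M // negOneSL F • m = -m} =
      Nat.card {m : M // negOneSL F • m = -m ∧ Helper5.uSL s • m = m} ^ 2 := by
  obtain ⟨k, hk⟩ := hp2
  subst hk
  exact s2788D_core (negOneSL F) (Helper5.uSL s) (Helper5.lSL (-s⁻¹))
    (Helper5.uSL s * Helper5.lSL (-s⁻¹) * Helper5.uSL s) (negOneSL_comm F)
    (negOneSL_eq_sq F s hs) (lSL_eq_conj_uSL F s hs) rfl k hp hquad

end Cfsg.Agent.Helper19
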