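/-
Sub-CALL S88OE (helper43) of CALL S88 (row S5988), piece ADDFIX (double), by helper19.
`V' := V₀ × V₁`, `Q' := Q₀.prod Q₁`, `T' := (1 : Module.End F V₀).prodMap T₁` with `(V₀, Q₀)` from
MODEL0; the subspaces are `⊤.prod U` and `⊥.prod U`.
-/
import Mathlib
import Cfsg.Prelude.Def_GeometricClasses
import Cfsg.Prelude.Def_Classical
import Cfsg.Agent.Helper35.S88Defs
import Cfsg.Agent.Helper58.TSDefs
import Cfsg.Agent.Helper43.PrimeOrdO3
import Cfsg.Agent.Helper33.OType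
import Cfsg.Agent.Helper43.S88OEDefs
import Cfsg.Agent.Helper93.TBTYPEPROD
import Cfsg.Agent.Helper93.TBPROD
import Cfsg.Agent.Helper10.S88OEPSND
import Cfsg.Agent.Helper6.S88OEPSDIM
import Cfsg.Agent.Helper98.S88OEPSTYPE
import Cfsg.Agent.Helper23.S88OEPSTOP
import Cfsg.Agent.Helper50.S88OEMODEL0

set_option autoImplicit false

namespace Cfsg.Agent.Helper19.S88OE

open Module Polynomial Cfsg Cfsg.Geo Cfsg.Agent.Helper58.TS Cfsg.Agent.Helper35.S88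
open Cfsg.Agent.Helper43 Cfsg.Agent.Helper43.OrthEven Cfsg.Agent.Helper43.CycFactors
  Cfsg.Agent.Helper43.PrimeOrdMat Cfsg.Agent.Helper43.S88OE
open scoped MatrixGroups

universe u

section fin

variable {F : Type u} [Field F] [Fintype F]

/-- ADDFIX [M]: add a fixed space of dimension `2 k` and type `b` to a space with an isometry and an
invariant nondegenerate subspace `U`. -/
theorem oe_add_fix {V₁ : Type u} [AddCommGroup V₁] [Module F V₁] [FiniteDimensional F V₁]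
    (Q₁ : QuadraticForm F V₁) (T₁ : Module.End F V₁) (hnd : PolarNondeg Q₁)
    (hT : ∀ v, Q₁ (T₁ v) = Q₁ v) (n₁ : ℕ) (hV₁ : finrank F V₁ = 2 * n₁) (U : Submodule F V₁)
    (hU : U.map T₁ ≤ U) (hUnd : PolarNondeg (Q₁.comp U.subtype)) (u : ℕ)
    (hUdim : finrank F U = 2 * u) (k : ℕ) (b : Prop) (hb : k = 0 → b) :
    ∃ (V' : Type u) (_ : AddCommGroup V') (_ : Module F V') (_ : FiniteDimensional F V')
      (Q' : QuadraticForm F V') (T' : Module.End F V'),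
      PolarNondeg Q' ∧ (∀ v, Q' (T' v) = Q' v) ∧ finrank F V' = 2 * (k + n₁) ∧
      (HasTS Q' (k + n₁) ↔ (b ↔ HasTS Q₁ n₁)) ∧
      T'.charpoly = (X - 1) ^ (2 * k) * T₁.charpoly ∧
      (∀ N, T₁ ^ N = 1 → T' ^ N = 1) ∧ (T₁ ≠ 1 → T' ≠ 1) ∧
      (∃ W : Submodule F V', W.map T' ≤ W ∧ PolarNondeg (Q'.comp W.subtype) ∧
        finrank F W = 2 * (k + u) ∧
        (HasTS (Q'.comp W.subtype) (k + u) ↔ (b ↔ HasTS (Q₁.comp U.subtype) u))) ∧
      (∃ W : Submodule F V', W.map T' ≤ W ∧ PolarNondeg (Q'.comp W.subtype) ∧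
        finrank F W = 2 * u ∧ (HasTS (Q'.comp W.subtype) u ↔ HasTS (Q₁.comp U.subtype) u)) := by
  obtain ⟨V₀, i1, i2, i3, Q₀, hnd₀, hdim₀, htype₀⟩ := Cfsg.Agent.Helper50.S88OE.oe_model0 (F := F) k b hb
  obtain ⟨htopnd, htopts, hbotnd, hbotts⟩ := Cfsg.Agent.Helper23.S88OE.oe_top_bot Q₀
  have hpow : ∀ N : ℕ, ((1 : Module.End F V₀).prodMap T₁) ^ N =
      (1 : Module.End F V₀).prodMap (T₁ ^ N) := by
    intro N
    induction N with
    | zero => rw [pow_zero, pow_zero]; rfl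
    | succ n ih => rw [pow_succ, ih, LinearMap.prodMap_mul, one_mul, ← pow_succ]
  refine ⟨V₀ × V₁, inferInstance, inferInstance, inferInstance, Q₀.prod Q₁,
    (1 : Module.End F V₀).prodMap T₁, ?_, ?_, ?_, ?_, ?_, ?_, ?_, ?_, ?_⟩
  · exact Cfsg.Agent.Helper93.TB.tb_prod_nd Q₀ Q₁ hnd₀ hnd
  · rintro ⟨a, c⟩
    rw [QuadraticMap.prod_apply, QuadraticMap.prod_apply]
    show Q₀ a + Q₁ (T₁ c) = Q₀ a + Q₁ c
    rw [hT]
  · rw [Module.finrank_prod, hdim₀, hV₁]; ring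
  · rw [Cfsg.Agent.Helper93.TB.tb_type_prod Q₀ Q₁ hnd₀ hnd k n₁ hdim₀ hV₁, htype₀]
  · rw [LinearMap.charpoly_prodMap, LinearMap.charpoly_one, hdim₀]
  · intro N hN
    rw [hpow, hN]
    rfl
  · intro hne h1
    apply hne
    apply LinearMap.ext
    intro c
    have h := congrArg (fun f : Module.End F (V₀ × V₁) => (f (0, c)).2) h1
    exact h
  · refine ⟨(⊤ : Submodule F V₀).prod U, ?_, ?_, ?_, ?_⟩
    · rintro _ ⟨⟨a, c⟩, hac, rfl⟩
      have hac' := Submodule.mem_prod.mp (show (a, c) ∈ (⊤ : Submodule F V₀).prod U from hac)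
      exact Submodule.mem_prod.mpr ⟨Submodule.mem_top, hU ⟨c, hac'.2, rfl⟩⟩
    · exact (Cfsg.Agent.Helper10.S88OE.oe_prod_sub_nd Q₀ Q₁ ⊤ U).mpr ⟨htopnd.mpr hnd₀, hUnd⟩
    · rw [Cfsg.Agent.Helper6.S88OE.oe_prod_sub_dim, finrank_top, hdim₀, hUdim]; ring
    · rw [Cfsg.Agent.Helper98.S88OE.oe_prod_sub_type Q₀ Q₁ ⊤ U (htopnd.mpr hnd₀) hUnd k u (by rw [finrank_top]; exact hdim₀)
        hUdim, htopts k, htype₀]
  · refine ⟨(⊥ : Submodule F V₀).prod U, ?_, ?_, ?_, ?_⟩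
    · rintro _ ⟨⟨a, c⟩, hac, rfl⟩
      have hac' := Submodule.mem_prod.mp (show (a, c) ∈ (⊥ : Submodule F V₀).prod U from hac)
      refine Submodule.mem_prod.mpr ⟨?_, hU ⟨c, hac'.2, rfl⟩⟩
      exact hac'.1
    · exact (Cfsg.Agent.Helper10.S88OE.oe_prod_sub_nd Q₀ Q₁ ⊥ U).mpr ⟨hbotnd, hUnd⟩
    · rw [Cfsg.Agent.Helper6.S88OE.oe_prod_sub_dim, finrank_bot, zero_add, hUdim]
    · have h := Cfsg.Agent.Helper98.S88OE.oe_prod_sub_type Q₀ Q₁ ⊥ U hbotnd hUnd 0 u (by rw [finrank_bot]) hUdim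
      rw [zero_add] at h
      rw [h]
      exact ⟨fun h' => h'.mp hbotts, fun hx => ⟨fun _ => hx, fun _ => hbotts⟩⟩

end fin

end Cfsg.Agent.Helper19.S88OE
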