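/-
CALL S90 (helper98; row S5990), stage OOG (double), by helper19.
Port of helper96's `s88g_odd_good` / `s74g_odd_good` (Helper96/S88Good.lean, S74Good.lean) to an
ambient form of MINUS type: `V = Fx ⊥ P`, `P` hyperbolic of dimension `2 i ρ`, `Fx` of minus type
(so `Fx ≠ 0`); `W = X ⊥ N₁` with `N₁ ≤ P` invariant of dimension `2 i h₁` and `X ≤ Fx` elliptic of
dimension `w = m - 2 i h₁`, `0 < w ≤ dim Fx` (`X = Fx` when `w = dim Fx`).
-/
import Mathlib
import Cfsg.Prelude.Def_GeometricClasses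
import Cfsg.Prelude.Def_Classical
import Cfsg.Agent.Helper35.S88Defs
import Cfsg.Agent.Helper35.TSSTDM
import Cfsg.Agent.Helper80.S88SCAL
import Cfsg.Agent.Helper97.OForm
import Cfsg.Agent.Helper96.OHAux
import Cfsg.Agent.Helper96.S88Good

set_option autoImplicit false
set_option linter.unusedSectionVars false
set_option linter.unusedVariables false

namespace Cfsg.Agent.Helper19.S90G

open Module Polynomial Cfsg Cfsg.Geo
open Cfsg.Agent.Helper13.TIu Cfsg.Agent.Helper96.OH Cfsg.Agent.Helper96.OHAll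
  Cfsg.Agent.Helper96.S88G

variable {ι : Type} [Fintype ι] [DecidableEq ι] {F : Type*} [Field F] (Q : (ι → F) → F)

/-- OOG for an ambient form of minus type, generic: `i` odd. -/
theorem s90g_odd_good [Fintype F] (hQ : IsNondegenerateQuadraticForm Q) (d m : ℕ)
    (hcard : Fintype.card ι = 2 * d) (hmin : ¬ OPl Q ⊤) (hm : 2 ≤ m) (hme : Even m)
    (hmn : m + 2 ≤ 2 * d)
    (T : Module.End F (ι → F)) (hT : OPres Q T) (r : ℕ) [Fact r.Prime] (hr2 : 2 < r)
    (hrF : (r : F) ≠ 0) (hTr : T ^ r = 1) (i : ℕ)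
    (hi : i = orderOf ((Fintype.card F : ℕ) : ZMod r)) (hodd : Odd i)
    (hcond : (2 * d) % (2 * i) = 0 ∨
      (2 * i ≤ m ∧ 0 < m % (2 * i) ∧ m % (2 * i) ≤ (2 * d) % (2 * i))) :
    ∃ W : Submodule F (ι → F), (finrank F W = m ∧ ONd Q W ∧ ¬ OPl Q W) ∧ W.map T ≤ W := by
  obtain ⟨c, hc2⟩ : ∃ c, c = 2 * i := ⟨_, rfl⟩
  have hc : c = if Even i then i else 2 * i := by
    rw [if_neg (Nat.not_even_iff_odd.mpr hodd)]
    exact hc2
  rw [← hc2] at hcond
  have hi0 : 0 < i := by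
    obtain ⟨k, hk⟩ := hodd
    omega
  have hc0 : 0 < c := by omega
  have hceven : Even c := by
    rw [hc2]
    exact even_two_mul i
  obtain ⟨ρ, Fx, P, hρ, hn, hFx, hP, horth, hsup, hfix, hPT, hPk, -, hsub⟩ :=
    s88g_split Q hQ T hT r hr2 hrF hTr i c hi hc
  have hPpl : OPl Q P :=
    oall_type_odd Q hQ T hT r hr2 hrF hTr (by rw [← hi]; exact hodd) P hPT hP hPk
  have hPeven : Even (finrank F P) := by
    rw [hρ]
    exact hceven.mul_right ρ
  have hFxeven : Even (finrank F Fx) := by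
    have h1 : Even (finrank F P + finrank F Fx) := by
      rw [hn, hcard]
      exact even_two_mul d
    exact (Nat.even_add.mp h1).mp hPeven
  -- `Fx` is of minus type
  have hFxmin : ¬ OPl Q Fx := by
    intro hpl
    have h1 := Cfsg.Agent.Helper33.o_type_mul Q hQ Fx P hFx hP horth hFxeven hPeven
    rw [hsup] at h1
    exact hmin (h1.mpr (iff_of_true hpl hPpl))
  have hFxdim : finrank F Fx = 2 * (d - i * ρ) := by
    have h1 : c * ρ = 2 * (i * ρ) := by
      rw [hc2]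
      ring
    omega
  -- `Fx ≠ ⊥`
  have hFxpos : 0 < finrank F Fx := by
    by_contra hcon
    have h0 : finrank F Fx = 0 := by omega
    have hbot : Fx = ⊥ := Submodule.finrank_eq_zero.mp h0
    rw [hbot, bot_sup_eq] at hsup
    rw [hsup] at hPpl
    exact hmin hPpl
  have hcρ : c * ρ + finrank F Fx = 2 * d := by
    rw [← hρ, hn, hcard]
  -- the choice of `h₁`
  obtain ⟨h₁, hh₁ρ, hlt, hwle⟩ :
      ∃ h₁, h₁ ≤ ρ ∧ c * h₁ < m ∧ m - c * h₁ ≤ finrank F Fx := by
    rcases hcond with hA | ⟨hcm, hmc0, hmc⟩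
    · have hdvd : c ∣ finrank F Fx := by
        have h1 : c ∣ 2 * d := Nat.dvd_of_mod_eq_zero hA
        have h2 : c ∣ c * ρ + finrank F Fx := by
          rw [hcρ]
          exact h1
        exact (Nat.dvd_add_right (dvd_mul_right c ρ)).mp h2
      have hge : c ≤ finrank F Fx := Nat.le_of_dvd hFxpos hdvd
      rcases le_or_gt ((m - 1) / c) ρ with hle' | hgt
      · refine ⟨(m - 1) / c, hle', ?_, ?_⟩
        · have h3 := Nat.mul_div_le (m - 1) c
          omega
        · have h3 := Nat.div_add_mod (m - 1) c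
          have h4 := Nat.mod_lt (m - 1) hc0
          omega
      · refine ⟨ρ, le_rfl, ?_, ?_⟩
        · have h1 : c * (ρ + 1) ≤ c * ((m - 1) / c) := Nat.mul_le_mul_left c hgt
          have h2 := Nat.mul_div_le (m - 1) c
          rw [Nat.mul_succ] at h1
          omega
        · omega
    · rcases le_or_gt (m / c) ρ with hle' | hgt
      · refine ⟨m / c, hle', ?_, ?_⟩
        · have h3 := Nat.div_add_mod m c
          omega
        · have h3 := Nat.div_add_mod m c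
          have h4 : (2 * d) % c ≤ finrank F Fx := by
            rw [← hcρ, Nat.mul_add_mod]
            exact Nat.mod_le _ _
          omega
      · refine ⟨ρ, le_rfl, ?_, ?_⟩
        · have h1 : c * (ρ + 1) ≤ c * (m / c) := Nat.mul_le_mul_left c hgt
          have h2 := Nat.mul_div_le m c
          rw [Nat.mul_succ] at h1
          omega
        · omega
  obtain ⟨N₁, hN₁P, hN₁T, hN₁, hN₁dim, hN₁k⟩ := hsub h₁ hh₁ρ
  have hle : c * h₁ ≤ m := hlt.le
  have hN₁pl : OPl Q N₁ :=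
    oall_type_odd Q hQ T hT r hr2 hrF hTr (by rw [← hi]; exact hodd) N₁ hN₁T hN₁ hN₁k
  have hN₁even : Even (finrank F N₁) := by
    rw [hN₁dim]
    exact hceven.mul_right h₁
  have he₁even : Even (m - c * h₁) :=
    (Nat.even_sub hle).mpr ⟨fun _ => hceven.mul_right h₁, fun _ => hme⟩
  have hwpos : 0 < m - c * h₁ := by omega
  rcases Nat.lt_or_ge (m - c * h₁) (finrank F Fx) with he₁lt | hwge
  · obtain ⟨X, hXFx, hX, hXdim, hXty⟩ :=
      Cfsg.Agent.Helper35.EL.el_sub Q hQ Fx hFx (d - i * ρ) hFxdim (m - c * h₁) he₁even hwpos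
        (by rw [← hFxdim]; exact he₁lt) False
    have horthX : OOrth Q X N₁ := fun u hu v hv => horth u (hXFx hu) v (hN₁P hv)
    refine ⟨X ⊔ N₁, ⟨?_, ?_, ?_⟩, ?_⟩
    · rw [Cfsg.Agent.Helper33.OType.finrank_sup_of_orth Q X N₁ hX horthX, hXdim, hN₁dim]
      omega
    · exact Cfsg.Agent.Helper33.OType.nondeg_sup Q hQ X N₁ hX hN₁ horthX
    · intro hW
      have h1 := (Cfsg.Agent.Helper33.o_type_mul Q hQ X N₁ hX hN₁ horthX
        (by rw [hXdim]; exact he₁even) hN₁even).mp hW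
      exact hXty.mp (h1.mpr hN₁pl)
    · rw [Submodule.map_sup]
      refine sup_le_sup ?_ hN₁T
      rintro _ ⟨x, hx, rfl⟩
      rw [hfix x (hXFx hx)]
      exact hx
  · have horthX : OOrth Q Fx N₁ := fun u hu v hv => horth u hu v (hN₁P hv)
    refine ⟨Fx ⊔ N₁, ⟨?_, ?_, ?_⟩, ?_⟩
    · rw [Cfsg.Agent.Helper33.OType.finrank_sup_of_orth Q Fx N₁ hFx horthX, hN₁dim]
      omega
    · exact Cfsg.Agent.Helper33.OType.nondeg_sup Q hQ Fx N₁ hFx hN₁ horthX
    · intro hW
      have h1 := (Cfsg.Agent.Helper33.o_type_mul Q hQ Fx N₁ hFx hN₁ horthX hFxeven hN₁even).mp hW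
      exact hFxmin (h1.mpr hN₁pl)
    · rw [Submodule.map_sup]
      refine sup_le_sup ?_ hN₁T
      rintro _ ⟨x, hx, rfl⟩
      rw [hfix x hx]
      exact hx

end Cfsg.Agent.Helper19.S90G

namespace Cfsg.Agent.Helper19.S90

open Module Cfsg Cfsg.Geo Cfsg.Agent.Helper35.S88
open Cfsg.Agent.Helper96.OH Cfsg.Agent.Helper96.OHAux
open scoped MatrixGroups

variable {F : Type*} [Field F] [Fintype F]

/-- OOG [BIG] (`r` odd `≠ p`, `i` odd, `⟸`). -/
theorem s90_odd_good {p : ℕ} [Fact p.Prime] [CharP F p] {q : ℕ} (hq : Fintype.card F = q)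
    (d m : ℕ) (hd : 4 ≤ d) (hm : 2 ≤ m) (hme : Even m) (hmn : m + 2 ≤ 2 * d) (a b : F)
    (hab : ∀ x y : F, x ^ 2 + a * x * y + b * y ^ 2 = 0 → x = 0 ∧ y = 0) (r : ℕ) [Fact r.Prime]
    (hr2 : 2 < r) (hrp : r ≠ p) (i : ℕ) (hi : i = orderOf (q : ZMod r)) (hodd : Odd i)
    (hcond : (2 * d) % (2 * i) = 0 ∨
      (2 * i ≤ m ∧ 0 < m % (2 * i) ∧ m % (2 * i) ≤ (2 * d) % (2 * i))) :
    AllEll (Cfsg.quadFormMinus (d - 1) F a b) r m := by
  classical
  subst hq
  have hrpr : r.Prime := Fact.out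
  have hrodd : Odd r := hrpr.odd_of_ne_two (by omega)
  have hrF : (r : F) ≠ 0 := oh_rF p r hrp
  have hQ := (Cfsg.Agent.Helper35.TS5973.ts_std_minus (F := F) (d - 1) a b hab).1
  have hmin := (Cfsg.Agent.Helper35.TS5973.ts_std_minus (F := F) (d - 1) a b hab).2
  have hcard : Fintype.card ((Fin (d - 1) ⊕ Fin (d - 1)) ⊕ Fin 2) = 2 * d := by
    simp
    omega
  intro x hx hxr hns
  have hxiso := Cfsg.Agent.Helper97.Gen.omegaGL_le _ hx
  obtain ⟨x', hx', hx'r, hx'1, -, htrans⟩ :=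
    Cfsg.Agent.Helper80.S88.s88_scal (Cfsg.quadFormMinus (d - 1) F a b) hQ r hrodd x hxiso hxr hns
  apply htrans m
  have hT := oh_opres_toLin' (Cfsg.quadFormMinus (d - 1) F a b) x' hx'
  have hTr : Matrix.toLin' (x' : Matrix ((Fin (d - 1) ⊕ Fin (d - 1)) ⊕ Fin 2)
      ((Fin (d - 1) ⊕ Fin (d - 1)) ⊕ Fin 2) F) ^ r = 1 := by
    have h2 : (x' : Matrix ((Fin (d - 1) ⊕ Fin (d - 1)) ⊕ Fin 2)
        ((Fin (d - 1) ⊕ Fin (d - 1)) ⊕ Fin 2) F) ^ r = 1 := by
      rw [← Units.val_pow_eq_pow_val, hx'r]; rfl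
    rw [oh_toLin'_pow_eq, h2, Matrix.toLin'_one]; rfl
  exact Cfsg.Agent.Helper19.S90G.s90g_odd_good (Cfsg.quadFormMinus (d - 1) F a b) hQ d m hcard
    hmin hm hme hmn _ hT r hr2 hrF hTr i hi hodd hcond

end Cfsg.Agent.Helper19.S90
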