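import Mathlib
import Cfsg.Agent.Helper9.BRDefs
import Cfsg.Agent.Helper75.BRSplit
import Cfsg.Agent.Helper75.BRT3
import Cfsg.Agent.Helper80.CharOrtho
import Cfsg.Agent.Helper3.CharBasic

/-!
# CALL S0997 (helper79), piece SQ: `∑_Y θ(y)² = -e` when `y ∈ P#` is not conjugate to its inverse.
-/

set_option autoImplicit false
set_option linter.style.haveILetI false
open Cfsg
open scoped ComplexConjugate

universe u

namespace Cfsg.Agent.Helper19

/-- SQ -/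
theorem s997_sq_sum {G : Type u} [Group G] [Fintype G] {p : ℕ} [Fact p.Prime]
    {M : Ideal Cfsg.AlgInt} (hM : Cfsg.IsPModular p M) (P : Sylow p G)
    (hP : Nat.card (P : Subgroup G) = p)
    (hC : Nat.card (Subgroup.centralizer ((P : Subgroup G) : Set G)) = p) (e : ℕ)
    (T : Cfsg.Agent.Helper9.BRTab p M P e) (y : G) (hy : y ∈ (P : Subgroup G)) (hy1 : y ≠ 1)
    (hnc : ¬ IsConj y y⁻¹) :
    ∑ θ ∈ T.Y, (θ : G → ℂ) y ^ 2 = -(e : ℂ) := by
  classical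
  letI : Fintype (Cfsg.IrrCharacter G) := Fintype.ofFinite _
  have hinv : ∀ χ : Cfsg.IrrCharacter G, conj ((χ : G → ℂ) y⁻¹) = (χ : G → ℂ) y := by
    intro χ
    obtain ⟨n, ρ, -, hχ⟩ := χ.2
    rw [← hχ, Helper3.character_inv ρ y, Complex.conj_conj]
  have hall := Helper80.irr_finsum_column_orthogonality_of_not_isConj hnc
  rw [finsum_eq_sum_of_fintype] at hall
  have hall' : ∑ ζ : Cfsg.IrrCharacter G, (ζ : G → ℂ) y * (ζ : G → ℂ) y = 0 := by
    rw [← hall]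
    exact Finset.sum_congr rfl (fun ζ _ => by rw [hinv ζ])
  have hsplit := Finset.sum_filter_add_sum_filter_not (Finset.univ : Finset (Cfsg.IrrCharacter G))
    (fun ζ : Cfsg.IrrCharacter G => ζ ∈ Cfsg.principalBlock M G)
    (fun ζ : Cfsg.IrrCharacter G => (ζ : G → ℂ) y * (ζ : G → ℂ) y)
  have hout : ∑ ζ ∈ Finset.univ.filter (fun ζ : Cfsg.IrrCharacter G =>
      ¬ ζ ∈ Cfsg.principalBlock M G), (ζ : G → ℂ) y * (ζ : G → ℂ) y = 0 := by
    apply Finset.sum_eq_zero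
    intro ζ hζ
    have hζ' : ζ ∉ Cfsg.principalBlock M G := (Finset.mem_filter.mp hζ).2
    rw [Helper75.br_vanish hM P hP hC ζ hζ' y hy hy1, mul_zero]
  have hset : Cfsg.principalBlock M G
      = ((Finset.univ.filter (fun ζ : Cfsg.IrrCharacter G => ζ ∈ Cfsg.principalBlock M G) :
        Finset (Cfsg.IrrCharacter G)) : Set (Cfsg.IrrCharacter G)) := by
    ext ζ
    simp
  have hin : ∑ ζ ∈ Finset.univ.filter (fun ζ : Cfsg.IrrCharacter G =>
      ζ ∈ Cfsg.principalBlock M G), (ζ : G → ℂ) y * (ζ : G → ℂ) y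
      = ∑ᶠ ζ ∈ Cfsg.principalBlock M G, (ζ : G → ℂ) y * (ζ : G → ℂ) y := by
    conv_rhs => rw [hset]
    rw [finsum_mem_coe_finset]
  rw [hout, add_zero, hall', hin,
    Helper75.br_split T (fun ζ : Cfsg.IrrCharacter G => (ζ : G → ℂ) y * (ζ : G → ℂ) y)] at hsplit
  have hX1 : ∑ χ ∈ T.X1, (χ : G → ℂ) y * (χ : G → ℂ) y = (T.X1.card : ℂ) := by
    rw [Finset.sum_congr rfl (fun χ hχ => by
      rw [Helper75.br_X1_val T χ hχ y hy hy1, mul_one] :
      ∀ χ ∈ T.X1, (χ : G → ℂ) y * (χ : G → ℂ) y = 1)]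
    simp
  have hX2 : ∑ χ ∈ T.X2, (χ : G → ℂ) y * (χ : G → ℂ) y = (T.X2.card : ℂ) := by
    rw [Finset.sum_congr rfl (fun χ hχ => by
      rw [Helper75.br_X2_val T χ hχ y hy hy1, neg_mul_neg, mul_one] :
      ∀ χ ∈ T.X2, (χ : G → ℂ) y * (χ : G → ℂ) y = 1)]
    simp
  have hYsq : ∑ θ ∈ T.Y, (θ : G → ℂ) y ^ 2 = ∑ θ ∈ T.Y, (θ : G → ℂ) y * (θ : G → ℂ) y :=
    Finset.sum_congr rfl (fun θ _ => pow_two _)
  rw [hX1, hX2, Helper81.trivIrr_apply, mul_one] at hsplit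
  have hq : (e : ℂ) = 1 + (T.X1.card : ℂ) + (T.X2.card : ℂ) := by
    have h := T.hcard
    have h' : ((1 + T.X1.card + T.X2.card : ℕ) : ℂ) = (e : ℂ) := congrArg (Nat.cast : ℕ → ℂ) h
    rw [← h']
    push_cast
    ring
  rw [hYsq, hq]
  linear_combination hsplit

end Cfsg.Agent.Helper19
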