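import Mathlib
import Cfsg.Agent.Helper3.SU2Defs

/-!
# CALL S2412C piece ESHIFT (helper19, for helper3)
-/

set_option autoImplicit false

namespace Cfsg.Agent.Helper19

open Cfsg.Agent.Helper3.SU2 Cfsg.Agent.Helper13

variable {F : Type*} [Field F] [Fintype F] {n : ℕ}

/-- shifting a basis vector by a permutation -/
theorem su2c_single_shift (τ : Equiv.Perm (Fin n)) (i : Fin n) (c : F) :
    (fun k => (Pi.single i c : Fin n → F) (τ.symm k)) = Pi.single (τ i) c := by
  funext k
  by_cases hk : k = τ i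
  · subst hk
    simp
  · have hk' : τ.symm k ≠ i := by
      intro h
      apply hk
      rw [← h, Equiv.apply_symm_apply]
    rw [Pi.single_eq_of_ne hk, Pi.single_eq_of_ne hk']

-- === PIECE ESHIFT ===
theorem su2c_eshift {Φ : Set (Fin n → F)} (τ : Equiv.Perm (Fin n))
    (hτ : ∀ v ∈ Φ, (fun i => v (τ.symm i)) ∈ Φ) (i j : Fin n) (h : Edge Φ i j) :
    Edge Φ (τ i) (τ j) := by
  intro μ hμ
  have h1 := hτ _ (h μ hμ)
  have h2 : (fun k => (Pi.single i (1 : F) + μ • Pi.single j (1 : F) : Fin n → F) (τ.symm k)) =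
      Pi.single (τ i) (1 : F) + μ • Pi.single (τ j) (1 : F) := by
    rw [← su2c_single_shift τ i (1 : F), ← su2c_single_shift τ j (1 : F)]
    funext k
    simp only [Pi.add_apply, Pi.smul_apply]
  rw [h2] at h1
  exact h1

end Cfsg.Agent.Helper19
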