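import Mathlib
import Cfsg.Agent.Helper3.SU2Defs

/-!
# CALL S2412C piece F4 (helper19, for helper3)
-/

set_option autoImplicit false

namespace Cfsg.Agent.Helper19

open Cfsg.Agent.Helper3.SU2 Cfsg.Agent.Helper13

variable {F : Type*} [Field F] [Fintype F] {n : ℕ}

-- === PIECE F4 ===
theorem su2c_f4 (hF : Fintype.card F = 2 ^ 2) (ω : F) (hω0 : ω ≠ 0) (hω1 : 1 + ω ≠ 0)
    (hω : 1 + ω + ω ^ 2 = 0) (μ : F) (hμ : μ ≠ 0) : μ = 1 ∨ μ = ω ∨ μ = ω ^ 2 := by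
  have hμ3 : μ ^ 3 = 1 := by
    have h := FiniteField.pow_card_sub_one_eq_one μ hμ
    rw [hF] at h
    exact h
  have hprod : (μ - 1) * ((μ - ω) * (μ - ω ^ 2)) = 0 := by
    linear_combination hμ3 + (-μ ^ 2 + ω * μ - (ω - 1)) * hω
  rcases mul_eq_zero.mp hprod with h | h
  · exact Or.inl (sub_eq_zero.mp h)
  · rcases mul_eq_zero.mp h with h | h
    · exact Or.inr (Or.inl (sub_eq_zero.mp h))
    · exact Or.inr (Or.inr (sub_eq_zero.mp h))

end Cfsg.Agent.Helper19
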