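/-
helper19: piece P1 of helper32's CALL S3797 (the "dihedral lemma").
-/
import Cfsg.Agent.Helper35.Coprime

set_option autoImplicit false

namespace Cfsg.Agent.Helper19

open Subgroup

universe u

variable {G : Type u} [Group G] [Finite G]

/-- If `s` inverts the odd-order element `a` modulo the normal `2`-subgroup `P`, `s ^ 2 ∈ P`
and `a` is fixed-point-free on `P`, then the coset `s P` contains an element of square `1`. -/
theorem shaw_dih (P : Subgroup G) [P.Normal] (hP : IsPGroup 2 P) (s a : G) (hs : s * s ∈ P)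
    (ha : Odd (orderOf a)) (hinv : s⁻¹ * a * s * a ∈ P)
    (hfix : ∀ x ∈ P, x * a = a * x → x = 1) : ∃ y ∈ P, (s * y) * (s * y) = 1 := by
  classical
  have hAN : zpowers a ≤ normalizer (P : Set G) := by
    rw [Subgroup.normalizer_eq_top]; exact le_top
  have hcardA : Nat.card (zpowers a) = orderOf a := Nat.card_zpowers a
  have hcardB : Nat.card (zpowers (s⁻¹ * a * s)) = Nat.card (zpowers a) := by
    rw [hcardA, Nat.card_zpowers]
    have h1 : s⁻¹ * a * s = MulAut.conj s⁻¹ a := by simp [MulAut.conj_apply]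
    rw [h1, MulEquiv.orderOf_eq]
  have hcop : (Nat.card (zpowers a)).Coprime (Nat.card P) := by
    obtain ⟨n, hn⟩ := IsPGroup.iff_card.mp hP
    rw [hn, hcardA]
    exact Nat.Coprime.pow_right n (Nat.Coprime.symm (Nat.coprime_two_left.mpr ha))
  have hBle : zpowers (s⁻¹ * a * s) ≤ P ⊔ zpowers a := by
    rw [zpowers_le]
    have h1 : s⁻¹ * a * s = (s⁻¹ * a * s * a) * a⁻¹ := by group
    rw [h1]
    exact mul_mem (mem_sup_left hinv) (mem_sup_right (inv_mem (mem_zpowers a)))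
  obtain ⟨n, hn, hnAB⟩ := Cfsg.Agent.Helper35.isz hAN hcop (Or.inl inferInstance) hBle hcardB
  have h2 : n * a * n⁻¹ ∈ zpowers (s⁻¹ * a * s) := by
    rw [← hnAB, Cfsg.Agent.Helper35.mem_conj_smul]
    have : n⁻¹ * (n * a * n⁻¹) * n = a := by group
    rw [this]; exact mem_zpowers a
  obtain ⟨k, hk⟩ := mem_zpowers_iff.mp h2
  have h3 : (s * n) * a * (s * n)⁻¹ = a ^ k := by
    have h4 : (s⁻¹ * a * s) ^ k = s⁻¹ * a ^ k * s := by
      have := conj_zpow (a := s⁻¹) (b := a) (i := k)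
      simpa using this
    rw [h4] at hk
    have : (s * n) * a * (s * n)⁻¹ = s * (n * a * n⁻¹) * s⁻¹ := by group
    rw [this, ← hk]; group
  -- `s a s⁻¹ a ∈ P`
  have h5 : s * a * s⁻¹ * a ∈ P := by
    have h6 : a * s * a * s⁻¹ ∈ P := by
      have := ‹P.Normal›.conj_mem _ hinv s
      have e : s * (s⁻¹ * a * s * a) * s⁻¹ = a * s * a * s⁻¹ := by group
      rwa [e] at this
    have := ‹P.Normal›.conj_mem _ h6 a⁻¹
    have e : a⁻¹ * (a * s * a * s⁻¹) * a⁻¹⁻¹ = s * a * s⁻¹ * a := by group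
    rwa [e] at this
  have h7 : a ^ k * a ∈ P := by
    have h8 : n * a * n⁻¹ * a⁻¹ ∈ P := by
      have := ‹P.Normal›.conj_mem _ (inv_mem hn) a
      have e : n * a * n⁻¹ * a⁻¹ = n * (a * n⁻¹ * a⁻¹) := by group
      rw [e]; exact mul_mem hn this
    have h9 := ‹P.Normal›.conj_mem _ h8 s
    have e : a ^ k * a = (s * (n * a * n⁻¹ * a⁻¹) * s⁻¹) * (s * a * s⁻¹ * a) := by
      rw [← h3]; group
    rw [e]; exact mul_mem h9 h5
  have hdisj : P ⊓ zpowers a = ⊥ :=
    disjoint_iff.mp (Subgroup.disjoint_of_coprime_natCard hcop.symm)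
  have h10 : a ^ k * a = 1 := by
    have : a ^ k * a ∈ P ⊓ zpowers a :=
      ⟨h7, mul_mem (zpow_mem (mem_zpowers a) k) (mem_zpowers a)⟩
    rwa [hdisj, mem_bot] at this
  have h11 : (s * n) * a * (s * n)⁻¹ = a⁻¹ := by
    rw [h3]; exact eq_inv_of_mul_eq_one_left h10
  have h12 : (s * n) * (s * n) ∈ P := by
    have := ‹P.Normal›.conj_mem _ hn s⁻¹
    have e : (s * n) * (s * n) = (s * s) * (s⁻¹ * n * s⁻¹⁻¹) * n := by group
    rw [e]; exact mul_mem (mul_mem hs this) hn
  refine ⟨n, hn, hfix _ h12 ?_⟩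
  have h13 : (s * n) * a = a⁻¹ * (s * n) := by
    rw [← h11]; group
  have h14 : (s * n) * a⁻¹ = a * (s * n) := by
    have : a * (s * n) = a * ((s * n) * a) * a⁻¹ := by group
    rw [this, h13]; group
  calc (s * n) * (s * n) * a = (s * n) * ((s * n) * a) := by group
    _ = (s * n) * (a⁻¹ * (s * n)) := by rw [h13]
    _ = ((s * n) * a⁻¹) * (s * n) := by group
    _ = a * (s * n) * (s * n) := by rw [h14]
    _ = a * ((s * n) * (s * n)) := by group

end Cfsg.Agent.Helper19
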