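/-
helper19: piece P3 of helper32's CALL S3797.
-/
import Cfsg.Agent.Helper19.ShawDih

set_option autoImplicit false

namespace Cfsg.Agent.Helper19

open Subgroup

universe u

variable {G : Type u} [Group G] [Finite G]

theorem shaw_step2 (Z : Subgroup G) [Z.Normal] (hZ2 : ∀ z ∈ Z, z * z = 1)
    (hinvol : ∀ x : G, x * x = 1 → x ∈ Z)
    (A : Subgroup G) [A.Normal]
    (hAc : ∀ a ∈ A, ∀ b ∈ A, a * b * a⁻¹ * b⁻¹ ∈ centralizer (Z : Set G))
    (hAirr : ∀ W : Subgroup G, W ≤ Z → (∀ a ∈ A, ∀ w ∈ W, a * w * a⁻¹ ∈ W) → W = ⊥ ∨ W = Z)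
    (P : Subgroup G) [P.Normal] (hP : IsPGroup 2 P) (hZP : Z ≤ P)
    (hPC : P ≤ centralizer (Z : Set G))
    (hsyl : ∀ x ∈ centralizer (Z : Set G), (∃ k : ℕ, x ^ 2 ^ k = 1) → x ∈ P)
    (s : G) (hs : s * s ∈ P) : s ∈ P := by
  classical
  have hCmem : ∀ x : G, x ∈ centralizer (Z : Set G) ↔ ∀ z ∈ Z, z * x = x * z :=
    fun x => Subgroup.mem_centralizer_iff
  have hZinv : ∀ z ∈ Z, z⁻¹ = z := fun z hz => inv_eq_of_mul_eq_one_left (hZ2 z hz)
  have hZcomm : ∀ u ∈ Z, ∀ v ∈ Z, u * v = v * u := by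
    intro u hu v hv
    have h := hZ2 (u * v) (mul_mem hu hv)
    have h1 : u * v = (u * v)⁻¹ := (inv_eq_of_mul_eq_one_left h).symm
    rw [h1, mul_inv_rev, hZinv u hu, hZinv v hv]
  -- 2-elements of P
  have hP2 : ∀ x ∈ P, ∃ k : ℕ, x ^ 2 ^ k = 1 := by
    intro x hx
    obtain ⟨k, hk⟩ := hP ⟨x, hx⟩
    refine ⟨k, ?_⟩
    have := congrArg Subtype.val hk
    simpa using this
  -- key1
  have key1 : ∀ x : G, (∀ b ∈ A, b * x * b⁻¹ * x⁻¹ ∈ centralizer (Z : Set G)) →
      x ∉ centralizer (Z : Set G) → ∀ w ∈ Z, w * x = x * w → w = 1 := by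
    intro x hx hxC
    have hW := hAirr (Z ⊓ centralizer {x}) inf_le_left ?_
    · rcases hW with hW | hW
      · intro w hw hwx
        have : w ∈ Z ⊓ centralizer {x} :=
          mem_inf.mpr ⟨hw, mem_centralizer_singleton_iff.mpr hwx⟩
        rwa [hW, mem_bot] at this
      · exfalso; apply hxC
        rw [hCmem]
        intro z hz
        have h1 : z ∈ Z ⊓ centralizer {x} := by rw [hW]; exact hz
        exact mem_centralizer_singleton_iff.mp (mem_inf.mp h1).2
    · intro a ha w hw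
      have hwZ : w ∈ Z := (mem_inf.mp hw).1
      refine mem_inf.mpr ⟨‹Z.Normal›.conj_mem _ hwZ a, mem_centralizer_singleton_iff.mpr ?_⟩
      have hc := hx a ha
      have hwx := mem_centralizer_singleton_iff.mp (mem_inf.mp hw).2
      have h1 := (hCmem _).mp hc (a * w * a⁻¹) (‹Z.Normal›.conj_mem _ hwZ a)
      symm
      calc x * (a * w * a⁻¹)
          = (a * x * a⁻¹ * x⁻¹)⁻¹ * (a * (x * w) * a⁻¹) := by group
        _ = (a * x * a⁻¹ * x⁻¹)⁻¹ * (a * (w * x) * a⁻¹) := by rw [← hwx]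
        _ = (a * x * a⁻¹ * x⁻¹)⁻¹ * ((a * w * a⁻¹) * (a * x * a⁻¹ * x⁻¹)) * x := by group
        _ = (a * x * a⁻¹ * x⁻¹)⁻¹ * ((a * x * a⁻¹ * x⁻¹) * (a * w * a⁻¹)) * x := by rw [h1]
        _ = a * w * a⁻¹ * x := by group
  -- key2
  have key2 : ∀ x : G, (∀ b ∈ A, b * x * b⁻¹ * x⁻¹ ∈ centralizer (Z : Set G)) →
      x * x ∈ centralizer (Z : Set G) → x ∈ centralizer (Z : Set G) := by
    intro x hx hx2
    by_contra hxC
    apply hxC
    rw [hCmem]
    intro z hz
    have hz' : x * z * x⁻¹ ∈ Z := ‹Z.Normal›.conj_mem _ hz x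
    have hw : z * (x * z * x⁻¹) ∈ Z := mul_mem hz hz'
    have h2 := (hCmem _).mp hx2 z hz
    have hwx : z * (x * z * x⁻¹) * x = x * (z * (x * z * x⁻¹)) := by
      calc z * (x * z * x⁻¹) * x = z * x * z := by group
        _ = (z * (x * x)) * x⁻¹ * z := by group
        _ = ((x * x) * z) * x⁻¹ * z := by rw [h2]
        _ = x * ((x * z * x⁻¹) * z) := by group
        _ = x * (z * (x * z * x⁻¹)) := by rw [hZcomm _ hz' _ hz]
    have h3 := key1 x hx hxC _ hw hwx
    have h4 : x * z * x⁻¹ = z := by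
      have : x * z * x⁻¹ = z⁻¹ := (inv_eq_of_mul_eq_one_right h3).symm
      rw [this, hZinv z hz]
    calc z * x = (x * z * x⁻¹) * x := by rw [h4]
      _ = x * z := by group
  -- powers
  have key3 : ∀ k : ℕ, ∀ x ∈ A, x ^ 2 ^ k ∈ centralizer (Z : Set G) →
      x ∈ centralizer (Z : Set G) := by
    intro k
    induction k with
    | zero => intro x _ hx; simpa using hx
    | succ k ih =>
      intro x hx hxk
      apply ih x hx
      have hy : x ^ 2 ^ k ∈ A := pow_mem hx _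
      apply key2 _ (fun b hb => hAc b hb _ hy)
      have : x ^ 2 ^ (k + 1) = x ^ 2 ^ k * x ^ 2 ^ k := by
        rw [pow_succ, pow_mul, pow_two]
      rwa [this] at hxk
  by_cases hsC : s ∈ centralizer (Z : Set G)
  · apply hsyl s hsC
    obtain ⟨k, hk⟩ := hP2 _ hs
    refine ⟨k + 1, ?_⟩
    rw [pow_succ, mul_comm, pow_mul, pow_two]
    exact hk
  · -- (ii)
    have h1 : ¬ ∀ b ∈ A, b * s * b⁻¹ * s⁻¹ ∈ centralizer (Z : Set G) :=
      fun h => hsC (key2 s h (hPC hs))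
    push Not at h1
    obtain ⟨b, hb, hbC⟩ := h1
    set a0 : G := b * s * b⁻¹ * s⁻¹ with ha0
    have ha0A : a0 ∈ A := by
      have := ‹A.Normal›.conj_mem _ (inv_mem hb) s
      have e : a0 = b * (s * b⁻¹ * s⁻¹) := by rw [ha0]; group
      rw [e]; exact mul_mem hb this
    have hinv0 : s⁻¹ * a0 * s * a0 ∈ P := by
      have h2 := ‹P.Normal›.conj_mem _ hs b
      have h3 := ‹P.Normal›.conj_mem _ h2 s⁻¹
      have e : s⁻¹ * a0 * s * a0 = (s⁻¹ * (b * (s * s) * b⁻¹) * s⁻¹⁻¹) * (s * s)⁻¹ := by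
        rw [ha0]; group
      rw [e]; exact mul_mem h3 (inv_mem hs)
    have hpow : ∀ j : ℕ, s⁻¹ * a0 ^ j * s * a0 ^ j ∈ P := by
      intro j
      induction j with
      | zero => simp
      | succ j ih =>
        have h2 := ‹P.Normal›.conj_mem _ hinv0 (a0 ^ j)⁻¹
        have e : s⁻¹ * a0 ^ (j + 1) * s * a0 ^ (j + 1) =
            (s⁻¹ * a0 ^ j * s * a0 ^ j) * ((a0 ^ j)⁻¹ * (s⁻¹ * a0 * s * a0) * (a0 ^ j)⁻¹⁻¹) := by
          have e1 : a0 ^ (j + 1) = a0 ^ j * a0 := pow_succ a0 j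
          have e2 : a0 ^ (j + 1) = a0 * a0 ^ j := pow_succ' a0 j
          generalize a0 ^ j = t at *
          calc s⁻¹ * a0 ^ (j + 1) * s * a0 ^ (j + 1)
              = s⁻¹ * (t * a0) * s * (a0 * t) := by rw [← e1, ← e2]
            _ = _ := by group
        rw [e]; exact mul_mem ih h2
    -- odd part
    have hord : orderOf a0 ≠ 0 := (orderOf_pos a0).ne'
    obtain ⟨e, m, hm, hem⟩ := Nat.exists_eq_two_pow_mul_odd hord
    set a : G := a0 ^ 2 ^ e with ha
    have haA : a ∈ A := pow_mem ha0A _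
    have haC : a ∉ centralizer (Z : Set G) := fun h => hbC (key3 e a0 ha0A h)
    have hodd : Odd (orderOf a) := by
      have h2 : a ^ m = 1 := by
        rw [ha, ← pow_mul, ← hem, pow_orderOf_eq_one]
      exact Odd.of_dvd_nat hm (orderOf_dvd_of_pow_eq_one h2)
    have hinv : s⁻¹ * a * s * a ∈ P := hpow _
    have hfix : ∀ x ∈ P, x * a = a * x → x = 1 := by
      intro x hx hxa
      by_contra hx1
      have hex := hP2 x hx
      have hk := Nat.find_spec hex
      have hk0 : Nat.find hex ≠ 0 := by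
        intro h0
        rw [h0] at hk
        exact hx1 (by simpa using hk)
      obtain ⟨k, hkk⟩ := Nat.exists_eq_succ_of_ne_zero hk0
      have hy1 : x ^ 2 ^ k ≠ 1 := by
        intro h
        have := Nat.find_min' hex h
        omega
      have hy2 : x ^ 2 ^ k * x ^ 2 ^ k = 1 := by
        rw [hkk] at hk
        rw [← pow_two, ← pow_mul, ← pow_succ]
        exact hk
      have hyZ : x ^ 2 ^ k ∈ Z := hinvol _ hy2
      have hya : x ^ 2 ^ k * a = a * x ^ 2 ^ k := (Commute.pow_left (show Commute x a from hxa) _)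
      exact hy1 (key1 a (fun b hb => hAc b hb a haA) haC _ hyZ hya)
    obtain ⟨y, hy, hy1⟩ := shaw_dih P hP s a hs hodd hinv hfix
    have h2 : s * y ∈ P := hZP (hinvol _ hy1)
    have e : s = (s * y) * y⁻¹ := by group
    rw [e]; exact mul_mem h2 (inv_mem hy)

end Cfsg.Agent.Helper19
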