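import Cfsg.Agent.Helper96.Sp4Q3

/-!
# Piece D of CALL S5787: the orthogonal group of `x² + y²` over the field with 3 elements
-/

set_option autoImplicit false
open Cfsg Cfsg.Geo Matrix Cfsg.Agent.Helper96.Q3

namespace Cfsg.Agent.Helper19.Sp4Q3

variable {F : Type*} [Field F]

set_option synthInstance.maxSize 4096 in
set_option synthInstance.maxHeartbeats 400000 in
set_option maxRecDepth 100000 in
theorem d8_entries_zmod : ∀ p q r s : ZMod 3, p * p + r * r = 1 → p * q + r * s = 0 →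
    q * q + s * s = 1 →
    (p = 1 ∧ q = 0 ∧ r = 0 ∧ s = 1) ∨ (p = -1 ∧ q = 0 ∧ r = 0 ∧ s = -1) ∨
    (p = 0 ∧ q = -1 ∧ r = 1 ∧ s = 0) ∨ (p = 0 ∧ q = 1 ∧ r = -1 ∧ s = 0) ∨
    (p = 1 ∧ q = 0 ∧ r = 0 ∧ s = -1) ∨ (p = -1 ∧ q = 0 ∧ r = 0 ∧ s = 1) ∨
    (p = 0 ∧ q = 1 ∧ r = 1 ∧ s = 0) ∨ (p = 0 ∧ q = -1 ∧ r = -1 ∧ s = 0) := by
  decide

theorem d8_entries [Fintype F] (hF : Fintype.card F = 3) (p q r s : F)
    (h1 : p * p + r * r = 1) (h2 : p * q + r * s = 0) (h3 : q * q + s * s = 1) :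
    (p = 1 ∧ q = 0 ∧ r = 0 ∧ s = 1) ∨ (p = -1 ∧ q = 0 ∧ r = 0 ∧ s = -1) ∨
    (p = 0 ∧ q = -1 ∧ r = 1 ∧ s = 0) ∨ (p = 0 ∧ q = 1 ∧ r = -1 ∧ s = 0) ∨
    (p = 1 ∧ q = 0 ∧ r = 0 ∧ s = -1) ∨ (p = -1 ∧ q = 0 ∧ r = 0 ∧ s = 1) ∨
    (p = 0 ∧ q = 1 ∧ r = 1 ∧ s = 0) ∨ (p = 0 ∧ q = -1 ∧ r = -1 ∧ s = 0) := by
  obtain ⟨e⟩ : Nonempty (ZMod 3 ≃+* F) := ⟨ZMod.ringEquivOfPrime F Nat.prime_three hF⟩
  obtain ⟨p0, rfl⟩ := e.surjective p
  obtain ⟨q0, rfl⟩ := e.surjective q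
  obtain ⟨r0, rfl⟩ := e.surjective r
  obtain ⟨s0, rfl⟩ := e.surjective s
  have h1' : p0 * p0 + r0 * r0 = 1 := e.injective (by simpa using h1)
  have h2' : p0 * q0 + r0 * s0 = 0 := e.injective (by simpa using h2)
  have h3' : q0 * q0 + s0 * s0 = 1 := e.injective (by simpa using h3)
  rcases d8_entries_zmod p0 q0 r0 s0 h1' h2' h3' with
    ⟨rfl, rfl, rfl, rfl⟩ | ⟨rfl, rfl, rfl, rfl⟩ | ⟨rfl, rfl, rfl, rfl⟩ | ⟨rfl, rfl, rfl, rfl⟩ |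
    ⟨rfl, rfl, rfl, rfl⟩ | ⟨rfl, rfl, rfl, rfl⟩ | ⟨rfl, rfl, rfl, rfl⟩ | ⟨rfl, rfl, rfl, rfl⟩
  all_goals simp

theorem d8_list [Fintype F] (hF : Fintype.card F = 3) :
    ∀ b ∈ D8set (F := F), b = 1 ∨ b = -1 ∨ b = mJ ∨ b = -mJ ∨ b = mPhi ∨ b = -mPhi ∨
      b = mJ * mPhi ∨ b = -(mJ * mPhi) := by
  intro b hb
  have hb' : bᵀ * b = 1 := hb
  have e00 := congrFun (congrFun hb' 0) 0
  have e01 := congrFun (congrFun hb' 0) 1
  have e11 := congrFun (congrFun hb' 1) 1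
  simp only [Matrix.mul_apply, Matrix.transpose_apply, Fin.sum_univ_two, Matrix.one_apply_eq,
    ne_eq, zero_ne_one, not_false_eq_true, Matrix.one_apply_ne] at e00 e01 e11
  have hb_eta : b = !![b 0 0, b 0 1; b 1 0, b 1 1] := Matrix.eta_fin_two b
  rcases d8_entries hF (b 0 0) (b 0 1) (b 1 0) (b 1 1) e00 e01 e11 with
    ⟨h1, h2, h3, h4⟩ | ⟨h1, h2, h3, h4⟩ | ⟨h1, h2, h3, h4⟩ | ⟨h1, h2, h3, h4⟩ |
    ⟨h1, h2, h3, h4⟩ | ⟨h1, h2, h3, h4⟩ | ⟨h1, h2, h3, h4⟩ | ⟨h1, h2, h3, h4⟩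
  · left
    rw [hb_eta, h1, h2, h3, h4]
    ext i j; fin_cases i <;> fin_cases j <;> simp
  · right; left
    rw [hb_eta, h1, h2, h3, h4]
    ext i j; fin_cases i <;> fin_cases j <;> simp
  · right; right; left
    rw [hb_eta, h1, h2, h3, h4]
    ext i j; fin_cases i <;> fin_cases j <;> simp [mJ]
  · right; right; right; left
    rw [hb_eta, h1, h2, h3, h4]
    ext i j; fin_cases i <;> fin_cases j <;> simp [mJ]
  · right; right; right; right; left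
    rw [hb_eta, h1, h2, h3, h4]
    ext i j; fin_cases i <;> fin_cases j <;> simp [mPhi]
  · right; right; right; right; right; left
    rw [hb_eta, h1, h2, h3, h4]
    ext i j; fin_cases i <;> fin_cases j <;> simp [mPhi]
  · right; right; right; right; right; right; left
    rw [hb_eta, h1, h2, h3, h4]
    ext i j; fin_cases i <;> fin_cases j <;> simp [mJ, mPhi, Matrix.mul_apply, Fin.sum_univ_two]
  · right; right; right; right; right; right; right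
    rw [hb_eta, h1, h2, h3, h4]
    ext i j; fin_cases i <;> fin_cases j <;> simp [mJ, mPhi, Matrix.mul_apply, Fin.sum_univ_two]

theorem mJ_mul_mJ : (mJ : Matrix (Fin 2) (Fin 2) F) * mJ = -1 := by
  ext i j; fin_cases i <;> fin_cases j <;> simp [mJ, Matrix.mul_apply, Fin.sum_univ_two]

theorem mPhi_mul_mPhi : (mPhi : Matrix (Fin 2) (Fin 2) F) * mPhi = 1 := by
  ext i j; fin_cases i <;> fin_cases j <;> simp [mPhi, Matrix.mul_apply, Fin.sum_univ_two]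

theorem mPhi_mul_mJ : (mPhi : Matrix (Fin 2) (Fin 2) F) * mJ = -(mJ * mPhi) := by
  ext i j; fin_cases i <;> fin_cases j <;> simp [mJ, mPhi, Matrix.mul_apply, Fin.sum_univ_two]

theorem mJ_mul_mJ_mul (X : Matrix (Fin 2) (Fin 2) F) : mJ * (mJ * X) = -X := by
  rw [← mul_assoc, mJ_mul_mJ, neg_mul, one_mul]

theorem mPhi_mul_mPhi_mul (X : Matrix (Fin 2) (Fin 2) F) : mPhi * (mPhi * X) = X := by
  rw [← mul_assoc, mPhi_mul_mPhi, one_mul]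

theorem mPhi_mul_mJ_mul (X : Matrix (Fin 2) (Fin 2) F) :
    mPhi * (mJ * X) = -(mJ * (mPhi * X)) := by
  rw [← mul_assoc, mPhi_mul_mJ, neg_mul, mul_assoc]

/-- Piece D of CALL S5787. -/
theorem d8_facts [Fintype F] (hF : Fintype.card F = 3) :
    (∀ b ∈ D8set (F := F), b = 1 ∨ b = -1 ∨ b = mJ ∨ b = -mJ ∨ b = mPhi ∨ b = -mPhi ∨
      b = mJ * mPhi ∨ b = -(mJ * mPhi)) ∧
    (∀ b ∈ D8set (F := F), b * b = 1 ∨ b * b = -1) ∧
    (∀ b ∈ D8set (F := F), ∀ b' ∈ D8set (F := F), b * b' = b' * b ∨ b * b' = -(b' * b)) := by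
  refine ⟨d8_list hF, ?_, ?_⟩
  · intro b hb
    rcases d8_list hF b hb with rfl | rfl | rfl | rfl | rfl | rfl | rfl | rfl <;>
      simp [mul_assoc, mJ_mul_mJ, mPhi_mul_mPhi, mPhi_mul_mJ, mJ_mul_mJ_mul, mPhi_mul_mPhi_mul,
        mPhi_mul_mJ_mul]
  · intro b hb b' hb'
    rcases d8_list hF b hb with rfl | rfl | rfl | rfl | rfl | rfl | rfl | rfl <;>
    rcases d8_list hF b' hb' with rfl | rfl | rfl | rfl | rfl | rfl | rfl | rfl <;>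
      simp [mul_assoc, mJ_mul_mJ, mPhi_mul_mPhi, mPhi_mul_mJ, mJ_mul_mJ_mul, mPhi_mul_mPhi_mul,
        mPhi_mul_mJ_mul]

end Cfsg.Agent.Helper19.Sp4Q3
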