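import Cfsg.Agent.Helper96.Sp4Q3

/-!
# Piece I of CALL S5787: absolute irreducibility of a group containing
`kr mJ 1`, `kr mT 1`, `kr 1 mJ`, `kr 1 mPhi`
-/

set_option autoImplicit false
open Cfsg Cfsg.Geo Matrix Cfsg.Agent.Helper96.Q3

namespace Cfsg.Agent.Helper19.Sp4Q3

variable {F : Type*} [Field F]

/-- The diagonal of `kr 1 mPhi`. -/
def dPar : Fin 2 ⊕ Fin 2 → F := Sum.elim ![1, -1] ![1, -1]

/-- The diagonal of `kr mPhi 1`. -/
def dBlk : Fin 2 ⊕ Fin 2 → F := Sum.elim ![1, 1] ![-1, -1]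

theorem kr_one_mPhi : kr (1 : Matrix (Fin 2) (Fin 2) F) mPhi = Matrix.diagonal dPar := by
  ext i j
  rcases i with i | i <;> rcases j with j | j <;> fin_cases i <;> fin_cases j <;>
    simp [kr, mPhi, dPar, Matrix.diagonal_apply]

theorem kr_mPhi_one : kr (mPhi : Matrix (Fin 2) (Fin 2) F) 1 = Matrix.diagonal dBlk := by
  ext i j
  rcases i with i | i <;> rcases j with j | j <;> fin_cases i <;> fin_cases j <;>
    simp [kr, mPhi, dBlk, Matrix.diagonal_apply]

theorem kr_two_mPhi :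
    kr (mT : Matrix (Fin 2) (Fin 2) F) 1 - kr mJ 1 * kr mT 1 = (2 : F) • kr mPhi 1 := by
  have e : (2 : F) • (mPhi : Matrix (Fin 2) (Fin 2) F) = mT + -(mJ * mT) := by
    ext i j
    fin_cases i <;> fin_cases j <;>
      simp [mJ, mT, mPhi, Matrix.mul_apply, Fin.sum_univ_two] <;> ring
  rw [kr_mul, mul_one, ← kr_smul_left, e, kr_add_left, kr_neg_left, sub_eq_add_neg]

theorem comm_diagonal_zero {ι : Type*} [Fintype ι] [DecidableEq ι] (M : Matrix ι ι F)
    (dv : ι → F) (h : M * Matrix.diagonal dv = Matrix.diagonal dv * M) {i j : ι}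
    (hij : dv i ≠ dv j) : M i j = 0 := by
  have e := congrFun (congrFun h i) j
  rw [Matrix.mul_diagonal, Matrix.diagonal_mul] at e
  have h0 : M i j * (dv j - dv i) = 0 := by linear_combination e
  rcases mul_eq_zero.mp h0 with h1 | h1
  · exact h1
  · exact absurd (sub_eq_zero.mp h1).symm hij

/-- A matrix commuting with the four Kronecker generators is scalar. -/
theorem kr_commutant (h2 : (2 : F) ≠ 0) (M : Matrix (Fin 2 ⊕ Fin 2) (Fin 2 ⊕ Fin 2) F)
    (c1 : M * kr mJ 1 = kr mJ 1 * M) (c2 : M * kr mT 1 = kr mT 1 * M)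
    (c3 : M * kr 1 mJ = kr 1 mJ * M) (c4 : M * kr 1 mPhi = kr 1 mPhi * M) :
    ∃ c : F, M = c • (1 : Matrix (Fin 2 ⊕ Fin 2) (Fin 2 ⊕ Fin 2) F) := by
  have h1ne : (1 : F) ≠ -1 := by
    intro h
    apply h2
    linear_combination h
  have c5 : M * kr mPhi 1 = kr mPhi 1 * M := by
    have e : M * ((2 : F) • kr mPhi 1) = ((2 : F) • kr mPhi 1) * M := by
      rw [← kr_two_mPhi, Matrix.mul_sub, Matrix.sub_mul, c2, ← Matrix.mul_assoc, c1,
        Matrix.mul_assoc, c2, Matrix.mul_assoc]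
    rw [Matrix.mul_smul, Matrix.smul_mul] at e
    exact smul_right_injective _ h2 e
  rw [kr_one_mPhi] at c4
  rw [kr_mPhi_one] at c5
  have hzero : ∀ i j, i ≠ j → M i j = 0 := by
    intro i j hij
    have hne : (dPar i : F) ≠ dPar j ∨ (dBlk i : F) ≠ dBlk j := by
      rcases i with i | i <;> rcases j with j | j <;> fin_cases i <;> fin_cases j <;>
        simp [dPar, dBlk, h1ne, h1ne.symm] at hij ⊢
    rcases hne with h | h
    · exact comm_diagonal_zero M dPar c4 h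
    · exact comm_diagonal_zero M dBlk c5 h
  have hba : M (Sum.inl 1) (Sum.inl 1) = M (Sum.inl 0) (Sum.inl 0) := by
    have e := congrFun (congrFun c3 (Sum.inl 1)) (Sum.inl 0)
    simp [Matrix.mul_apply, Fintype.sum_sum_type, Fin.sum_univ_two, kr, mJ] at e
    first | exact e | exact e.symm | linear_combination e | linear_combination (-1 : F) * e
  have hdc : M (Sum.inr 1) (Sum.inr 1) = M (Sum.inr 0) (Sum.inr 0) := by
    have e := congrFun (congrFun c3 (Sum.inr 1)) (Sum.inr 0)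
    simp [Matrix.mul_apply, Fintype.sum_sum_type, Fin.sum_univ_two, kr, mJ] at e
    first | exact e | exact e.symm | linear_combination e | linear_combination (-1 : F) * e
  have hca : M (Sum.inr 0) (Sum.inr 0) = M (Sum.inl 0) (Sum.inl 0) := by
    have e := congrFun (congrFun c1 (Sum.inr 0)) (Sum.inl 0)
    simp [Matrix.mul_apply, Fintype.sum_sum_type, Fin.sum_univ_two, kr, mJ] at e
    first | exact e | exact e.symm | linear_combination e | linear_combination (-1 : F) * e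
  refine ⟨M (Sum.inl 0) (Sum.inl 0), ?_⟩
  ext i j
  by_cases hij : i = j
  · subst hij
    rw [Matrix.smul_apply, Matrix.one_apply_eq, smul_eq_mul, mul_one]
    rcases i with i | i <;> fin_cases i
    · rfl
    · exact hba
    · exact hca
    · exact hdc.trans hca
  · rw [hzero i j hij, Matrix.smul_apply, Matrix.one_apply_ne hij, smul_zero]

/-- A subspace invariant under the four Kronecker generators is trivial. -/
theorem kr_irred (h2 : (2 : F) ≠ 0) (W : Submodule F (Fin 2 ⊕ Fin 2 → F))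
    (i1 : ∀ w ∈ W, kr mJ 1 *ᵥ w ∈ W) (i2 : ∀ w ∈ W, kr mT 1 *ᵥ w ∈ W)
    (i3 : ∀ w ∈ W, kr 1 mJ *ᵥ w ∈ W) (i4 : ∀ w ∈ W, kr 1 mPhi *ᵥ w ∈ W) :
    W = ⊥ ∨ W = ⊤ := by
  have i5 : ∀ w ∈ W, kr mPhi 1 *ᵥ w ∈ W := by
    intro w hw
    have e : ((2 : F) • kr mPhi 1) *ᵥ w = kr mT 1 *ᵥ w - kr mJ 1 *ᵥ (kr mT 1 *ᵥ w) := by
      rw [← kr_two_mPhi, Matrix.sub_mulVec, Matrix.mulVec_mulVec]
    have h3 : ((2 : F) • kr mPhi 1) *ᵥ w ∈ W := by
      rw [e]
      exact W.sub_mem (i2 w hw) (i1 _ (i2 w hw))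
    rw [Matrix.smul_mulVec] at h3
    have h4 := W.smul_mem (2 : F)⁻¹ h3
    rwa [smul_smul, inv_mul_cancel₀ h2, one_smul] at h4
  rw [kr_one_mPhi] at i4
  rw [kr_mPhi_one] at i5
  have hproj : ∀ w ∈ W, ∀ i, (Pi.single i (w i) : Fin 2 ⊕ Fin 2 → F) ∈ W := by
    intro w hw i
    have h4 : (4 : F) ≠ 0 := by
      have e4 : (4 : F) = 2 * 2 := by norm_num
      rw [e4]
      exact mul_ne_zero h2 h2
    have hv : w + (dPar i : F) • (Matrix.diagonal dPar *ᵥ w) + (dBlk i : F) • (Matrix.diagonal dBlk *ᵥ w) +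
        ((dPar i : F) * dBlk i) • (Matrix.diagonal dPar *ᵥ (Matrix.diagonal dBlk *ᵥ w)) ∈ W :=
      W.add_mem (W.add_mem (W.add_mem hw (W.smul_mem _ (i4 w hw))) (W.smul_mem _ (i5 w hw)))
        (W.smul_mem _ (i4 _ (i5 w hw)))
    have e : (Pi.single i (w i) : Fin 2 ⊕ Fin 2 → F) = (4 : F)⁻¹ •
        (w + (dPar i : F) • (Matrix.diagonal dPar *ᵥ w) + (dBlk i : F) • (Matrix.diagonal dBlk *ᵥ w) +
        ((dPar i : F) * dBlk i) • (Matrix.diagonal dPar *ᵥ (Matrix.diagonal dBlk *ᵥ w))) := by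
      funext j
      simp only [Pi.add_apply, Pi.smul_apply, Matrix.mulVec_diagonal, smul_eq_mul,
        Pi.single_apply]
      rcases i with i | i <;> rcases j with j | j <;> fin_cases i <;> fin_cases j <;>
        simp [dPar, dBlk] <;> field_simp <;> ring
    rw [e]
    exact W.smul_mem _ hv
  by_cases hW : W = ⊥
  · exact Or.inl hW
  right
  obtain ⟨w, hw, hw0⟩ := (Submodule.ne_bot_iff W).mp hW
  obtain ⟨i, hi⟩ : ∃ i, w i ≠ 0 := by
    by_contra hcon
    push Not at hcon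
    exact hw0 (funext hcon)
  have hei : (Pi.single i (1 : F) : Fin 2 ⊕ Fin 2 → F) ∈ W := by
    have h5 := W.smul_mem (w i)⁻¹ (hproj w hw i)
    rwa [← Pi.single_smul, smul_eq_mul, inv_mul_cancel₀ hi] at h5
  have m3a : kr (1 : Matrix (Fin 2) (Fin 2) F) mJ *ᵥ Pi.single (Sum.inl 0) 1 =
      Pi.single (Sum.inl 1) 1 := by
    funext k
    rcases k with k | k <;> fin_cases k <;>
      simp [Matrix.mulVec, dotProduct, Fintype.sum_sum_type, kr, mJ, Pi.single_apply]
  have m3b : kr (1 : Matrix (Fin 2) (Fin 2) F) mJ *ᵥ Pi.single (Sum.inl 1) 1 =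
      -Pi.single (Sum.inl 0) 1 := by
    funext k
    rcases k with k | k <;> fin_cases k <;>
      simp [Matrix.mulVec, dotProduct, Fintype.sum_sum_type, kr, mJ, Pi.single_apply]
  have m3c : kr (1 : Matrix (Fin 2) (Fin 2) F) mJ *ᵥ Pi.single (Sum.inr 0) 1 =
      Pi.single (Sum.inr 1) 1 := by
    funext k
    rcases k with k | k <;> fin_cases k <;>
      simp [Matrix.mulVec, dotProduct, Fintype.sum_sum_type, kr, mJ, Pi.single_apply]
  have m3d : kr (1 : Matrix (Fin 2) (Fin 2) F) mJ *ᵥ Pi.single (Sum.inr 1) 1 =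
      -Pi.single (Sum.inr 0) 1 := by
    funext k
    rcases k with k | k <;> fin_cases k <;>
      simp [Matrix.mulVec, dotProduct, Fintype.sum_sum_type, kr, mJ, Pi.single_apply]
  have m1a : kr (mJ : Matrix (Fin 2) (Fin 2) F) 1 *ᵥ Pi.single (Sum.inl 0) 1 =
      Pi.single (Sum.inr 0) 1 := by
    funext k
    rcases k with k | k <;> fin_cases k <;>
      simp [Matrix.mulVec, dotProduct, Fintype.sum_sum_type, kr, mJ, Pi.single_apply]
  have m1c : kr (mJ : Matrix (Fin 2) (Fin 2) F) 1 *ᵥ Pi.single (Sum.inr 0) 1 =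
      -Pi.single (Sum.inl 0) 1 := by
    funext k
    rcases k with k | k <;> fin_cases k <;>
      simp [Matrix.mulVec, dotProduct, Fintype.sum_sum_type, kr, mJ, Pi.single_apply]
  have hc_of_d : (Pi.single (Sum.inr 1) (1 : F) : Fin 2 ⊕ Fin 2 → F) ∈ W →
      (Pi.single (Sum.inr 0) (1 : F) : Fin 2 ⊕ Fin 2 → F) ∈ W := by
    intro h
    have h5 := i3 _ h
    rw [m3d] at h5
    exact neg_mem_iff.mp h5
  have ha_of_c : (Pi.single (Sum.inr 0) (1 : F) : Fin 2 ⊕ Fin 2 → F) ∈ W →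
      (Pi.single (Sum.inl 0) (1 : F) : Fin 2 ⊕ Fin 2 → F) ∈ W := by
    intro h
    have h5 := i1 _ h
    rw [m1c] at h5
    exact neg_mem_iff.mp h5
  have ha_of_b : (Pi.single (Sum.inl 1) (1 : F) : Fin 2 ⊕ Fin 2 → F) ∈ W →
      (Pi.single (Sum.inl 0) (1 : F) : Fin 2 ⊕ Fin 2 → F) ∈ W := by
    intro h
    have h5 := i3 _ h
    rw [m3b] at h5
    exact neg_mem_iff.mp h5
  have ha : (Pi.single (Sum.inl 0) (1 : F) : Fin 2 ⊕ Fin 2 → F) ∈ W := by
    rcases i with i | i <;> fin_cases i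
    · exact hei
    · exact ha_of_b hei
    · exact ha_of_c hei
    · exact ha_of_c (hc_of_d hei)
  have hb : (Pi.single (Sum.inl 1) (1 : F) : Fin 2 ⊕ Fin 2 → F) ∈ W := by
    have h5 := i3 _ ha
    rwa [m3a] at h5
  have hc : (Pi.single (Sum.inr 0) (1 : F) : Fin 2 ⊕ Fin 2 → F) ∈ W := by
    have h5 := i1 _ ha
    rwa [m1a] at h5
  have hd : (Pi.single (Sum.inr 1) (1 : F) : Fin 2 ⊕ Fin 2 → F) ∈ W := by
    have h5 := i3 _ hc
    rwa [m3c] at h5
  rw [Submodule.eq_top_iff']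
  intro x
  have hx : x = ∑ k, Pi.single k (x k) := (Finset.univ_sum_single x).symm
  rw [hx]
  refine W.sum_mem fun k _ => ?_
  have e : (Pi.single k (x k) : Fin 2 ⊕ Fin 2 → F) = x k • Pi.single k (1 : F) := by
    rw [← Pi.single_smul, smul_eq_mul, mul_one]
  rw [e]
  apply W.smul_mem
  rcases k with k | k <;> fin_cases k
  · exact ha
  · exact hb
  · exact hc
  · exact hd

/-- Piece I of CALL S5787. -/
theorem kr_absIrred (h2 : (2 : F) ≠ 0) (R : Subgroup (GL (Fin 2 ⊕ Fin 2) F))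
    (h1 : kr mJ 1 ∈ matrixSet R) (h2' : kr mT 1 ∈ matrixSet R) (h3 : kr 1 mJ ∈ matrixSet R)
    (h4 : kr 1 mPhi ∈ matrixSet R) : ActsAbsolutelyIrreducibly (matrixSet R) := by
  refine ⟨?_, ?_⟩
  · intro W hW
    have key : ∀ s ∈ matrixSet R, ∀ w ∈ W, s *ᵥ w ∈ W := by
      intro s hs w hw
      have h5 := hW s hs (Submodule.mem_map_of_mem hw)
      rwa [Matrix.toLin'_apply] at h5
    exact kr_irred h2 W (key _ h1) (key _ h2') (key _ h3) (key _ h4)
  · intro M hM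
    exact kr_commutant h2 M (hM _ h1) (hM _ h2') (hM _ h3) (hM _ h4)

end Cfsg.Agent.Helper19.Sp4Q3
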