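import Mathlib

set_option autoImplicit false

/-!
# Piece INVB of S5979 (helper98): a matrix whose square is a non-square scalar `z` is conjugate
to `[[0, z], [1, 0]] ⊗ 1`.
-/

namespace Cfsg.Agent.Helper19.TEINVB

open Matrix Polynomial
open scoped Kronecker

theorem conj_of_sq_nonsquare {F : Type*} [Field F] {b : ℕ} (z : F) (hz : ¬ IsSquare z)
    (x : Matrix (Fin 2 × Fin b) (Fin 2 × Fin b) F)
    (hx : x * x = z • (1 : Matrix (Fin 2 × Fin b) (Fin 2 × Fin b) F)) :
    ∃ P P' : Matrix (Fin 2 × Fin b) (Fin 2 × Fin b) F, P * P' = 1 ∧ P' * P = 1 ∧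
      x = P * ((!![0, z; 1, 0] : Matrix (Fin 2) (Fin 2) F) ⊗ₖ
        (1 : Matrix (Fin b) (Fin b) F)) * P' := by
  classical
  set g : F[X] := X ^ 2 - C z with hg
  have hgdeg : g.natDegree = 2 := natDegree_X_pow_sub_C
  have hg0 : g ≠ 0 := X_pow_sub_C_ne_zero (by norm_num) z
  have hgirr : Irreducible g := by
    rw [hg, X_pow_sub_C_irreducible_iff_of_prime Nat.prime_two]
    intro c hc
    exact hz ⟨c, by rw [← hc, pow_two]⟩
  have : Fact (Irreducible g) := ⟨hgirr⟩
  let T : Module.End F (Fin 2 × Fin b → F) := Matrix.toLin' x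
  have hTT : ∀ v, T (T v) = z • v := by
    intro v
    show Matrix.toLin' x (Matrix.toLin' x v) = z • v
    rw [Matrix.toLin'_apply, Matrix.toLin'_apply, Matrix.mulVec_mulVec, hx, Matrix.smul_mulVec,
      Matrix.one_mulVec]
  have hT : aeval T g = 0 := by
    rw [hg, map_sub, map_pow, aeval_X, aeval_C]
    refine LinearMap.ext fun v => ?_
    simp only [LinearMap.sub_apply, LinearMap.zero_apply,
      pow_two, Module.End.mul_apply, hTT, Module.algebraMap_end_apply, sub_self]
  let φ : AdjoinRoot g →+* Module.End F (Fin 2 × Fin b → F) :=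
    Ideal.Quotient.lift (Ideal.span {g}) (aeval T).toRingHom (by
      intro a ha
      obtain ⟨c, rfl⟩ := Ideal.mem_span_singleton.mp ha
      show aeval T (g * c) = 0
      rw [map_mul, hT, zero_mul])
  have hφmk : ∀ q : F[X], φ (AdjoinRoot.mk g q) = aeval T q := fun q => rfl
  let _ : Module (AdjoinRoot g) (Fin 2 × Fin b → F) := Module.compHom _ φ
  have hsmul : ∀ (k : AdjoinRoot g) (v : Fin 2 × Fin b → F), k • v = φ k v := fun _ _ => rfl
  have : IsScalarTower F (AdjoinRoot g) (Fin 2 × Fin b → F) := ⟨by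
    intro c k v
    induction k using AdjoinRoot.induction_on with
    | ih q =>
      rw [hsmul, hsmul, AdjoinRoot.smul_mk, hφmk, hφmk, map_smul]
      rfl⟩
  have : Module.Finite (AdjoinRoot g) (Fin 2 × Fin b → F) :=
    Module.Finite.of_restrictScalars_finite F (AdjoinRoot g) (Fin 2 × Fin b → F)
  have hfrK : Module.finrank F (AdjoinRoot g) = 2 := by
    rw [(AdjoinRoot.powerBasis hg0).finrank, AdjoinRoot.powerBasis_dim, hgdeg]
  have hfrV : Module.finrank F (Fin 2 × Fin b → F) = 2 * b := by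
    rw [Module.finrank_fintype_fun_eq_card]; simp
  have hfr : Module.finrank (AdjoinRoot g) (Fin 2 × Fin b → F) = b := by
    have h := Module.finrank_mul_finrank F (AdjoinRoot g) (Fin 2 × Fin b → F)
    rw [hfrK, hfrV] at h
    omega
  let cV : Module.Basis (Fin b) (AdjoinRoot g) (Fin 2 × Fin b → F) :=
    Module.finBasisOfFinrankEq (AdjoinRoot g) (Fin 2 × Fin b → F) hfr
  have hdim : (AdjoinRoot.powerBasis hg0).dim = 2 := by
    rw [AdjoinRoot.powerBasis_dim, hgdeg]
  let bK : Module.Basis (Fin 2) F (AdjoinRoot g) :=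
    (AdjoinRoot.powerBasis hg0).basis.reindex (finCongr hdim)
  have hbK : ∀ i : Fin 2, bK i = AdjoinRoot.root g ^ (i : ℕ) := by
    intro i
    simp [bK, PowerBasis.coe_basis, AdjoinRoot.powerBasis_gen]
  let f : Module.Basis (Fin 2 × Fin b) F (Fin 2 × Fin b → F) := bK.smulTower cV
  have hf0 : ∀ j, f (0, j) = cV j := by
    intro j
    rw [Module.Basis.smulTower_apply, hbK]
    simp
  have hf1 : ∀ j, f (1, j) = T (cV j) := by
    intro j
    rw [Module.Basis.smulTower_apply, hbK]
    simp only [Fin.val_one, pow_one]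
    rw [hsmul, ← AdjoinRoot.mk_X, hφmk, aeval_X]
  have hT0 : ∀ j, T (f (0, j)) = f (1, j) := by
    intro j; rw [hf0, hf1]
  have hT1 : ∀ j, T (f (1, j)) = z • f (0, j) := by
    intro j; rw [hf1, hf0, hTT]
  have hM : LinearMap.toMatrix f f T = (!![0, z; 1, 0] : Matrix (Fin 2) (Fin 2) F) ⊗ₖ
      (1 : Matrix (Fin b) (Fin b) F) := by
    ext ⟨i', j'⟩ ⟨i, j⟩
    rw [LinearMap.toMatrix_apply, Matrix.kroneckerMap_apply]
    fin_cases i
    · show f.repr (T (f (0, j))) (i', j') = _
      rw [hT0, Module.Basis.repr_self, Finsupp.single_apply]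
      by_cases hj : j' = j
      · subst hj
        fin_cases i' <;> simp
      · have hj' : ¬ j = j' := fun h => hj h.symm
        fin_cases i' <;> simp [hj, hj']
    · show f.repr (T (f (1, j))) (i', j') = _
      rw [hT1, map_smul, Module.Basis.repr_self, Finsupp.smul_apply, Finsupp.single_apply]
      by_cases hj : j' = j
      · subst hj
        fin_cases i' <;> simp
      · have hj' : ¬ j = j' := fun h => hj h.symm
        fin_cases i' <;> simp [hj, hj']
  refine ⟨(Pi.basisFun F (Fin 2 × Fin b)).toMatrix f, f.toMatrix (Pi.basisFun F (Fin 2 × Fin b)),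
    Module.Basis.toMatrix_mul_toMatrix_flip _ _, Module.Basis.toMatrix_mul_toMatrix_flip _ _, ?_⟩
  rw [← hM, basis_toMatrix_mul_linearMap_toMatrix_mul_basis_toMatrix,
    LinearMap.toMatrix_eq_toMatrix', LinearMap.toMatrix'_toLin']

end Cfsg.Agent.Helper19.TEINVB
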