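import Mathlib

set_option autoImplicit false

/-!
# Piece XC2b of S5979 (helper98): a matrix with characteristic polynomial `Φ * (X - 1) ^ (n - k)`
for a monic irreducible factor `Φ` of `X ^ r - 1`.
-/

namespace Cfsg.Agent.Helper19.TEXC2b

open Matrix Polynomial
open scoped Kronecker

theorem exists_mat_of_factor {F : Type*} [Field F] [Fintype F] (r : ℕ) (hr : r.Prime)
    (hnd : ¬ r ∣ Fintype.card F - 1) (Φ : F[X]) (hm : Φ.Monic) (hirr : Irreducible Φ)
    (hdvd : Φ ∣ X ^ r - 1) (n : ℕ) (hn : Φ.natDegree ≤ n) :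
    ∃ x : Matrix (Fin n) (Fin n) F, x ^ r = 1 ∧ x.det = 1 ∧
      x.charpoly = Φ * (X - 1) ^ (n - Φ.natDegree) := by
  classical
  have hΦ0 : Φ ≠ 0 := hm.ne_zero
  let pb : PowerBasis F (AdjoinRoot Φ) := AdjoinRoot.powerBasis hΦ0
  have hdim : pb.dim = Φ.natDegree := AdjoinRoot.powerBasis_dim hΦ0
  let x0 : Matrix (Fin pb.dim) (Fin pb.dim) F := Algebra.leftMulMatrix pb.basis pb.gen
  have hx0char : x0.charpoly = Φ := by
    show (Algebra.leftMulMatrix pb.basis pb.gen).charpoly = Φ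
    rw [charpoly_leftMulMatrix]
    exact AdjoinRoot.minpoly_powerBasis_gen_of_monic hm hΦ0
  have hgen : pb.gen ^ r = 1 := by
    have h1 : pb.gen = AdjoinRoot.root Φ := AdjoinRoot.powerBasis_gen hΦ0
    rw [h1]
    have h2 : AdjoinRoot.mk Φ (X ^ r - 1) = 0 := AdjoinRoot.mk_eq_zero.mpr hdvd
    rw [map_sub, map_pow, AdjoinRoot.mk_X, map_one] at h2
    exact sub_eq_zero.mp h2
  have hx0r : x0 ^ r = 1 := by
    show (Algebra.leftMulMatrix pb.basis pb.gen) ^ r = 1
    rw [← map_pow, hgen, map_one]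
  have hcard : pb.dim + (n - Φ.natDegree) = n := by omega
  let e : Fin pb.dim ⊕ Fin (n - Φ.natDegree) ≃ Fin n := finSumFinEquiv.trans (finCongr hcard)
  let y : Matrix (Fin pb.dim ⊕ Fin (n - Φ.natDegree)) (Fin pb.dim ⊕ Fin (n - Φ.natDegree)) F :=
    Matrix.fromBlocks x0 0 0 1
  have hyr : y ^ r = 1 := by
    show (Matrix.fromBlocks x0 0 0 1) ^ r = 1
    rw [Matrix.fromBlocks_diagonal_pow, hx0r, one_pow, Matrix.fromBlocks_one]
  have hychar : y.charpoly = Φ * (X - 1) ^ (n - Φ.natDegree) := by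
    show (Matrix.fromBlocks x0 0 0 1).charpoly = _
    rw [Matrix.charpoly_fromBlocks_zero₁₂, hx0char, Matrix.charpoly_one, Fintype.card_fin]
  have hxr : (Matrix.reindex e e y) ^ r = 1 := by
    have h1 : Matrix.reindex e e y = Matrix.reindexAlgEquiv F F e y := rfl
    rw [h1, ← map_pow, hyr, map_one]
  refine ⟨Matrix.reindex e e y, hxr, ?_, ?_⟩
  · have h1 : (Matrix.reindex e e y).det ^ r = 1 := by
      rw [← Matrix.det_pow, hxr, Matrix.det_one]
    have h0 : (Matrix.reindex e e y).det ≠ 0 := by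
      intro h
      rw [h, zero_pow hr.ne_zero] at h1
      exact zero_ne_one h1
    have h2 : (Matrix.reindex e e y).det ^ (Fintype.card F - 1) = 1 :=
      FiniteField.pow_card_sub_one_eq_one _ h0
    have h3 : (Matrix.reindex e e y).det ^ (r.gcd (Fintype.card F - 1)) = 1 :=
      pow_gcd_eq_one.mpr ⟨h1, h2⟩
    have h4 : r.gcd (Fintype.card F - 1) = 1 := (Nat.Prime.coprime_iff_not_dvd hr).mpr hnd
    rw [h4, pow_one] at h3
    exact h3
  · rw [Matrix.charpoly_reindex, hychar]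

end Cfsg.Agent.Helper19.TEXC2b
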