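import Mathlib
import Cfsg.Agent.Helper95.UBNDefs

/-!
# CALL S2546 piece CHB (helper19, for helper95): a Witt basis of the standard hermitian form.
-/

set_option autoImplicit false

namespace Cfsg.Agent.Helper19.UBN

open Matrix Cfsg.Agent.Helper95.UBN

variable {F : Type*} [Field F] {n : ℕ}

-- === PIECE CHB ===
theorem p_CHB (τ : F →+* F) (hτ : ∀ x, τ (τ x) = x) (β β' : F) (hβ : β * τ β = -1)
    (hβ' : β' * τ β' = -1) (hne : β ≠ β') (n : ℕ) :
    ∃ P : Matrix (Fin n) (Fin n) F, P.det ≠ 0 ∧
      ∀ a b, ∑ i, P i a * τ (P i b) = if b = Fin.rev a then 1 else 0 := by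
  classical
  have hβ0 : β ≠ 0 := by
    rintro rfl
    rw [zero_mul] at hβ
    exact (neg_ne_zero.mpr one_ne_zero) hβ.symm
  have h1 : 1 + β * τ β' ≠ 0 := by
    intro h
    apply hne
    have h2 : β * τ β' = β * τ β := by rw [hβ]; linear_combination h
    have h3 : τ β' = τ β := mul_left_cancel₀ hβ0 h2
    exact (τ.injective h3).symm
  obtain ⟨lam, hlam⟩ : ∃ lam : F, lam = (τ (1 + β * τ β'))⁻¹ := ⟨_, rfl⟩
  have hτlam : τ lam * (1 + β * τ β') = 1 := by
    rw [hlam, map_inv₀, hτ, inv_mul_cancel₀ h1]
  have hlam2 : lam * (1 + β' * τ β) = 1 := by
    have e : τ (1 + β * τ β') = 1 + β' * τ β := by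
      rw [map_add, map_one, map_mul, hτ, mul_comm]
    rw [hlam, e]
    have h1' : 1 + β' * τ β ≠ 0 := by
      rw [← e]
      intro h
      exact h1 (τ.injective (by rw [h, map_zero]))
    exact inv_mul_cancel₀ h1'
  -- the columns
  let x : Fin n → F := fun a => if a < Fin.rev a then 1 else if Fin.rev a < a then lam * β' else 1
  let y : Fin n → F := fun a => if a < Fin.rev a then β else if Fin.rev a < a then lam else 0
  let P : Matrix (Fin n) (Fin n) F :=
    Matrix.of fun i a => if i = a then x a else if i = Fin.rev a then y a else 0
  have hPdef : ∀ i a, P i a = if i = a then x a else if i = Fin.rev a then y a else 0 :=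
    fun i a => rfl
  have hgram : ∀ a b, ∑ i, P i a * τ (P i b) = if b = Fin.rev a then 1 else 0 := by
    intro a b
    by_cases hmid : a = Fin.rev a
    · -- middle index
      have hx : x a = 1 := by
        show (if a < Fin.rev a then (1 : F) else if Fin.rev a < a then lam * β' else 1) = 1
        rw [if_neg (by rw [← hmid]; exact lt_irrefl a), if_neg (by rw [← hmid]; exact lt_irrefl a)]
      have hs : ∑ i, P i a * τ (P i b) = P a a * τ (P a b) := by
        apply Finset.sum_eq_single a
        · intro i _ hi
          have : P i a = 0 := by
            rw [hPdef, if_neg hi, if_neg (by rw [← hmid]; exact hi)]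
          rw [this, zero_mul]
        · intro h; exact absurd (Finset.mem_univ _) h
      rw [hs, hPdef a a, if_pos rfl, hx, one_mul]
      by_cases hb : b = Fin.rev a
      · rw [if_pos hb]
        have hba : b = a := by rw [hb, ← hmid]
        rw [hba, hPdef a a, if_pos rfl, hx, map_one]
      · rw [if_neg hb]
        have hab : a ≠ b := by
          intro h; apply hb; rw [← h]; exact hmid
        have hab' : a ≠ Fin.rev b := by
          intro h; apply hb; rw [h, Fin.rev_rev]
        rw [hPdef a b, if_neg hab, if_neg hab', map_zero]
    · -- hyperbolic pair `a`, `rev a`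
      have hra : Fin.rev a ≠ a := fun h => hmid h.symm
      have hs : ∑ i, P i a * τ (P i b)
          = P a a * τ (P a b) + P (Fin.rev a) a * τ (P (Fin.rev a) b) := by
        rw [← Finset.sum_pair (f := fun i => P i a * τ (P i b)) hmid]
        symm
        apply Finset.sum_subset (Finset.subset_univ _)
        intro i _ hi
        rw [Finset.mem_insert, Finset.mem_singleton, not_or] at hi
        have : P i a = 0 := by rw [hPdef, if_neg hi.1, if_neg hi.2]
        rw [this, zero_mul]
      rw [hs, hPdef a a, if_pos rfl, hPdef (Fin.rev a) a, if_neg hra, if_pos rfl]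
      by_cases hb : b = Fin.rev a
      · rw [if_pos hb, hPdef a b, if_neg (by rw [hb]; exact hmid),
          if_pos (by rw [hb, Fin.rev_rev]), hPdef (Fin.rev a) b, if_pos hb.symm, hb]
        rcases lt_or_gt_of_ne hmid with hlt | hgt
        · have hx : x a = 1 := if_pos hlt
          have hy : y a = β := if_pos hlt
          have hnl : ¬ (Fin.rev a < Fin.rev (Fin.rev a)) := by
            rw [Fin.rev_rev]; exact not_lt.mpr hlt.le
          have hl2 : Fin.rev (Fin.rev a) < Fin.rev a := by rw [Fin.rev_rev]; exact hlt
          have hxb : x (Fin.rev a) = lam * β' := by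
            show (if Fin.rev a < Fin.rev (Fin.rev a) then (1 : F)
              else if Fin.rev (Fin.rev a) < Fin.rev a then lam * β' else 1) = lam * β'
            rw [if_neg hnl, if_pos hl2]
          have hyb : y (Fin.rev a) = lam := by
            show (if Fin.rev a < Fin.rev (Fin.rev a) then β
              else if Fin.rev (Fin.rev a) < Fin.rev a then lam else 0) = lam
            rw [if_neg hnl, if_pos hl2]
          rw [hx, hy, hxb, hyb, map_mul]
          linear_combination hτlam
        · have hnl : ¬ (a < Fin.rev a) := not_lt.mpr hgt.le
          have hx : x a = lam * β' := by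
            show (if a < Fin.rev a then (1 : F) else if Fin.rev a < a then lam * β' else 1)
              = lam * β'
            rw [if_neg hnl, if_pos hgt]
          have hy : y a = lam := by
            show (if a < Fin.rev a then β else if Fin.rev a < a then lam else 0) = lam
            rw [if_neg hnl, if_pos hgt]
          have hl2 : Fin.rev a < Fin.rev (Fin.rev a) := by rw [Fin.rev_rev]; exact hgt
          have hxb : x (Fin.rev a) = 1 := if_pos hl2
          have hyb : y (Fin.rev a) = β := if_pos hl2
          rw [hx, hy, hxb, hyb, map_one]
          linear_combination hlam2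
      · rw [if_neg hb]
        by_cases hba : b = a
        · rw [hba, hPdef a a, if_pos rfl, hPdef (Fin.rev a) a, if_neg hra, if_pos rfl]
          rcases lt_or_gt_of_ne hmid with hlt | hgt
          · have hx : x a = 1 := if_pos hlt
            have hy : y a = β := if_pos hlt
            rw [hx, hy, map_one]
            linear_combination hβ
          · have hnl : ¬ (a < Fin.rev a) := not_lt.mpr hgt.le
            have hx : x a = lam * β' := by
              show (if a < Fin.rev a then (1 : F) else if Fin.rev a < a then lam * β' else 1)
                = lam * β'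
              rw [if_neg hnl, if_pos hgt]
            have hy : y a = lam := by
              show (if a < Fin.rev a then β else if Fin.rev a < a then lam else 0) = lam
              rw [if_neg hnl, if_pos hgt]
            rw [hx, hy, map_mul]
            linear_combination (lam * τ lam) * hβ'
        · have h1' : a ≠ b := fun h => hba h.symm
          have h2' : a ≠ Fin.rev b := by
            intro h; apply hb; rw [h, Fin.rev_rev]
          have h3' : Fin.rev a ≠ b := fun h => hb h.symm
          have h4' : Fin.rev a ≠ Fin.rev b := fun h => h1' (Fin.rev_injective h)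
          rw [hPdef a b, if_neg h1', if_neg h2', hPdef (Fin.rev a) b, if_neg h3', if_neg h4',
            map_zero, mul_zero, mul_zero, add_zero]
  refine ⟨P, ?_, hgram⟩
  -- the determinant
  let A : Matrix (Fin n) (Fin n) F := Matrix.of fun a b => if b = Fin.rev a then 1 else 0
  have hPA : Pᵀ * P.map τ = A := by
    ext a b
    rw [Matrix.mul_apply]
    simp only [Matrix.transpose_apply, Matrix.map_apply]
    exact hgram a b
  have hAA : A * A = 1 := by
    ext a c
    rw [Matrix.mul_apply, Finset.sum_eq_single (Fin.rev a)]
    · show (if Fin.rev a = Fin.rev a then (1 : F) else 0)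
        * (if c = Fin.rev (Fin.rev a) then 1 else 0) = (1 : Matrix (Fin n) (Fin n) F) a c
      rw [if_pos rfl, one_mul, Fin.rev_rev, Matrix.one_apply]
      by_cases h : a = c
      · rw [if_pos h.symm, if_pos h]
      · rw [if_neg (fun h' => h h'.symm), if_neg h]
    · intro b _ hb
      show (if b = Fin.rev a then (1 : F) else 0) * _ = 0
      rw [if_neg hb, zero_mul]
    · intro h; exact absurd (Finset.mem_univ _) h
  have hdetA : A.det ≠ 0 := by
    intro h
    have := congrArg Matrix.det hAA
    rw [Matrix.det_mul, h, zero_mul, Matrix.det_one] at this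
    exact zero_ne_one this
  intro hP0
  apply hdetA
  rw [← hPA, Matrix.det_mul, Matrix.det_transpose, hP0, zero_mul]

end Cfsg.Agent.Helper19.UBN
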